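import Mathlib
import Cfsg.Prelude.Def_Blocks

/-!
# Winter's theorem (S4467): statement of the pieces

`G` solvable with a faithful irreducible character of degree `n`, a Sylow `p`-subgroup not normal:
`n` is divisible by a prime power `q > 1` with `q ≡ -1, 0, 1 (mod p)`.
-/

set_option autoImplicit false

namespace Cfsg.Agent.Lib.Helper74.WinStmt

open Cfsg

universe u

/-- The conclusion of the theorem. -/
def Good (p n : ℕ) : Prop :=
  ∃ q : ℕ, IsPrimePow q ∧ q ∣ n ∧
    ((q : ℤ) ≡ -1 [ZMOD p] ∨ (q : ℤ) ≡ 0 [ZMOD p] ∨ (q : ℤ) ≡ 1 [ZMOD p])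

/-- The conclusion of the permutation lemma. -/
def Good01 (p n : ℕ) : Prop :=
  ∃ q : ℕ, IsPrimePow q ∧ q ∣ n ∧ ((q : ℤ) ≡ 0 [ZMOD p] ∨ (q : ℤ) ≡ 1 [ZMOD p])

/-- Faithful class function. -/
def Faithful {G : Type u} [Group G] (χ : G → ℂ) : Prop := ∀ g : G, χ g = χ 1 → g = 1

/-- The theorem for the group `H` and the prime `p`. -/
def WinAt (H : Type u) [Group H] (p : ℕ) : Prop :=
  ∀ θ : IrrCharacter H, Faithful (θ : H → ℂ) → (∃ Q : Sylow p H, ¬ (Q : Subgroup H).Normal) →
    Good p (charDegree (θ : H → ℂ))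

/-- BR: if `P ⊓ N` is not normal in `G` (`N` normal in `G`, `P` a Sylow `p`-subgroup of `G`), then
`N` has a non-normal Sylow `p`-subgroup.  (If the Sylow `p`-subgroup `Q` of `N` is normal in `N`,
it is characteristic in `N`, so normal in `G`, so contained in `P`, so equal to `P ⊓ N`.) -/
def Br : Prop :=
  ∀ (G : Type u) [Group G] [Finite G] (p : ℕ), p.Prime → ∀ (P : Sylow p G) (N : Subgroup G),
    N.Normal → ¬ ((P : Subgroup G) ⊓ N).Normal → ∃ Q : Sylow p ↥N, ¬ (Q : Subgroup ↥N).Normal

/-- R1: descent to the sections `N ⧸ K` of a normal subgroup `N` with a non-normal Sylow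
`p`-subgroup.  (Take the irreducible constituents `θ` of `χ` restricted to `N`; their degrees
divide that of `χ`; their kernels `K_θ` meet trivially since `χ` is faithful; if every
`N ⧸ K_θ` had a normal Sylow `p`-subgroup then the product of two `p`-elements of `N` would be a
`p`-element modulo each `K_θ`, hence a `p`-element, and the Sylow `p`-subgroup of `N` would be
normal.  So some `N ⧸ K_θ` has a non-normal Sylow `p`-subgroup, and `θ` deflates to a faithful
irreducible character of `N ⧸ K_θ` of the same degree.) -/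
def R1 : Prop :=
  ∀ (G : Type u) [Group G] [Finite G] (χ : IrrCharacter G), Faithful (χ : G → ℂ) →
    ∀ (p : ℕ), p.Prime → ∀ (N : Subgroup G), N.Normal →
    (∃ Q : Sylow p ↥N, ¬ (Q : Subgroup ↥N).Normal) →
    (∀ (K : Subgroup ↥N) [K.Normal], WinAt (↥N ⧸ K) p) → Good p (charDegree (χ : G → ℂ))

/-- R2: if every proper normal subgroup `N` has `P ⊓ N` normal but `P` is not normal, then some
`x ∈ P` lies in no proper normal subgroup.  (Take a maximal normal subgroup `M`; `G ⧸ M` has prime
order; `P ≰ M`, so the order is `p` and `P ⊓ M` has index `p` in `P`; take `x ∈ P`, `x ∉ M`; if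
`x ∈ N` proper normal then `(P ⊓ N) ⊔ (P ⊓ M)` is a normal subgroup, contained in `P`, properly
containing `P ⊓ M`, so it is `P`.) -/
def R2 : Prop :=
  ∀ (G : Type u) [Group G] [Finite G], Group.IsSolvable G → ∀ (p : ℕ), p.Prime →
    ∀ (P : Sylow p G), ¬ (P : Subgroup G).Normal →
    (∀ N : Subgroup G, N.Normal → N ≠ ⊤ → ((P : Subgroup G) ⊓ N).Normal) →
    ∃ x ∈ (P : Subgroup G), ∀ N : Subgroup G, N.Normal → x ∈ N → N = ⊤

/-- R3A: Clifford for an abelian normal subgroup `A`: with `T` the inertia group of a (linear)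
constituent `μ` of `χ` restricted to `A`, the index of `T` divides the degree of `χ`, and if
`T = ⊤` then `χ` restricted to `A` is a multiple of `μ`, so `A` lies in the centre of `χ`, which is
the centre of `G` as `χ` is faithful. -/
def R3a : Prop :=
  ∀ (G : Type u) [Group G] [Finite G] (χ : IrrCharacter G), Faithful (χ : G → ℂ) →
    ∀ (A : Subgroup G), A.Normal → (∀ a ∈ A, ∀ b ∈ A, a * b = b * a) →
    ∃ T : Subgroup G, T.index ∣ charDegree (χ : G → ℂ) ∧ (T = ⊤ → A ≤ Subgroup.center G)

/-- PRIMA: structure of a solvable group modulo the core `K` of a maximal subgroup `M`: there is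
`V` normal in `G` with `K ≤ V`, `|V : K| = |G : M|` a power of a prime `q`, and every element
centralizing `V` modulo `K` lies in `V`.  (Take `V ⧸ K` a minimal normal subgroup of `G ⧸ K`: an
elementary abelian `q`-group; `V ≰ M`, so `V ⊔ M = ⊤`; `V ⊓ M` is normalized by `M` and by `V`,
so it is normal, so it is `K`; `D = {g | [g, V] ≤ K}` is normal, `D ⊓ M` is normalized by `M` and
`V`, so `D ⊓ M ≤ K` and `D = V ⊔ (D ⊓ M) = V`.) -/
def PrimA : Prop :=
  ∀ (G : Type u) [Group G] [Finite G], Group.IsSolvable G → ∀ (M : Subgroup G), IsCoatom M →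
    ∃ (V : Subgroup G) (q k : ℕ), q.Prime ∧ V.Normal ∧ M.normalCore ≤ V ∧
      M.normalCore.relIndex V = q ^ k ∧ M.index = q ^ k ∧
      ∀ g : G, (∀ v ∈ V, g * v * g⁻¹ * v⁻¹ ∈ M.normalCore) → g ∈ V

/-- PRIMB: a `p`-element `y` outside the core `K` of `M`, in the situation of `PrimA`.  (If `q = p`
take `q ^ k`.  Otherwise `y ∉ V`, because a `p`-element of `V` is trivial modulo `K`; so `y` does
not centralize `V ⧸ K`; the fixed points of `y` on `V ⧸ K` form a proper subgroup, of order
`q ^ c`, and `q ^ k ≡ q ^ c (mod p)` by the orbit count for the `p`-group generated by `y`;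
so `q ^ (k - c) ≡ 1`.) -/
def PrimB : Prop :=
  ∀ (G : Type u) [Group G] [Finite G] (p : ℕ), p.Prime → ∀ (K V : Subgroup G) (q k : ℕ),
    q.Prime → K.Normal → V.Normal → K ≤ V → K.relIndex V = q ^ k →
    (∀ g : G, (∀ v ∈ V, g * v * g⁻¹ * v⁻¹ ∈ K) → g ∈ V) →
    ∀ y : G, IsPGroup p ↥(Subgroup.zpowers y) → y ∉ K → Good01 p (q ^ k)

/-- The permutation lemma, in coset form: a solvable group `G`, a subgroup `T`, a `p`-element `y`
acting nontrivially on the cosets of `T`: the index of `T` is divisible by a prime power `q > 1`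
with `q ≡ 0` or `1 (mod p)`. -/
def LemP : Prop :=
  ∀ (G : Type u) [Group G] [Finite G], Group.IsSolvable G → ∀ (p : ℕ), p.Prime →
    ∀ (T : Subgroup G) (y : G), IsPGroup p ↥(Subgroup.zpowers y) → y ∉ T.normalCore →
    Good01 p T.index

/-- PIND: the permutation lemma by induction on `|G|`.  (Take a maximal subgroup `M ≥ T`.  If
`y ∉ core M`: `PrimA`, `PrimB` give a prime power dividing `|G : M|`, which divides `|G : T|`.
Otherwise some conjugate `y'` of `y` is not in `T`; it lies in `core M ≤ M`; induction applied to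
`M`, `T ⊓ M` and `y'` gives a prime power dividing `|M : T|`.) -/
def PInd : Prop := PrimA.{u} → PrimB.{u} → LemP.{u}

/-- MINU: a minimal non-central normal subgroup `U` of a solvable group in which all abelian normal
subgroups are central.  (`U` is not abelian; normal subgroups of `G` properly contained in `U` are
central; so `⁅U, U⁆` is central, `U` is nilpotent, its Sylow subgroups are characteristic in `U`,
hence normal in `G`; if all were proper, all would be central, and then `U ⊓ centre` would have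
order divisible by `|U|`.  So `U` is a `q`-group.  The centre of `U` is abelian and normal in
`G`.) -/
def MinU : Prop :=
  ∀ (G : Type u) [Group G] [Finite G], Group.IsSolvable G →
    (∀ A : Subgroup G, A.Normal → (∀ a ∈ A, ∀ b ∈ A, a * b = b * a) → A ≤ Subgroup.center G) →
    (∃ a b : G, a * b ≠ b * a) →
    ∃ (U : Subgroup G) (q : ℕ), q.Prime ∧ U.Normal ∧ IsPGroup q ↥U ∧ ¬ U ≤ Subgroup.center G ∧
      (∀ a ∈ U, ∀ b ∈ U, a * b * a⁻¹ * b⁻¹ ∈ Subgroup.center G) ∧
      (∀ z ∈ U, (∀ u ∈ U, z * u = u * z) → z ∈ Subgroup.center G)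

/-- CENT: `U` a normal `q`-subgroup with central commutators, `x` a `p`-element, `p ≠ q`: the centre
of `C_U(x)` is contained in the centre of `U`.  (Let `m` be the order of `x`, `z` in the centre
of `C_U(x)`, `u ∈ U`, and `w` the product of the `x ^ i * u * x ^ (-i)`, `i < m`.  Then
`x * w * x⁻¹ = u⁻¹ * w * u = w * c` with `c` central in `G`, `c ∈ U`, and `c ^ m = 1`, so
`c = 1` and `w ∈ C_U(x)`.  So `[z, w] = 1`; and `[z, w] = [z, u] ^ m` because `[z, ·]` is
multiplicative on `U` and invariant under `x`.  So `[z, u] = 1`.) -/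
def Cent : Prop :=
  ∀ (G : Type u) [Group G] [Finite G] (p q : ℕ), p.Prime → q.Prime → p ≠ q →
    ∀ (U : Subgroup G), U.Normal → IsPGroup q ↥U →
    (∀ a ∈ U, ∀ b ∈ U, a * b * a⁻¹ * b⁻¹ ∈ Subgroup.center G) →
    ∀ x : G, IsPGroup p ↥(Subgroup.zpowers x) →
    ∀ z ∈ U, x * z = z * x → (∀ c ∈ U, x * c = c * x → z * c = c * z) → ∀ u ∈ U, z * u = u * z

/-- SQ: an irreducible character `η` of `H` such that every non-central `c` has a conjugate
`w * c * w⁻¹ = z * c` with `z` central and `η z ≠ η 1`: then `η` vanishes off the centre and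
`|H| = |Z(H)| * η(1) ^ 2`.  (`η (z * c) = ω * η c` with `ω ≠ 1`; then `⟨η, η⟩ = 1`.) -/
def Sq : Prop :=
  ∀ (H : Type u) [Group H] [Finite H] (η : IrrCharacter H),
    (∀ c : H, c ∉ Subgroup.center H → ∃ w : H, w * c * w⁻¹ * c⁻¹ ∈ Subgroup.center H ∧
      (η : H → ℂ) (w * c * w⁻¹ * c⁻¹) ≠ (η : H → ℂ) 1) →
    Nat.card H = Nat.card ↥(Subgroup.center H) * charDegree (η : H → ℂ) ^ 2

/-- CON: an irreducible constituent `η` of the restriction of the faithful irreducible `χ` to a
subgroup `H`: it is faithful on `H ⊓ Z(G)` (a central `z` acts as a scalar `ω` in `χ`; if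
`η z = η 1` then `⟨χ_H, η⟩ = ω ⟨χ_H, η⟩`, so `ω = 1` and `z = 1`), and if `H` is normal its
degree divides that of `χ`. -/
def Con : Prop :=
  ∀ (G : Type u) [Group G] [Finite G] (χ : IrrCharacter G), Faithful (χ : G → ℂ) →
    ∀ (H : Subgroup G), ∃ η : IrrCharacter ↥H,
      (∀ z : ↥H, (z : G) ∈ Subgroup.center G → (η : ↥H → ℂ) z = (η : ↥H → ℂ) 1 → z = 1) ∧
      (H.Normal → charDegree (η : ↥H → ℂ) ∣ charDegree (χ : G → ℂ))

/-- ORB: the orbit count for the `p`-group generated by `x` acting on the normal subgroup `U` by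
conjugation. -/
def Orb : Prop :=
  ∀ (G : Type u) [Group G] [Finite G] (p : ℕ), p.Prime → ∀ (U : Subgroup G), U.Normal →
    ∀ x : G, IsPGroup p ↥(Subgroup.zpowers x) →
    Nat.card ↥U ≡ Nat.card ↥(U ⊓ Subgroup.centralizer {x} : Subgroup G) [MOD p]

/-- ARI: the arithmetic at the end.  (`a = q ^ m`, `b = q ^ m'`, `m' < m`;
`q ^ (2 * (m - m')) ≡ 1 (mod p)`, so `q ^ (m - m') ≡ ± 1`.) -/
def Ari : Prop :=
  ∀ (p q z a b n k k' : ℕ), p.Prime → q.Prime → p ≠ q → z * a ^ 2 = q ^ k → z * b ^ 2 = q ^ k' →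
    k' < k → z * a ^ 2 ≡ z * b ^ 2 [MOD p] → a ∣ n → Good p n

end Cfsg.Agent.Lib.Helper74.WinStmt
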