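import Mathlib
import Cfsg.Prelude.Def_Blocks

/-!
# Local data for the count of characters of degree prime to `p` (Sylow subgroup of order `p`)

For a subgroup `P` of `G` with centralizer `C` and normalizer `N`: the stabilizer in `N` of a
function on `C`, the functions on `C` that are constant on `P`, and the local sum attached to the
irreducible characters of `C` that are trivial on `P`.
-/

set_option autoImplicit false

namespace Cfsg.Agent.Lib.Helper74.McKayDefs

open Cfsg

universe u
variable {G : Type u} [Group G]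

/-- Conjugation by an element of the normalizer of `P` preserves the centralizer of `P`. -/
theorem conj_mem_centralizer (P : Subgroup G) {g c : G}
    (hg : g ∈ Subgroup.normalizer (P : Set G)) (hc : c ∈ Subgroup.centralizer (P : Set G)) :
    g * c * g⁻¹ ∈ Subgroup.centralizer (P : Set G) := by
  rw [Subgroup.mem_centralizer_iff] at hc ⊢
  intro x hx
  have hx' : g⁻¹ * x * g ∈ P := by
    have h1 := (Subgroup.mem_normalizer_iff''.1 hg) x
    exact h1.1 hx
  have h2 := hc _ hx'
  calc x * (g * c * g⁻¹) = g * ((g⁻¹ * x * g) * c) * g⁻¹ := by group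
    _ = g * (c * (g⁻¹ * x * g)) * g⁻¹ := by rw [h2]
    _ = g * c * g⁻¹ * x := by group

/-- `θ` (a function on `C_G(P)`) takes at every element of `P` its value at `1`. -/
def TrivOn (P : Subgroup G) (θ : ↥(Subgroup.centralizer (P : Set G)) → ℂ) : Prop :=
  ∀ x : ↥(Subgroup.centralizer (P : Set G)), (x : G) ∈ P → θ x = θ 1

/-- The stabilizer in `N_G(P)` of a function `θ` on `C_G(P)`. -/
def stab (P : Subgroup G) (θ : ↥(Subgroup.centralizer (P : Set G)) → ℂ) : Subgroup G where
  carrier := {g | g ∈ Subgroup.normalizer (P : Set G) ∧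
    ∀ c c' : ↥(Subgroup.centralizer (P : Set G)), (c' : G) = g * c * g⁻¹ → θ c' = θ c}
  one_mem' := by
    refine ⟨Subgroup.one_mem _, fun c c' h => ?_⟩
    have : c' = c := Subtype.ext (by rw [h]; group)
    rw [this]
  mul_mem' := by
    rintro a b ⟨ha, ha'⟩ ⟨hb, hb'⟩
    refine ⟨Subgroup.mul_mem _ ha hb, fun c c' h => ?_⟩
    have hmem : b * (c : G) * b⁻¹ ∈ Subgroup.centralizer (P : Set G) :=
      conj_mem_centralizer P hb c.2
    have h1 := hb' c ⟨b * (c : G) * b⁻¹, hmem⟩ rfl
    have h2 := ha' ⟨b * (c : G) * b⁻¹, hmem⟩ c' (by rw [h]; group)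
    rw [h2, h1]
  inv_mem' := by
    rintro a ⟨ha, ha'⟩
    refine ⟨Subgroup.inv_mem _ ha, fun c c' h => ?_⟩
    have h1 := ha' c' c (by rw [h]; group)
    exact h1.symm

theorem mem_stab (P : Subgroup G) (θ : ↥(Subgroup.centralizer (P : Set G)) → ℂ) (g : G) :
    g ∈ stab P θ ↔ (g ∈ Subgroup.normalizer (P : Set G) ∧
      ∀ c c' : ↥(Subgroup.centralizer (P : Set G)), (c' : G) = g * c * g⁻¹ → θ c' = θ c) :=
  Iff.rfl

theorem stab_le_normalizer (P : Subgroup G) (θ : ↥(Subgroup.centralizer (P : Set G)) → ℂ) :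
    stab P θ ≤ Subgroup.normalizer (P : Set G) := fun _ hg => hg.1

theorem centralizer_le_stab (P : Subgroup G) (θ : ↥(Subgroup.centralizer (P : Set G)) → ℂ)
    (hθ : IsClassFunction ↥(Subgroup.centralizer (P : Set G)) θ) :
    Subgroup.centralizer (P : Set G) ≤ stab P θ := by
  intro g hg
  refine ⟨Subgroup.centralizer_le_normalizer _ hg, fun c c' h => ?_⟩
  have e : c' = (⟨g, hg⟩ : ↥(Subgroup.centralizer (P : Set G))) * c *
      (⟨g, hg⟩ : ↥(Subgroup.centralizer (P : Set G)))⁻¹ := Subtype.ext h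
  rw [e, hθ]

/-- The weight of `θ`: `|T| * (e + (p - 1) / e)` with `T` the stabilizer and `e = |T : C|`. -/
noncomputable def wt (p : ℕ) (P : Subgroup G)
    (θ : ↥(Subgroup.centralizer (P : Set G)) → ℂ) : ℕ :=
  Nat.card (stab P θ) *
    ((Subgroup.centralizer (P : Set G)).relIndex (stab P θ) +
      (p - 1) / (Subgroup.centralizer (P : Set G)).relIndex (stab P θ))

/-- The local sum: the sum of the weights of the irreducible characters of `C_G(P)` trivial on
`P`. -/
noncomputable def locSum (p : ℕ) (P : Subgroup G) : ℕ :=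
  ∑ᶠ θ ∈ {θ : IrrCharacter ↥(Subgroup.centralizer (P : Set G)) |
      TrivOn P (θ : ↥(Subgroup.centralizer (P : Set G)) → ℂ)},
    wt p P (θ : ↥(Subgroup.centralizer (P : Set G)) → ℂ)

end Cfsg.Agent.Lib.Helper74.McKayDefs
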