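import Mathlib
import Cfsg.Prelude.Def_Characters
import Cfsg.Prelude.Def_CharExt
import Cfsg.Prelude.Def_Blocks
import Cfsg.Prelude.Def_Local
import Cfsg.Prelude.Def_Solvable

/-!
S4472 (bound for `p`-solvable linear groups): the Props of the team split.
-/

set_option autoImplicit false

namespace Cfsg.Agent.Lib.Helper74.DixStmt

open Cfsg

universe u

/-- The `r`-th cyclotomic field inside `ℂ`, in the exact form used by S4488. -/
noncomputable def Cyc (r : ℕ) : IntermediateField ℚ ℂ :=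
  IntermediateField.adjoin ℚ ({Complex.exp (2 * Real.pi * Complex.I / r)} : Set ℂ)

/-- GRPA1: the `p'`-complement `K` in the preimage `M` of `O_{p'}(G/O_p(G))`; `p`-elements
centralizing `K` lie in `O_p(G)`. -/
def GrpA1 : Prop := ∀ {G : Type u} [Group G] [Finite G] (p : ℕ) [Fact p.Prime], IsPSolvable p G →
  ∃ M K : Subgroup G, M.Normal ∧ pCore p G ≤ M ∧ K ≤ M ∧ (Nat.card K).Coprime p ∧
    Nat.card (pCore p G) * Nat.card K = Nat.card M ∧
    ∀ x : G, (∃ j : ℕ, x ^ (p ^ j) = 1) → (∀ k ∈ K, x * k = k * x) → x ∈ pCore p G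

/-- GRPA2: Frattini argument and count. -/
def GrpA2 : Prop := ∀ {G : Type u} [Group G] [Finite G] (p : ℕ) [Fact p.Prime] (M K : Subgroup G),
  M.Normal → pCore p G ≤ M → K ≤ M → (Nat.card K).Coprime p →
  Nat.card (pCore p G) * Nat.card K = Nat.card M →
  (∀ x : G, (∃ j : ℕ, x ^ (p ^ j) = 1) → (∀ k ∈ K, x * k = k * x) → x ∈ pCore p G) →
  ∃ P₀ : Subgroup G, IsPGroup p P₀ ∧ P₀ ≤ Subgroup.normalizer (K : Set G) ∧
    (pCore p G).index.factorization p ≤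
      ((P₀ ⊓ Subgroup.centralizer (K : Set G)).relIndex P₀).factorization p

/-- GRPB: the group `L = K P₀`. -/
def GrpB : Prop := ∀ {G : Type u} [Group G] [Finite G] (p : ℕ) [Fact p.Prime] (K P₀ : Subgroup G),
  (Nat.card K).Coprime p → IsPGroup p P₀ → P₀ ≤ Subgroup.normalizer (K : Set G) →
  ∃ L : Subgroup G, K ≤ L ∧ (K.subgroupOf L).Normal ∧
    (∃ m : ℕ, (K.subgroupOf L).index = p ^ m) ∧
    ∀ N : Subgroup ↥L, N.Normal → N ⊓ K.subgroupOf L = ⊥ →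
      ((P₀ ⊓ Subgroup.centralizer (K : Set G)).relIndex P₀).factorization p ≤
        N.index.factorization p

/-- EXTUNIQ: an irreducible extension with determinantal order prime to `p` is unique. -/
def ExtUniq : Prop := ∀ {T : Type u} [Group T] [Finite T] (p : ℕ) [Fact p.Prime]
  (K : Subgroup T) [K.Normal],
  (Nat.card K).Coprime p → (∃ m : ℕ, K.index = p ^ m) →
  ∀ ψ ψ' : T → ℂ, IsIrrCharacter T ψ → IsIrrCharacter T ψ' →
  IsIrrCharacter K (fun k : K => ψ k) → (∀ k : K, ψ k = ψ' k) →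
  ¬ p ∣ detOrder ψ → ¬ p ∣ detOrder ψ' → ψ = ψ'

/-- EXTDET: an invariant irreducible character of `K` has an irreducible extension with
determinantal order prime to `p`. -/
def ExtDet : Prop := ∀ {T : Type u} [Group T] [Finite T] (p : ℕ) [Fact p.Prime]
  (K : Subgroup T) [hK : K.Normal],
  (Nat.card K).Coprime p → (∃ m : ℕ, K.index = p ^ m) →
  ∀ θ : K → ℂ, IsIrrCharacter K θ →
  (∀ (g : T) (k : K), θ ⟨g * k * g⁻¹, hK.conj_mem k k.2 g⟩ = θ k) →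
  ∃ ψ : T → ℂ, IsIrrCharacter T ψ ∧ (∀ k : K, ψ k = θ k) ∧ ¬ p ∣ detOrder ψ

/-- GALIRR: power-map Galois conjugates of an irreducible character are irreducible with the
same determinantal order. -/
def GalIrr : Prop := ∀ {T : Type u} [Group T] [Finite T] (ψ : T → ℂ), IsIrrCharacter T ψ →
  ∀ j : ℕ, j.Coprime (Nat.card T) →
    IsIrrCharacter T (fun g => ψ (g ^ j)) ∧ detOrder (fun g => ψ (g ^ j)) = detOrder ψ

/-- RATCRIT: a character fixed by the power maps `j ≡ 1 (mod r)` has values in `ℚ(ζ_r)`. -/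
def RatCrit : Prop := ∀ {T : Type u} [Group T] [Finite T] (p : ℕ) [Fact p.Prime] (ψ : T → ℂ),
  IsCharacter T ψ → ∀ r e : ℕ, ¬ p ∣ r → Nat.card T = r * p ^ e →
  (∀ j : ℕ, j.Coprime (Nat.card T) → j % r = 1 % r → ∀ g, ψ (g ^ j) = ψ g) →
  ∀ g, ψ g ∈ Cyc r

/-- EXT: an invariant irreducible character of `K` extends to a character with values in
`ℚ(ζ_{|K|})`. -/
def ExtProp : Prop := ∀ {T : Type u} [Group T] [Finite T] (p : ℕ) [Fact p.Prime]
  (K : Subgroup T) [hK : K.Normal],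
  (Nat.card K).Coprime p → (∃ m : ℕ, K.index = p ^ m) →
  ∀ θ : K → ℂ, IsIrrCharacter K θ →
  (∀ (g : T) (k : K), θ ⟨g * k * g⁻¹, hK.conj_mem k k.2 g⟩ = θ k) →
  ∃ ψ : T → ℂ, IsCharacter T ψ ∧ (∀ k : K, ψ k = θ k) ∧ ∀ g, ψ g ∈ Cyc (Nat.card K)

/-- EXTSUB: EXT for a subgroup `T` of `L` containing the normal subgroup `K`. -/
def ExtSub : Prop := ∀ {L : Type u} [Group L] [Finite L] (p : ℕ) [Fact p.Prime]
  (K : Subgroup L) [hK : K.Normal],
  (Nat.card K).Coprime p → (∃ m : ℕ, K.index = p ^ m) →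
  ∀ (T : Subgroup L) (hKT : K ≤ T) (θ : K → ℂ), IsIrrCharacter K θ →
  (∀ g ∈ T, ∀ k : K, θ ⟨g * k * g⁻¹, hK.conj_mem k k.2 g⟩ = θ k) →
  ∃ ψ : T → ℂ, IsCharacter T ψ ∧ (∀ k : K, ψ ⟨k, hKT k.2⟩ = θ k) ∧
    ∀ t, ψ t ∈ Cyc (Nat.card K)

/-- ORB: a character of `L` with values in `ℚ(ζ_{|K|})` restricting to `K` as the sum of the
`L`-orbit of `θ`. -/
def OrbProp : Prop := ∀ {L : Type u} [Group L] [Finite L] (p : ℕ) [Fact p.Prime]
  (K : Subgroup L) [hK : K.Normal],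
  (Nat.card K).Coprime p → (∃ m : ℕ, K.index = p ^ m) →
  ∀ θ : K → ℂ, IsIrrCharacter K θ →
  ∃ Ψ : L → ℂ, IsCharacter L Ψ ∧ (∀ g, Ψ g ∈ Cyc (Nat.card K)) ∧
    ∃ s : Finset (K → ℂ),
      (∀ φ, φ ∈ s ↔ ∃ g : L, φ = fun k : K => θ ⟨g * k * g⁻¹, hK.conj_mem k k.2 g⟩) ∧
      ∀ k : K, Ψ k = ∑ φ ∈ s, φ k

/-- STAB: the same for any `L`-stable finite set of irreducible characters of `K`. -/
def StabProp : Prop := ∀ {L : Type u} [Group L] [Finite L] (p : ℕ) [Fact p.Prime]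
  (K : Subgroup L) [hK : K.Normal],
  (Nat.card K).Coprime p → (∃ m : ℕ, K.index = p ^ m) →
  ∀ C : Finset (K → ℂ), (∀ φ ∈ C, IsIrrCharacter K φ) →
  (∀ φ ∈ C, ∀ g : L, (fun k : K => φ ⟨g * k * g⁻¹, hK.conj_mem k k.2 g⟩) ∈ C) →
  ∃ Ψ : L → ℂ, IsCharacter L Ψ ∧ (∀ g, Ψ g ∈ Cyc (Nat.card K)) ∧
    ∀ k : K, Ψ k = ∑ φ ∈ C, φ k

/-- CHAR: a character faithful on `K` can be replaced by one of no larger degree, faithful on
`K`, with values in `ℚ(ζ_{|K|})`. -/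
def CharProp : Prop := ∀ {L : Type u} [Group L] [Finite L] (p : ℕ) [Fact p.Prime]
  (K : Subgroup L) [K.Normal],
  (Nat.card K).Coprime p → (∃ m : ℕ, K.index = p ^ m) →
  ∀ χ : L → ℂ, IsCharacter L χ → (∀ k ∈ K, χ k = χ 1 → k = 1) →
  ∃ χ' : L → ℂ, IsCharacter L χ' ∧ charDegree χ' ≤ charDegree χ ∧
    (∀ k ∈ K, χ' k = χ' 1 → k = 1) ∧ ∀ g, χ' g ∈ Cyc (Nat.card K)

end Cfsg.Agent.Lib.Helper74.DixStmt
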