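import Mathlib
import Cfsg.Agent.Lib.Helper96.AltStmt2

/-!
# S5165 piece NF : normal form of the permutations normalizing the translations
-/

set_option autoImplicit false

namespace Cfsg.Agent.Lib.Helper74.AltNF

open Equiv Cfsg.Agent.Lib.Helper96.AltStmt Cfsg.Agent.Lib.Helper96.AltModel
  Cfsg.Agent.Lib.Helper96.AltStmt2

theorem inv_app {α : Type} (f : Perm α) (x : α) : f⁻¹ (f x) = x := f.symm_apply_apply x

theorem app_inv {α : Type} (f : Perm α) (x : α) : f (f⁻¹ x) = x := f.apply_symm_apply x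

/-- if `g` conjugates `r` to `r'` then `g (r x) = r' (g x)` -/
theorem conj_apply {α : Type} (g r r' : Perm α) (h : g * r * g⁻¹ = r') (x : α) :
    g (r x) = r' (g x) := by
  rw [← h, Perm.mul_apply, Perm.mul_apply, inv_app]

/-- recursion along a block: a function with `F (j + 1) = F j + c` on `ZMod p` -/
theorem affine_of_step (p : ℕ) [Fact p.Prime] (F : ZMod p → ZMod p) (c : ZMod p)
    (h : ∀ j, F (j + 1) = F j + c) (j : ZMod p) : F j = c * j + F 0 := by
  have : NeZero p := ⟨(Fact.out : p.Prime).ne_zero⟩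
  have key : ∀ n : ℕ, F (n : ZMod p) = c * (n : ZMod p) + F 0 := by
    intro n
    induction n with
    | zero => simp
    | succ n ih =>
        rw [Nat.cast_succ, h, ih]
        ring
  have := key j.val
  rwa [ZMod.natCast_zmod_val] at this

theorem main : Cfsg.Agent.Lib.Helper96.AltStmt2.NormalForm := by
  intro p _ β δ _ _ _ _ g hg
  classical
  have : NeZero p := ⟨(Fact.out : p.Prime).ne_zero⟩
  have hconj : ∀ r ∈ Tr p β δ, g * r * g⁻¹ ∈ Tr p β δ := fun r hr =>
    (Subgroup.mem_normalizer_iff.mp hg r).mp hr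
  have hconj' : ∀ r ∈ Tr p β δ, g⁻¹ * r * g ∈ Tr p β δ := fun r hr => by
    have := (Subgroup.mem_normalizer_iff.mp (Subgroup.inv_mem _ hg) r).mp hr
    simpa using this
  -- block translations
  have hτ : ∀ i : β, mk p δ (1 : Perm β) (fun _ => 1) (Pi.single i 1) ∈ Tr p β δ :=
    fun i => ⟨_, rfl⟩
  -- a permutation normalizing `Tr` maps `inr` to `inr`
  have hinr : ∀ h : Perm (β × ZMod p ⊕ δ), (∀ r ∈ Tr p β δ, h⁻¹ * r * h ∈ Tr p β δ) →
      ∀ d : δ, ∃ d' : δ, h (Sum.inr d) = Sum.inr d' := by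
    intro h hh d
    rcases hx : h (Sum.inr d) with ⟨i, j⟩ | d'
    · exfalso
      obtain ⟨b, hb⟩ := hh _ (hτ i)
      have h1 := conj_apply h⁻¹ _ _ hb (h (Sum.inr d))
      rw [hx] at h1
      simp only [mk_inl, Perm.coe_one, id_eq, Units.val_one, one_mul, Pi.single_eq_same] at h1
      rw [← hx, inv_app, mk_inr] at h1
      have h2 : h⁻¹ (Sum.inl (i, j + 1)) = h⁻¹ (Sum.inl (i, j)) := by
        rw [h1, ← hx, inv_app]
      have h3 := h⁻¹.injective h2
      simp at h3
    · exact ⟨d', rfl⟩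
  have hmaps : Set.MapsTo g (Set.range (Sum.inl : β × ZMod p → β × ZMod p ⊕ δ))
      (Set.range Sum.inl) := by
    rintro _ ⟨x, rfl⟩
    rcases hx : g (Sum.inl x) with y | d'
    · exact ⟨y, rfl⟩
    · exfalso
      obtain ⟨d'', hd⟩ := hinr g⁻¹ (fun r hr => by simpa using hconj r hr) d'
      rw [← hx, inv_app] at hd
      exact Sum.inl_ne_inr hd
  obtain ⟨⟨g₁, ρ⟩, hgρ⟩ := Perm.mem_sumCongrHom_range_of_perm_mapsTo_inl hmaps
  have hg1 : ∀ y : β × ZMod p, g (Sum.inl y) = Sum.inl (g₁ y) := by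
    intro y
    rw [← hgρ]; rfl
  choose b' hb' using fun i => hconj _ (hτ i)
  have hstep : ∀ (i : β) (j : ZMod p), g₁ (i, j + 1) =
      ((g₁ (i, j)).1, (g₁ (i, j)).2 + b' i (g₁ (i, j)).1) := by
    intro i j
    have h1 := conj_apply g _ _ (hb' i) (Sum.inl (i, j))
    simp only [mk_inl, Perm.coe_one, id_eq, Units.val_one, one_mul, Pi.single_eq_same] at h1
    rw [hg1, hg1] at h1
    have h2 := Sum.inl_injective h1
    rw [h2]
    show ((1 : Perm β) (g₁ (i, j)).1,
      (((1 : (ZMod p)ˣ) : ZMod p)) * (g₁ (i, j)).2 + b' i (g₁ (i, j)).1) = _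
    simp
  have hfst : ∀ (i : β) (j : ZMod p), (g₁ (i, j)).1 = (g₁ (i, 0)).1 := by
    intro i j
    have key : ∀ n : ℕ, (g₁ (i, (n : ZMod p))).1 = (g₁ (i, 0)).1 := by
      intro n
      induction n with
      | zero => simp
      | succ n ih => rw [Nat.cast_succ, hstep, ih]
    have := key j.val
    rwa [ZMod.natCast_zmod_val] at this
  have hsnd : ∀ (i : β) (j : ZMod p),
      (g₁ (i, j)).2 = b' i (g₁ (i, 0)).1 * j + (g₁ (i, 0)).2 := by
    intro i j
    refine affine_of_step p (fun j => (g₁ (i, j)).2) _ (fun j => ?_) j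
    show (g₁ (i, j + 1)).2 = (g₁ (i, j)).2 + b' i (g₁ (i, 0)).1
    rw [hstep, hfst i j]
  have hc : ∀ i : β, b' i (g₁ (i, 0)).1 ≠ 0 := by
    intro i h0
    have h1 : g₁ (i, 1) = g₁ (i, 0) := by
      refine Prod.ext (hfst i 1) ?_
      rw [hsnd i 1, h0]; simp
    have h2 := g₁.injective h1
    simp at h2
  have hσinj : Function.Injective (fun i : β => (g₁ (i, 0)).1) := by
    intro i i' hii
    simp only at hii
    -- the point of block `i'` mapped to `g₁ (i, 0)`
    have h1 : g₁ (i', ((g₁ (i, 0)).2 - (g₁ (i', 0)).2) / b' i' (g₁ (i', 0)).1) = g₁ (i, 0) := by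
      refine Prod.ext ?_ ?_
      · rw [hfst, hii]
      · rw [hsnd]
        field_simp [hc i']
        ring
    have h2 := g₁.injective h1
    exact (congrArg Prod.fst h2).symm
  refine ⟨Equiv.ofBijective _ (Finite.injective_iff_bijective.mp hσinj),
    fun i => Units.mk0 _ (hc i), fun i => (g₁ (i, 0)).2, ρ, ?_⟩
  rw [← hgρ]
  show Perm.sumCongr g₁ ρ = Perm.sumCongr (mkMain p _ _ _) 1 * Perm.sumCongr 1 ρ
  rw [Perm.sumCongr_mul, mul_one, one_mul]
  congr 1
  ext ⟨i, j⟩
  · exact hfst i j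
  · exact hsnd i j

end Cfsg.Agent.Lib.Helper74.AltNF
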