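import Mathlib
import Cfsg.Agent.Lib.Helper96.AltStmt2
import Cfsg.Agent.Lib.Helper74.AltNF

/-!
# S5165 piece N2 : normal form of the permutations normalizing `R2`
-/

set_option autoImplicit false

namespace Cfsg.Agent.Lib.Helper74.AltN2

open Equiv Cfsg.Agent.Lib.Helper96.AltStmt Cfsg.Agent.Lib.Helper96.AltModel
  Cfsg.Agent.Lib.Helper96.AltStmt2 Cfsg.Agent.Lib.Helper74.AltNF

/-- `x` is fixed by the group `T` -/
def Fx {α : Type} (T : Subgroup (Perm α)) (x : α) : Prop := ∀ r ∈ T, r x = x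

/-- the nontrivial moves of `x` by `T` are powers of each other -/
def Cy {α : Type} (T : Subgroup (Perm α)) (x : α) : Prop :=
  ∀ r ∈ T, ∀ r' ∈ T, r x ≠ x → r' x ≠ x → ∃ k : ℕ, r' x = (r ^ k) x

theorem Fx_map {α : Type} (T : Subgroup (Perm α)) (g : Perm α)
    (hg : ∀ r ∈ T, g⁻¹ * r * g ∈ T) (x : α) (h : Fx T x) : Fx T (g x) := by
  intro r hr
  have h1 : g⁻¹ (r (g x)) = x := h _ (hg r hr)
  have h2 := congrArg g h1
  rwa [app_inv] at h2

theorem Cy_map {α : Type} (T : Subgroup (Perm α)) (g : Perm α)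
    (hg : ∀ r ∈ T, g⁻¹ * r * g ∈ T) (x : α) (h : Cy T x) : Cy T (g x) := by
  intro r hr r' hr' hx hx'
  have e : ∀ s : Perm α, (g⁻¹ * s * g) x = g⁻¹ (s (g x)) := fun s => rfl
  have h1 : (g⁻¹ * r * g) x ≠ x := by
    rw [e]; intro h0; apply hx
    have := congrArg g h0
    rwa [app_inv] at this
  have h1' : (g⁻¹ * r' * g) x ≠ x := by
    rw [e]; intro h0; apply hx'
    have := congrArg g h0
    rwa [app_inv] at this
  obtain ⟨k, hk⟩ := h _ (hg r hr) _ (hg r' hr') h1 h1'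
  refine ⟨k, ?_⟩
  have hpow : (g⁻¹ * r * g) ^ k = g⁻¹ * r ^ k * g := by
    have := conj_pow (a := g⁻¹) (b := r) (i := k)
    simpa using this
  rw [hpow, e, e] at hk
  have := congrArg g hk
  rwa [app_inv, app_inv] at this

section R2

variable (p : ℕ) [Fact p.Prime] {Γ Λ E : Type}

theorem r2_pow (e f : Γ → ZMod p) (h : Λ → ZMod p) (k : ℕ) :
    (r2 p Λ E e f h) ^ k = r2 p Λ E (k • e) (k • f) (k • h) := by
  induction k with
  | zero => simp [r2_zero]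
  | succ k ih => rw [pow_succ, ih, r2_mul, succ_nsmul, succ_nsmul, succ_nsmul]

theorem Fx_C (x : E) : Fx (R2 p Γ Λ E) (Sum.inr x) := by
  rintro _ ⟨e, f, h, rfl⟩
  simp

theorem not_Fx_A [DecidableEq Γ] (γ : Γ) (i j : ZMod p) :
    ¬ Fx (R2 p Γ Λ E) (Sum.inl (Sum.inl (γ, i), j)) := by
  intro h
  have := h (r2 p Λ E (Pi.single γ 1) 0 0) ⟨_, _, _, rfl⟩
  simp at this

theorem not_Fx_B [DecidableEq Λ] (l : Λ) (j : ZMod p) :
    ¬ Fx (R2 p Γ Λ E) (Sum.inl (Sum.inr l, j)) := by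
  intro h
  have := h (r2 p Λ E 0 0 (Pi.single l 1)) ⟨_, _, _, rfl⟩
  simp at this

theorem Cy_B (l : Λ) (j : ZMod p) : Cy (R2 p Γ Λ E) (Sum.inl (Sum.inr l, j)) := by
  have : NeZero p := ⟨(Fact.out : p.Prime).ne_zero⟩
  rintro _ ⟨e, f, h, rfl⟩ _ ⟨e', f', h', rfl⟩ hx hx'
  have hl : h l ≠ 0 := by
    intro h0; apply hx; simp [h0]
  refine ⟨(h' l / h l).val, ?_⟩
  rw [r2_pow, r2_inl_inr, r2_inl_inr]
  simp only [Pi.smul_apply, nsmul_eq_mul, ZMod.natCast_zmod_val]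
  congr 2
  field_simp

theorem not_Cy_A [DecidableEq Γ] (γ : Γ) (i j : ZMod p) :
    ¬ Cy (R2 p Γ Λ E) (Sum.inl (Sum.inl (γ, i), j)) := by
  intro h
  obtain ⟨k, hk⟩ := h (r2 p Λ E (Pi.single γ 1) 0 0) ⟨_, _, _, rfl⟩
    (r2 p Λ E 0 (Pi.single γ 1) 0) ⟨_, _, _, rfl⟩ (by simp) (by simp)
  rw [r2_pow] at hk
  simp at hk

end R2

theorem main : Cfsg.Agent.Lib.Helper96.AltStmt2.NormalForm2 := by
  intro p _ Γ Λ E _ _ _ _ _ _ _ g hg
  classical
  have : NeZero p := ⟨(Fact.out : p.Prime).ne_zero⟩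
  have hconj : ∀ r ∈ R2 p Γ Λ E, g * r * g⁻¹ ∈ R2 p Γ Λ E := fun r hr =>
    (Subgroup.mem_normalizer_iff.mp hg r).mp hr
  have hconj' : ∀ r ∈ R2 p Γ Λ E, g⁻¹ * r * g ∈ R2 p Γ Λ E := fun r hr => by
    have := (Subgroup.mem_normalizer_iff.mp (Subgroup.inv_mem _ hg) r).mp hr
    simpa using this
  have hconj'' : ∀ r ∈ R2 p Γ Λ E, (g⁻¹)⁻¹ * r * g⁻¹ ∈ R2 p Γ Λ E := fun r hr => by
    simpa using hconj r hr
  have hFx : ∀ x, Fx (R2 p Γ Λ E) (g x) ↔ Fx (R2 p Γ Λ E) x := fun x =>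
    ⟨fun h => by
      have := Fx_map _ g⁻¹ hconj'' _ h
      rwa [inv_app] at this, Fx_map _ g hconj' x⟩
  have hCy : ∀ x, Cy (R2 p Γ Λ E) (g x) ↔ Cy (R2 p Γ Λ E) x := fun x =>
    ⟨fun h => by
      have := Cy_map _ g⁻¹ hconj'' _ h
      rwa [inv_app] at this, Cy_map _ g hconj' x⟩
  -- the three types of points are preserved
  have hC : ∀ x : E, g (Sum.inr x) = Sum.inr x := by
    intro x
    have h1 := (hFx (Sum.inr x)).mpr (Fx_C p x)
    rcases hx : g (Sum.inr x) with ⟨⟨γ, i⟩ | l, j⟩ | x'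
    · rw [hx] at h1; exact absurd h1 (not_Fx_A p γ i j)
    · rw [hx] at h1; exact absurd h1 (not_Fx_B p l j)
    · rw [Subsingleton.elim x' x]
  have hB : ∀ (l : Λ) (j : ZMod p), ∃ (l' : Λ) (y : ZMod p),
      g (Sum.inl (Sum.inr l, j)) = Sum.inl (Sum.inr l', y) := by
    intro l j
    have h1 := (hCy _).mpr (Cy_B p (Γ := Γ) (E := E) l j)
    have h2 : ¬ Fx (R2 p Γ Λ E) (g (Sum.inl (Sum.inr l, j))) := fun h =>
      not_Fx_B p l j ((hFx _).mp h)
    rcases hx : g (Sum.inl (Sum.inr l, j)) with ⟨⟨γ, i⟩ | l', y⟩ | x'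
    · rw [hx] at h1; exact absurd h1 (not_Cy_A p γ i y)
    · exact ⟨l', y, rfl⟩
    · rw [hx] at h2; exact absurd (Fx_C p x') h2
  have hA : ∀ (γ : Γ) (i j : ZMod p), ∃ (γ' : Γ) (i' j' : ZMod p),
      g (Sum.inl (Sum.inl (γ, i), j)) = Sum.inl (Sum.inl (γ', i'), j') := by
    intro γ i j
    have h1 : ¬ Cy (R2 p Γ Λ E) (g (Sum.inl (Sum.inl (γ, i), j))) := fun h =>
      not_Cy_A p γ i j ((hCy _).mp h)
    have h2 : ¬ Fx (R2 p Γ Λ E) (g (Sum.inl (Sum.inl (γ, i), j))) := fun h =>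
      not_Fx_A p γ i j ((hFx _).mp h)
    rcases hx : g (Sum.inl (Sum.inl (γ, i), j)) with ⟨⟨γ', i'⟩ | l', y⟩ | x'
    · exact ⟨γ', i', y, rfl⟩
    · rw [hx] at h1; exact absurd (Cy_B p l' y) h1
    · rw [hx] at h2; exact absurd (Fx_C p x') h2
  choose ρ₁ y₁ hB using hB
  choose π₁ G₁ G₂ hA using hA
  -- the blocks `l`
  choose eB fB cB hBconj using fun l : Λ =>
    hconj (r2 p Λ E 0 0 (Pi.single l 1)) ⟨_, _, _, rfl⟩
  have hBstep : ∀ l j, ρ₁ l (j + 1) = ρ₁ l j ∧ y₁ l (j + 1) = y₁ l j + cB l (ρ₁ l j) := by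
    intro l j
    have h1 := conj_apply g _ _ (hBconj l) (Sum.inl (Sum.inr l, j))
    rw [r2_inl_inr, Pi.single_eq_same, hB, hB, r2_inl_inr] at h1
    simpa using h1
  have hρ : ∀ l j, ρ₁ l j = ρ₁ l 0 := by
    intro l j
    have key : ∀ n : ℕ, ρ₁ l (n : ZMod p) = ρ₁ l 0 := by
      intro n
      induction n with
      | zero => simp
      | succ n ih => rw [Nat.cast_succ, (hBstep l n).1, ih]
    have := key j.val
    rwa [ZMod.natCast_zmod_val] at this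
  have hy : ∀ l j, y₁ l j = cB l (ρ₁ l 0) * j + y₁ l 0 := by
    intro l j
    refine affine_of_step p (fun j => y₁ l j) _ (fun j => ?_) j
    show y₁ l (j + 1) = y₁ l j + cB l (ρ₁ l 0)
    rw [(hBstep l j).2, hρ l j]
  have hcB : ∀ l, cB l (ρ₁ l 0) ≠ 0 := by
    intro l h0
    have h1 : g (Sum.inl (Sum.inr l, 1)) = g (Sum.inl (Sum.inr l, 0)) := by
      rw [hB, hB, hρ l 1, hy l 1, h0]; simp
    have h2 := g.injective h1
    simp at h2
  have hρinj : Function.Injective (fun l : Λ => ρ₁ l 0) := by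
    intro l l' hll
    simp only at hll
    have h1 : g (Sum.inl (Sum.inr l', (y₁ l 0 - y₁ l' 0) / cB l' (ρ₁ l' 0))) =
        g (Sum.inl (Sum.inr l, 0)) := by
      rw [hB, hB, hρ l' _, hy l' _, hll]
      congr 2
      field_simp [hcB l']
      ring
    have h2 := g.injective h1
    simp only [Sum.inl.injEq, Prod.mk.injEq, Sum.inr.injEq] at h2
    exact h2.1.symm
  -- the superblocks `γ`
  choose eA fA cA hAconj using fun (γ : Γ) (a b : ZMod p) =>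
    hconj (r2 p Λ E (Pi.single γ a) (Pi.single γ b) 0) ⟨_, _, _, rfl⟩
  have hAstep : ∀ γ i j a b, π₁ γ (i + a) (j + b) = π₁ γ i j ∧
      G₁ γ (i + a) (j + b) = G₁ γ i j + eA γ a b (π₁ γ i j) ∧
      G₂ γ (i + a) (j + b) = G₂ γ i j + fA γ a b (π₁ γ i j) := by
    intro γ i j a b
    have h1 := conj_apply g _ _ (hAconj γ a b) (Sum.inl (Sum.inl (γ, i), j))
    rw [r2_inl_inl, Pi.single_eq_same, Pi.single_eq_same, hA, hA, r2_inl_inl] at h1
    simp only [Sum.inl.injEq, Prod.mk.injEq] at h1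
    exact ⟨h1.1.1, h1.1.2, h1.2⟩
  have hπ : ∀ γ a b, π₁ γ a b = π₁ γ 0 0 := by
    intro γ a b
    have := (hAstep γ 0 0 a b).1
    simpa using this
  have hG1 : ∀ γ i j a b, G₁ γ (i + a) (j + b) = G₁ γ i j + (G₁ γ a b - G₁ γ 0 0) := by
    intro γ i j a b
    have h1 := (hAstep γ i j a b).2.1
    have h2 := (hAstep γ 0 0 a b).2.1
    simp only [zero_add] at h2
    rw [hπ γ i j] at h1
    rw [h1, h2]; ring
  have hG2 : ∀ γ i j a b, G₂ γ (i + a) (j + b) = G₂ γ i j + (G₂ γ a b - G₂ γ 0 0) := by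
    intro γ i j a b
    have h1 := (hAstep γ i j a b).2.2
    have h2 := (hAstep γ 0 0 a b).2.2
    simp only [zero_add] at h2
    rw [hπ γ i j] at h1
    rw [h1, h2]; ring
  let L : Γ → (ZMod p × ZMod p →+ ZMod p × ZMod p) := fun γ =>
    { toFun := fun w => (G₁ γ w.1 w.2 - G₁ γ 0 0, G₂ γ w.1 w.2 - G₂ γ 0 0)
      map_zero' := by simp
      map_add' := by
        intro u w
        refine Prod.ext ?_ ?_
        · show G₁ γ (u.1 + w.1) (u.2 + w.2) - G₁ γ 0 0 =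
            (G₁ γ u.1 u.2 - G₁ γ 0 0) + (G₁ γ w.1 w.2 - G₁ γ 0 0)
          rw [hG1]; ring
        · show G₂ γ (u.1 + w.1) (u.2 + w.2) - G₂ γ 0 0 =
            (G₂ γ u.1 u.2 - G₂ γ 0 0) + (G₂ γ w.1 w.2 - G₂ γ 0 0)
          rw [hG2]; ring }
  have hLapp : ∀ γ (w : ZMod p × ZMod p),
      L γ w = (G₁ γ w.1 w.2 - G₁ γ 0 0, G₂ γ w.1 w.2 - G₂ γ 0 0) := fun γ w => rfl
  have hLinj : ∀ γ, Function.Injective (L γ) := by
    intro γ u w huw
    rw [hLapp, hLapp] at huw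
    have e1 : G₁ γ u.1 u.2 = G₁ γ w.1 w.2 := by
      have := congrArg Prod.fst huw
      simpa using this
    have e2 : G₂ γ u.1 u.2 = G₂ γ w.1 w.2 := by
      have := congrArg Prod.snd huw
      simpa using this
    have h1 : g (Sum.inl (Sum.inl (γ, u.1), u.2)) = g (Sum.inl (Sum.inl (γ, w.1), w.2)) := by
      rw [hA, hA, hπ γ u.1 u.2, hπ γ w.1 w.2, e1, e2]
    have h2 := g.injective h1
    simp only [Sum.inl.injEq, Prod.mk.injEq, true_and] at h2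
    exact Prod.ext h2.1 h2.2
  have hLsurj : ∀ γ, Function.Surjective (L γ) := fun γ =>
    Finite.injective_iff_surjective.mp (hLinj γ)
  have hπinj : Function.Injective (fun γ : Γ => π₁ γ 0 0) := by
    intro γ γ' hγ
    simp only at hγ
    obtain ⟨u, hu⟩ := hLsurj γ' (G₁ γ 0 0 - G₁ γ' 0 0, G₂ γ 0 0 - G₂ γ' 0 0)
    rw [hLapp] at hu
    have e1 : G₁ γ' u.1 u.2 = G₁ γ 0 0 := by
      have := congrArg Prod.fst hu
      simp only at this
      linear_combination this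
    have e2 : G₂ γ' u.1 u.2 = G₂ γ 0 0 := by
      have := congrArg Prod.snd hu
      simp only at this
      linear_combination this
    have h1 : g (Sum.inl (Sum.inl (γ', u.1), u.2)) = g (Sum.inl (Sum.inl (γ, 0), 0)) := by
      rw [hA, hA, hπ γ' u.1 u.2, e1, e2, hγ]
    have h2 := g.injective h1
    simp only [Sum.inl.injEq, Prod.mk.injEq] at h2
    exact h2.1.1.symm
  refine ⟨Equiv.ofBijective _ (Finite.injective_iff_bijective.mp hπinj),
    fun γ => LinearEquiv.ofBijective ((L γ).toZModLinearMap p) ⟨hLinj γ, hLsurj γ⟩,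
    fun γ => (G₁ γ 0 0, G₂ γ 0 0),
    Equiv.ofBijective _ (Finite.injective_iff_bijective.mp hρinj),
    fun l => Units.mk0 _ (hcB l), fun l => y₁ l 0, ?_, ?_, hC⟩
  · intro γ i j
    rw [hA, hπ γ i j]
    have e : (LinearEquiv.ofBijective ((L γ).toZModLinearMap p) ⟨hLinj γ, hLsurj γ⟩) (i, j) =
        (G₁ γ i j - G₁ γ 0 0, G₂ γ i j - G₂ γ 0 0) := rfl
    rw [e]
    simp
  · intro l j
    rw [hB, hρ l j, hy l j]
    rfl

end Cfsg.Agent.Lib.Helper74.AltN2
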