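import Mathlib
import Cfsg.Prelude.Def_Characters
import Cfsg.Agent.Lib.Helper74.BLCore

/-!
The core of the Brauer--Leonard argument: in the configuration of `BLCore.Hyp`, an irreducible
character of small degree whose restriction to `C` has small norm forces a nonprincipal
irreducible character with `Z` in its kernel.
-/

set_option autoImplicit false
set_option linter.unusedSectionVars false
set_option linter.unusedVariables false

namespace Cfsg.Agent.Lib.Helper74.BLCore2

open Cfsg Cfsg.Agent.Lib.CT Cfsg.Agent.Lib.CT.Wedderburn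
open Cfsg.Agent.Lib.Helper26 Cfsg.Agent.Lib.Helper74.BLCore
open scoped ComplexConjugate

universe u

variable {G : Type u} [Group G]

theorem isCharacter_mul_conj [Finite G] {χ X : G → ℂ} (hχ : IsCharacter G χ)
    (hX : IsCharacter G X) : IsCharacter G (fun g => χ g * conj (X g)) := by
  have h1 := Ops.isCharacter_mul hχ (Ops.isCharacter_inv_arg hX)
  have e : (fun g => χ g * conj (X g)) = χ * (fun g => X g⁻¹) := by
    funext g
    rw [Pi.mul_apply, char_apply_inv hX]
  rw [e]
  exact h1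

theorem inner_mul_conj_ind [Fintype G] (C : Subgroup G) [Fintype C] {χ ψ : G → ℂ}
    (hχ : IsClassFunction G χ) (hψ : IsClassFunction G ψ) (α : C → ℂ) :
    classInner (fun g => χ g * conj (indFun C α g)) ψ =
      classInner (fun c : C => χ c * conj (α c)) (fun c : C => ψ c) := by
  have hF : IsClassFunction G (fun g => χ g * conj (ψ g)) := by
    intro g x
    show χ (x * g * x⁻¹) * conj (ψ (x * g * x⁻¹)) = χ g * conj (ψ g)
    rw [hχ g x, hψ g x]
  have h1 := FrobRec.frobenius_reciprocity' C α (fun g => χ g * conj (ψ g)) hF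
  have e1 : classInner (fun g => χ g * conj (indFun C α g)) ψ =
      classInner (fun g => χ g * conj (ψ g)) (indFun C α) := by
    unfold classInner
    congr 1
    apply Finset.sum_congr rfl
    intro g _
    ring
  have e2 : classInner (fun c : C => χ c * conj (α c)) (fun c : C => ψ c) =
      classInner (fun c : C => (fun g => χ g * conj (ψ g)) c) α := by
    unfold classInner
    congr 1
    apply Finset.sum_congr rfl
    intro g _
    ring
  rw [e1, e2, h1]

/-- Expansion of the inner product of a restricted character along the irreducible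
constituents. -/
theorem restrict_expand [Fintype G] [Fintype (IrrCharacter G)] (C : Subgroup G) [Fintype C]
    {θ : G → ℂ} (hθ : IsCharacter G θ) (β : C → ℂ) :
    classInner (fun c : C => θ c) β = ∑ η : IrrCharacter G,
      classInner θ (η : G → ℂ) * classInner (fun c : C => (η : G → ℂ) c) β := by
  obtain ⟨m, hm, hexp⟩ := NormOne.exists_mult_sum hθ
  have hres : (fun c : C => θ c) =
      ∑ η : IrrCharacter G, (m η : ℂ) • (fun c : C => (η : G → ℂ) c) := by
    funext c
    have := congrFun hexp (c : G)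
    rw [Finset.sum_apply] at this ⊢
    simpa using this
  rw [hres, Orth.classInner_sum_left]
  apply Finset.sum_congr rfl
  intro η _
  rw [Orth.classInner_smul_left, ← hm η]

theorem inner_restrict_ge [Fintype G] (C : Subgroup G) [Fintype C] {θ ψ : G → ℂ}
    (hθ : IsCharacter G θ) (hψ : IsIrrCharacter G ψ) {β : C → ℂ} (hβ : IsCharacter C β)
    (a k : ℕ) (ha : classInner θ ψ = a) (hk : classInner (fun c : C => ψ c) β = k) :
    ∃ r : ℕ, classInner (fun c : C => θ c) β = ((a * k + r : ℕ) : ℂ) := by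
  classical
  have := finite_irrCharacter G
  have : Fintype (IrrCharacter G) := Fintype.ofFinite _
  choose kk hkk using fun η : IrrCharacter G =>
    Clifford.classInner_char_nat (Ops.isCharacter_restrict C (isCharacter_of_irr η.2)) hβ
  choose mm hmm using fun η : IrrCharacter G =>
    Clifford.classInner_char_nat hθ (isCharacter_of_irr η.2)
  have hsum : classInner (fun c : C => θ c) β =
      ((∑ η : IrrCharacter G, mm η * kk η : ℕ) : ℂ) := by
    rw [restrict_expand C hθ β]
    push_cast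
    apply Finset.sum_congr rfl
    intro η _
    rw [hmm, hkk]
  have hma : mm ⟨ψ, hψ⟩ = a := by
    have h1 : classInner θ ψ = mm ⟨ψ, hψ⟩ := hmm ⟨ψ, hψ⟩
    rw [ha] at h1
    exact_mod_cast h1.symm
  have hkk' : kk ⟨ψ, hψ⟩ = k := by
    have h1 : classInner (fun c : C => ψ c) β = kk ⟨ψ, hψ⟩ := hkk ⟨ψ, hψ⟩
    rw [hk] at h1
    exact_mod_cast h1.symm
  refine ⟨∑ η ∈ Finset.univ.erase (⟨ψ, hψ⟩ : IrrCharacter G), mm η * kk η, ?_⟩
  rw [hsum, ← hma, ← hkk']
  congr 1
  exact (Finset.add_sum_erase Finset.univ (fun η => mm η * kk η) (Finset.mem_univ _)).symm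

theorem inner_right_zero {H : Type u} [Group H] [Fintype H] {F Ψ : H → ℂ}
    (hΨ : IsCharacter H Ψ)
    (h0 : ∀ φ : H → ℂ, IsIrrCharacter H φ → classInner Ψ φ ≠ 0 → classInner F φ = 0) :
    classInner F Ψ = 0 := by
  classical
  have := finite_irrCharacter H
  have : Fintype (IrrCharacter H) := Fintype.ofFinite _
  obtain ⟨m, hm, hexp⟩ := NormOne.exists_mult_sum hΨ
  have hF : classInner F Ψ = classInner F (∑ η : IrrCharacter H, (m η : ℂ) • (η : H → ℂ)) :=
    congrArg (classInner F) hexp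
  rw [hF, GenChar.classInner_sum_right]
  apply Finset.sum_eq_zero
  intro η _
  rw [GenChar.classInner_smul_right]
  by_cases hz : m η = 0
  · rw [hz]
    simp
  · rw [h0 η η.2 (by rw [hm η]; exact_mod_cast hz), mul_zero]

theorem card_div_add_card_le {A : Type*} [Group A] [DecidableEq A] (T : Finset A) :
    (Finset.image₂ (fun a b => a / b) T T).card + T.card ≤ T.card * T.card + 1 := by
  have hsub : Finset.image₂ (fun a b => a / b) T T ⊆
      insert 1 (T.offDiag.image (fun p : A × A => p.1 / p.2)) := by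
    intro x hx
    obtain ⟨a, ha, b, hb, rfl⟩ := Finset.mem_image₂.mp hx
    by_cases hab : a = b
    · subst hab
      rw [div_self']
      exact Finset.mem_insert_self _ _
    · apply Finset.mem_insert_of_mem
      exact Finset.mem_image.mpr ⟨(a, b), Finset.mem_offDiag.mpr ⟨ha, hb, hab⟩, rfl⟩
  have h1 := Finset.card_le_card hsub
  have h2 := Finset.card_insert_le (1 : A) (T.offDiag.image (fun p : A × A => p.1 / p.2))
  have h3 := Finset.card_image_le (s := T.offDiag) (f := fun p : A × A => p.1 / p.2)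
  have h4 := Finset.offDiag_card T
  have h5 : T.card ≤ T.card * T.card := Nat.le_mul_self _
  omega

theorem exists_not_mem {A : Type*} [Fintype A] (s : Finset A) (hs : s.card < Fintype.card A) :
    ∃ a, a ∉ s := by
  by_contra hcon
  push Not at hcon
  have : s = Finset.univ := Finset.eq_univ_of_forall hcon
  rw [this, Finset.card_univ] at hs
  exact lt_irrefl _ hs

variable {C N Z : Subgroup G} {reg : C → Prop}

section Orb

variable [Fintype N]

theorem inner_orb_mul [Fintype C] (h : Hyp C N Z reg) (α G₁ γ : C → ℂ) :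
    classInner (fun c => orb h α c * G₁ c) γ =
      (Nat.card C : ℂ)⁻¹ * ∑ y : N, classInner (fun c => cj h y α c * G₁ c) γ := by
  have e : (fun c => orb h α c * G₁ c) =
      (Nat.card C : ℂ)⁻¹ • ∑ y : N, (fun c => cj h y α c * G₁ c) := by
    funext c
    rw [orb_apply, Pi.smul_apply, Finset.sum_apply, smul_eq_mul, mul_assoc, Finset.sum_mul]
  rw [e, Orth.classInner_smul_left, Orth.classInner_sum_left]

theorem inner_mul_conj_orb [Fintype C] (h : Hyp C N Z reg) (β G₁ γ : C → ℂ) :
    classInner (fun c => G₁ c * conj (orb h β c)) γ =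
      (Nat.card C : ℂ)⁻¹ * ∑ y : N, classInner (fun c => G₁ c * conj (cj h y β c)) γ := by
  have e : (fun c => G₁ c * conj (orb h β c)) =
      (Nat.card C : ℂ)⁻¹ • ∑ y : N, (fun c => G₁ c * conj (cj h y β c)) := by
    funext c
    rw [orb_apply, Pi.smul_apply, Finset.sum_apply, smul_eq_mul, map_mul, map_inv₀,
      Complex.conj_natCast, map_sum, Finset.mul_sum, Finset.mul_sum, Finset.mul_sum]
    apply Finset.sum_congr rfl
    intro y _
    ring
  rw [e, Orth.classInner_smul_left, Orth.classInner_sum_left]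

theorem orbit_card_mul_le [Fintype C] (h : Hyp C N Z reg) [DecidableEq (Z →* ℂˣ)]
    (ν : Z →* ℂˣ) :
    (Finset.univ.image (fun y : N => act h y ν)).card * Nat.card C ≤ Nat.card N := by
  classical
  calc (Finset.univ.image (fun y : N => act h y ν)).card * Nat.card C
      = ∑ τ ∈ Finset.univ.image (fun y : N => act h y ν), Nat.card C := by
        rw [Finset.sum_const, smul_eq_mul]
    _ ≤ ∑ τ ∈ Finset.univ.image (fun y : N => act h y ν),
          (Finset.univ.filter (fun y : N => act h y ν = τ)).card := by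
        apply Finset.sum_le_sum
        intro τ hτ
        obtain ⟨y₀, -, rfl⟩ := Finset.mem_image.mp hτ
        rw [Nat.card_eq_fintype_card, ← Finset.card_univ (α := C)]
        apply Finset.card_le_card_of_injOn (fun c : C => y₀ * ⟨c, h.hCN c.2⟩)
        · intro c _
          apply Finset.mem_coe.mpr
          apply Finset.mem_filter.mpr
          refine ⟨Finset.mem_univ _, ?_⟩
          rw [act_mul, act_of_mem h ⟨c, h.hCN c.2⟩ c.2]
        · intro c₁ _ c₂ _ e
          have e' := mul_left_cancel e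
          exact Subtype.ext (congrArg (fun y : N => (y : G)) e')
    _ = Nat.card N := by
        rw [← Finset.card_eq_sum_card_image, Finset.card_univ, Nat.card_eq_fintype_card]

theorem orbit_card_mul_ge [Fintype C] (h : Hyp C N Z reg) [DecidableEq (Z →* ℂˣ)]
    {ν : Z →* ℂˣ} (hν : ν ≠ 1) :
    Nat.card N ≤ (Finset.univ.image (fun y : N => act h y ν)).card * Nat.card C := by
  classical
  calc Nat.card N = ∑ τ ∈ Finset.univ.image (fun y : N => act h y ν),
          (Finset.univ.filter (fun y : N => act h y ν = τ)).card := by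
        rw [← Finset.card_eq_sum_card_image, Finset.card_univ, Nat.card_eq_fintype_card]
    _ ≤ ∑ τ ∈ Finset.univ.image (fun y : N => act h y ν), Nat.card C := by
        apply Finset.sum_le_sum
        intro τ hτ
        obtain ⟨y₀, -, rfl⟩ := Finset.mem_image.mp hτ
        have hmem : ∀ y : N, act h y ν = act h y₀ ν → ((y₀⁻¹ * y : N) : G) ∈ C := by
          intro y e
          by_contra hyC
          apply hν
          apply h.free _ (y₀⁻¹ * y).2 hyC ν
          intro z hz
          have e2 : act h (y₀⁻¹ * y) ν = ν := by rw [act_mul, e, act_inv_act]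
          exact DFunLike.congr_fun e2 ⟨z, hz⟩
        rw [Nat.card_eq_fintype_card, ← Finset.card_univ (α := C)]
        apply Finset.card_le_card_of_injOn
          (fun y : N => if hy : ((y₀⁻¹ * y : N) : G) ∈ C then (⟨_, hy⟩ : C) else 1)
        · intro y _
          exact Finset.mem_coe.mpr (Finset.mem_univ _)
        · intro y₁ h₁ y₂ h₂ e
          have m1 := hmem y₁ (Finset.mem_filter.mp (Finset.mem_coe.mp h₁)).2
          have m2 := hmem y₂ (Finset.mem_filter.mp (Finset.mem_coe.mp h₂)).2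
          simp only [dif_pos m1, dif_pos m2] at e
          have e2 : ((y₀⁻¹ * y₁ : N) : G) = ((y₀⁻¹ * y₂ : N) : G) :=
            congrArg (fun c : C => (c : G)) e
          exact mul_left_cancel (Subtype.ext e2)
    _ = (Finset.univ.image (fun y : N => act h y ν)).card * Nat.card C := by
        rw [Finset.sum_const, smul_eq_mul]

theorem inner_orb_orb_self [Fintype C] (h : Hyp C N Z reg) {φ : C → ℂ}
    (hφ : IsIrrCharacter C φ) (hst : StabC h φ) :
    classInner (orb h φ) (orb h φ) = (Nat.card N : ℂ) / (Nat.card C : ℂ) := by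
  have hC0 : (Nat.card C : ℂ) ≠ 0 := Nat.cast_ne_zero.mpr Nat.card_pos.ne'
  rw [inner_orb_left]
  have : ∀ y : N, classInner (cj h y φ) (orb h φ) = 1 := by
    intro y
    have e := classInner_cj h y φ (orb h φ)
    rw [cj_orb] at e
    rw [e, inner_orb_self h hφ hst]
  rw [Finset.sum_congr rfl (fun y _ => this y), Finset.sum_const, Finset.card_univ,
    nsmul_eq_mul, ← Nat.card_eq_fintype_card]
  field_simp

theorem index_le_degree [Fintype C] (h : Hyp C N Z reg) {χ : G → ℂ} {φ : C → ℂ}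
    (hφ : IsIrrCharacter C φ) (hres : ∀ c : C, χ c = orb h φ c) (x : ℕ) (hx1 : χ 1 = x) :
    Nat.card N ≤ x * Nat.card C := by
  obtain ⟨n, hn, hn1⟩ := irr_exists_apply_one_pos hφ
  have h1 := hres 1
  rw [orb_apply] at h1
  have h2 : ∀ y : N, cj h y φ 1 = n := by
    intro y
    rw [cj_apply, ← hn1]
    congr 1
    apply Subtype.ext
    simp
  rw [Finset.sum_congr rfl (fun y _ => h2 y), Finset.sum_const, Finset.card_univ, nsmul_eq_mul,
    ← Nat.card_eq_fintype_card] at h1
  have hC0 : (Nat.card C : ℂ) ≠ 0 := Nat.cast_ne_zero.mpr Nat.card_pos.ne'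
  have h3 : (x : ℂ) * (Nat.card C : ℂ) = (Nat.card N : ℂ) * n := by
    have e : χ ((1 : C) : G) = x := hx1
    rw [← e, h1]
    field_simp
  have h4 : x * Nat.card C = Nat.card N * n := by exact_mod_cast h3
  rw [h4]
  exact Nat.le_mul_of_pos_right _ hn

/-- **Step D**: the restriction to `C` of a constituent of `χ χ̄` not containing `Z` in its
kernel is again an orbit sum. -/
theorem restrict_eq_orb [Fintype G] [Fintype C] [Finite Z] (h : Hyp C N Z reg) {χ : G → ℂ}
    (hχ : IsIrrCharacter G χ) {φ : C → ℂ} {ν : Z →* ℂˣ} (hφ : IsIrrCharacter C φ)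
    (hcc : HasCC h φ ν) (hν : ν ≠ 1) (hres : ∀ c : C, χ c = orb h φ c)
    (x : ℕ) (hx1 : χ 1 = x) (hcard : x ^ 2 + 1 < Nat.card (Z →* ℂˣ))
    {ψ : G → ℂ} (hψ : IsIrrCharacter G ψ)
    (hθψ : classInner (fun g => χ g * conj (χ g)) ψ ≠ 0) (hz : ∃ z : Z, ψ (z : G) ≠ ψ 1) :
    ∃ (φ₀ : C → ℂ) (ν₀ : Z →* ℂˣ), IsIrrCharacter C φ₀ ∧ HasCC h φ₀ ν₀ ∧ ν₀ ≠ 1 ∧
      ∀ c : C, ψ c = orb h φ₀ c := by
  classical
  have hfin : Finite (Z →* ℂˣ) := Nat.finite_of_card_ne_zero (by omega)
  have : Fintype (Z →* ℂˣ) := Fintype.ofFinite _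
  rw [Nat.card_eq_fintype_card] at hcard
  have hχc : IsCharacter G χ := isCharacter_of_irr hχ
  have hψc : IsCharacter G ψ := isCharacter_of_irr hψ
  have hψC : IsCharacter C (fun c : C => ψ c) := Ops.isCharacter_restrict C hψc
  have hθ : IsCharacter G (fun g => χ g * conj (χ g)) := isCharacter_mul_conj hχc hχc
  have hCpos : 0 < Nat.card C := Nat.card_pos
  have hNC : Nat.card N ≤ x * Nat.card C := index_le_degree h hφ hres x hx1
  -- the orbit of `ν`
  obtain ⟨T, hT⟩ : ∃ T : Finset (Z →* ℂˣ), T = Finset.univ.image (fun y : N => act h y ν) :=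
    ⟨_, rfl⟩
  have hTmem : ∀ y : N, act h y ν ∈ T := by
    intro y
    rw [hT]
    exact Finset.mem_image.mpr ⟨y, Finset.mem_univ _, rfl⟩
  have hTel : ∀ τ ∈ T, ∃ y : N, act h y ν = τ := by
    intro τ hτ
    rw [hT] at hτ
    obtain ⟨y, -, e⟩ := Finset.mem_image.mp hτ
    exact ⟨y, e⟩
  have hTeq : T.card * Nat.card C = Nat.card N := by
    rw [hT]
    exact le_antisymm (orbit_card_mul_le h ν) (orbit_card_mul_ge h hν)
  have hTcard : T.card ≤ x := by
    apply Nat.le_of_mul_le_mul_right _ hCpos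
    rw [hTeq]
    exact hNC
  have horb : ∀ κ : Z →* ℂˣ, (Finset.univ.image (fun y : N => act h y κ)).card ≤ T.card := by
    intro κ
    apply Nat.le_of_mul_le_mul_right _ hCpos
    rw [hTeq]
    exact orbit_card_mul_le h κ
  obtain ⟨S, hSdef⟩ : ∃ S : Finset (Z →* ℂˣ), S = Finset.image₂ (fun a b => a / b) T T :=
    ⟨_, rfl⟩
  have hSmem : ∀ a ∈ T, ∀ b ∈ T, a / b ∈ S := by
    intro a ha b hb
    rw [hSdef]
    exact Finset.mem_image₂.mpr ⟨a, ha, b, hb, rfl⟩
  have hSel : ∀ κ ∈ S, ∃ a ∈ T, ∃ b ∈ T, a / b = κ := by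
    intro κ hκ
    rw [hSdef] at hκ
    exact Finset.mem_image₂.mp hκ
  have hTsq : T.card * T.card ≤ x ^ 2 := by
    rw [sq]
    exact Nat.mul_le_mul hTcard hTcard
  have hScard : S.card + T.card ≤ x ^ 2 + 1 := by
    have h1 := card_div_add_card_le T
    rw [← hSdef] at h1
    omega
  have hSstab : ∀ (y : N) (κ : Z →* ℂˣ), κ ∈ (S : Set (Z →* ℂˣ)) →
      act h y κ ∈ (S : Set (Z →* ℂˣ)) := by
    intro y κ hκ
    obtain ⟨a, ha, b, hb, rfl⟩ := hSel κ (Finset.mem_coe.mp hκ)
    obtain ⟨ya, rfl⟩ := hTel a ha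
    obtain ⟨yb, rfl⟩ := hTel b hb
    rw [act_div, ← act_mul, ← act_mul]
    exact Finset.mem_coe.mpr (hSmem _ (hTmem _) _ (hTmem _))
  have h1S : (1 : Z →* ℂˣ) ∈ S := by
    have h1 := hSmem _ (hTmem 1) _ (hTmem 1)
    have e : act h 1 ν / act h 1 ν = 1 := div_self' (act h 1 ν)
    rwa [e] at h1
  obtain ⟨a, ha⟩ := Clifford.classInner_char_nat hθ hψc
  have ha1 : 1 ≤ a := by
    rcases Nat.eq_zero_or_pos a with h0 | h0
    · exfalso
      apply hθψ
      rw [ha, h0]
      simp
    · exact h0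
  have hθC : (fun c : C => χ c * conj (χ c)) = fun c : C => orb h φ c * conj (orb h φ c) := by
    funext c
    rw [hres]
  have hS : ∀ (φ' : C → ℂ) (ν' : Z →* ℂˣ), IsIrrCharacter C φ' → HasCC h φ' ν' →
      classInner (fun c : C => ψ c) φ' ≠ 0 → ν' ∈ (S : Set (Z →* ℂˣ)) := by
    intro φ' ν' hφ' hcc' hne
    obtain ⟨k, hk⟩ := Clifford.classInner_char_nat hψC (isCharacter_of_irr hφ')
    have hk1 : 1 ≤ k := by
      rcases Nat.eq_zero_or_pos k with h0 | h0
      · exfalso
        apply hne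
        rw [hk, h0]
        simp
      · exact h0
    obtain ⟨r, hr⟩ := inner_restrict_ge C hθ hψ (isCharacter_of_irr hφ') a k ha hk
    have hne' : classInner (fun c : C => χ c * conj (χ c)) φ' ≠ 0 := by
      have e : classInner (fun c : C => χ c * conj (χ c)) φ' = ((a * k + r : ℕ) : ℂ) := hr
      rw [e]
      have : 0 < a * k + r := by
        have := Nat.mul_pos ha1 hk1
        omega
      exact_mod_cast this.ne'
    rw [hθC, inner_orb_mul] at hne'
    obtain ⟨y, hy⟩ : ∃ y : N, classInner (fun c => cj h y φ c * conj (orb h φ c)) φ' ≠ 0 := by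
      by_contra hall
      push Not at hall
      apply hne'
      rw [Finset.sum_eq_zero (fun y _ => hall y), mul_zero]
    rw [inner_mul_conj_orb] at hy
    obtain ⟨y', hy'⟩ : ∃ y' : N,
        classInner (fun c => cj h y φ c * conj (cj h y' φ c)) φ' ≠ 0 := by
      by_contra hall
      push Not at hall
      apply hy
      rw [Finset.sum_eq_zero (fun y _ => hall y), mul_zero]
    have hcc1 := hasCC_mul_conj h (hasCC_cj h hcc y) (hasCC_cj h hcc y')
    have e := cc_eq_of_inner_ne_zero h hcc1 hcc' hy'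
    rw [← e]
    exact Finset.mem_coe.mpr (hSmem _ (hTmem y) _ (hTmem y'))
  -- two characters outside `S` in different orbits
  obtain ⟨μ, hμ⟩ := exists_not_mem S (by omega)
  have hμ1 : μ ≠ 1 := fun e => hμ (e ▸ h1S)
  obtain ⟨μ₂, hμ₂⟩ := exists_not_mem (S ∪ Finset.univ.image (fun y : N => act h y μ)) (by
    have h1 := Finset.card_union_le S (Finset.univ.image (fun y : N => act h y μ))
    have h2 := horb μ
    omega)
  have hμ₂S : μ₂ ∉ S := fun hm => hμ₂ (Finset.mem_union_left _ hm)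
  have hμ₂1 : μ₂ ≠ 1 := fun e => hμ₂S (e ▸ h1S)
  have hμμ₂ : ∀ y : N, act h y μ ≠ μ₂ := by
    intro y e
    apply hμ₂
    apply Finset.mem_union_right
    exact Finset.mem_image.mpr ⟨y, Finset.mem_univ _, e⟩
  obtain ⟨φ₀, ν₀, m, hφ₀, hcc₀, hν₀, hm, hm1⟩ := exists_constituent h hψC (by
    obtain ⟨z, hz⟩ := hz
    exact ⟨z, hz⟩)
  have hc₀ : classInner (fun c : C => ψ c) φ₀ ≠ 0 := by
    rw [hm]
    exact_mod_cast (by omega : m ≠ 0)
  have hsingle : ∀ (φ' : C → ℂ) (ν' : Z →* ℂˣ), IsIrrCharacter C φ' → HasCC h φ' ν' →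
      ν' ≠ 1 → classInner (fun c : C => ψ c) φ' ≠ 0 → ∃ y : N, cj h y φ₀ = φ' := by
    intro φ' ν' hφ' hcc' hν' hc'
    exact single_orbit h hψ (S : Set (Z →* ℂˣ)) hSstab hS μ μ₂ (fun hm => hμ (Finset.mem_coe.mp hm))
      (fun hm => hμ₂S (Finset.mem_coe.mp hm)) hμ1 hμ₂1 hμμ₂ hφ₀ hφ' hcc₀ hcc' hν₀ hν' hc₀ hc'
  -- the orbit of `ν₀`
  obtain ⟨T₀, hT₀⟩ : ∃ T₀ : Finset (Z →* ℂˣ),
      T₀ = Finset.univ.image (fun y : N => act h y ν₀) := ⟨_, rfl⟩
  have hT₀mem : ∀ y : N, act h y ν₀ ∈ T₀ := by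
    intro y
    rw [hT₀]
    exact Finset.mem_image.mpr ⟨y, Finset.mem_univ _, rfl⟩
  have hT₀card : T₀.card ≤ x := by
    rw [hT₀]
    exact (horb ν₀).trans hTcard
  obtain ⟨S₂, hS₂def⟩ : ∃ S₂ : Finset (Z →* ℂˣ),
      S₂ = Finset.image₂ (fun a b => a / b) T T₀ := ⟨_, rfl⟩
  have hS₂mem : ∀ a ∈ T, ∀ b ∈ T₀, a / b ∈ S₂ := by
    intro a ha b hb
    rw [hS₂def]
    exact Finset.mem_image₂.mpr ⟨a, ha, b, hb, rfl⟩
  have hS₂card : S₂.card ≤ x ^ 2 := by
    rw [hS₂def, sq]
    exact (Finset.card_image₂_le _ _ _).trans (Nat.mul_le_mul hTcard hT₀card)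
  have hTS₂ : ∀ y : N, act h y ν ∈ S₂ := by
    intro y
    have hν₀S : ν₀ ∈ S := Finset.mem_coe.mp (hS φ₀ ν₀ hφ₀ hcc₀ hc₀)
    obtain ⟨τ₁, hτ₁, τ₂, hτ₂, e⟩ := hSel ν₀ hν₀S
    obtain ⟨y₁, rfl⟩ := hTel τ₁ hτ₁
    obtain ⟨y₂, rfl⟩ := hTel τ₂ hτ₂
    have e2 : act h y₂ ν = act h y₁ ν / ν₀ := by
      rw [← e]
      exact (div_div_cancel (act h y₁ ν) (act h y₂ ν)).symm
    have e3 : act h y ν = act h (y * y₂⁻¹) (act h y₂ ν) := by
      rw [← act_mul, inv_mul_cancel_right]
    rw [e3, e2, act_div, ← act_mul]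
    exact hS₂mem _ (hTmem _) _ (hT₀mem _)
  obtain ⟨μ₃, hμ₃⟩ := exists_not_mem (insert 1 S₂) (by
    have h1 := Finset.card_insert_le (1 : Z →* ℂˣ) S₂
    omega)
  have hμ₃1 : μ₃ ≠ 1 := fun e => hμ₃ (e ▸ Finset.mem_insert_self _ _)
  have hμ₃S₂ : μ₃ ∉ S₂ := fun hm => hμ₃ (Finset.mem_insert_of_mem hm)
  have hμ₃T : ∀ y : N, act h y ν ≠ μ₃ := fun y e => hμ₃S₂ (e ▸ hTS₂ y)
  obtain ⟨ω, hω, hωreg⟩ := h.twist (μ₃ / ν)
  have hX := stepB h hχ hφ hcc hν hres μ₃ hμ₃1 hμ₃T ω hω hωreg
  obtain ⟨φ', hφ'def⟩ : ∃ φ' : C → ℂ, φ' = fun c => φ c * ((ω c : ℂˣ) : ℂ) := ⟨_, rfl⟩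
  have hφ' : IsIrrCharacter C φ' := by
    rw [hφ'def]
    exact LinChar.isIrrCharacter_mul_linear hφ (LinChar.isCharacter_of_hom ω) (by simp)
  have hcc' : HasCC h φ' μ₃ := by
    have := hasCC_mul_hom h hcc ω hω
    have e : ν * (μ₃ / ν) = μ₃ := mul_div_cancel ν μ₃
    rw [e] at this
    rw [hφ'def]
    exact this
  obtain ⟨α, hαdef⟩ : ∃ α : C → ℂ, α = fun c => φ c - φ c * ((ω c : ℂˣ) : ℂ) := ⟨_, rfl⟩
  rw [← hαdef] at hX
  have hαsub : ∀ c : C, α c = φ c - φ' c := by
    intro c
    rw [hαdef, hφ'def]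
  obtain ⟨b, hb⟩ := Clifford.classInner_char_nat
    (isCharacter_mul_conj hχc (isCharacter_of_irr hX)) hψc
  have hclχ := char_isClassFunction hχc
  have hclψ := char_isClassFunction hψc
  -- the key identity
  have hkey := inner_mul_conj_ind C hclχ hclψ α
  have hl : classInner (fun g => χ g * conj (indFun C α g)) ψ = (a : ℂ) - b := by
    rw [← ha, ← hb, ← Orth.classInner_sub_left]
    congr 1
    funext g
    simp only [Pi.sub_apply, map_sub]
    ring
  have hzero : classInner (fun c : C => χ c * conj (φ' c)) (fun c : C => ψ c) = 0 := by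
    apply inner_right_zero hψC
    intro φ'' hφ'' hc''
    by_contra hne
    have e1 : (fun c : C => χ c * conj (φ' c)) = fun c : C => orb h φ c * conj (φ' c) := by
      funext c
      rw [hres]
    rw [e1, inner_orb_mul] at hne
    obtain ⟨y, hy⟩ : ∃ y : N, classInner (fun c => cj h y φ c * conj (φ' c)) φ'' ≠ 0 := by
      by_contra hall
      push Not at hall
      apply hne
      rw [Finset.sum_eq_zero (fun y _ => hall y), mul_zero]
    obtain ⟨ν'', hcc''⟩ := exists_cc h hφ''
    have e2 := cc_eq_of_inner_ne_zero h (hasCC_mul_conj h (hasCC_cj h hcc y) hcc') hcc'' hy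
    by_cases hν'' : ν'' = 1
    · rw [hν''] at e2
      exact hμ₃T y (div_eq_one.mp e2)
    · obtain ⟨y₀, e3⟩ := hsingle φ'' ν'' hφ'' hcc'' hν'' hc''
      have e4 := cc_of_cj_eq h hφ₀ hcc₀ hcc'' y₀ e3
      apply hμ₃S₂
      have e5 : μ₃ = act h y ν / act h y₀ ν₀ := by
        rw [e4, ← e2]
        exact (div_div_cancel (act h y ν) μ₃).symm
      rw [e5]
      exact hS₂mem _ (hTmem _) _ (hT₀mem _)
  obtain ⟨q, hqdef⟩ : ∃ q : ℂ,
      q = classInner (fun c : C => χ c * conj (φ c)) (fun c : C => ψ c) := ⟨_, rfl⟩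
  have hq : q = (a : ℂ) - b := by
    rw [← hl, hkey, hqdef]
    have e1 : (fun c : C => χ c * conj (α c)) =
        (fun c : C => χ c * conj (φ c)) - (fun c : C => χ c * conj (φ' c)) := by
      funext c
      rw [hαsub]
      simp only [Pi.sub_apply, map_sub]
      ring
    rw [e1, Orth.classInner_sub_left, hzero, sub_zero]
  obtain ⟨k, hk⟩ := Clifford.classInner_char_nat hψC hψC
  obtain ⟨r, hr⟩ := inner_restrict_ge C hθ hψ hψC a k ha hk
  have hθψC : classInner (fun c : C => χ c * conj (χ c)) (fun c : C => ψ c) =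
      (Nat.card C : ℂ)⁻¹ * ((Nat.card N : ℂ) * q) := by
    have e1 : (fun c : C => χ c * conj (χ c)) = fun c : C => χ c * conj (orb h φ c) := by
      funext c
      rw [← hres]
    rw [e1, inner_mul_conj_orb]
    congr 1
    have : ∀ y : N, classInner (fun c : C => χ c * conj (cj h y φ c)) (fun c : C => ψ c) = q := by
      intro y
      have e2 : (fun c : C => χ c * conj (cj h y φ c)) =
          cj h y (fun c : C => χ c * conj (φ c)) := by
        funext c
        rw [cj_apply, cj_apply]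
        have := hclχ c (y : G)⁻¹
        rw [inv_inv] at this
        rw [this]
      have e3 : (fun c : C => ψ c) = cj h y (fun c : C => ψ c) := (cj_restrict h hclψ y).symm
      rw [e2, e3, classInner_cj, hqdef]
    rw [Finset.sum_congr rfl (fun y _ => this y), Finset.sum_const, Finset.card_univ,
      nsmul_eq_mul, ← Nat.card_eq_fintype_card]
  have hC0 : (Nat.card C : ℂ) ≠ 0 := Nat.cast_ne_zero.mpr Nat.card_pos.ne'
  have hnat : (a * k + r) * Nat.card C + Nat.card N * b = Nat.card N * a := by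
    have e : classInner (fun c : C => χ c * conj (χ c)) (fun c : C => ψ c) =
        ((a * k + r : ℕ) : ℂ) := hr
    rw [hθψC, hq] at e
    have e2 : (((a * k + r) * Nat.card C + Nat.card N * b : ℕ) : ℂ) =
        ((Nat.card N * a : ℕ) : ℂ) := by
      push_cast
      push_cast at e
      rw [← e]
      field_simp
      ring
    exact_mod_cast e2
  have hkle : k * Nat.card C ≤ Nat.card N := by
    have h1 : a * (k * Nat.card C) ≤ a * Nat.card N := by nlinarith
    exact Nat.le_of_mul_le_mul_left h1 ha1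
  have hle : (classInner (fun c : C => ψ c) (fun c : C => ψ c)).re ≤
      (Nat.card N : ℝ) / (Nat.card C : ℝ) := by
    rw [hk, Complex.natCast_re, le_div_iff₀ (Nat.cast_pos.mpr hCpos)]
    exact_mod_cast hkle
  obtain ⟨-, hres₀⟩ := eq_orb_of_le h hclψ hφ₀ (stabC_of_cc h hφ₀ hcc₀ hν₀) m hm hm1 hle
  exact ⟨φ₀, ν₀, hφ₀, hcc₀, hν₀, hres₀⟩

/-- **Step E**: an irreducible character of degree at least `2` whose square is small against
the number of linear characters of `Z` and whose restriction to `C` has small norm forces a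
nonprincipal irreducible character with `Z` in its kernel. -/
theorem core [Fintype G] [Fintype C] [Finite Z] (h : Hyp C N Z reg) {χ : G → ℂ}
    (hχ : IsIrrCharacter G χ) (x : ℕ) (hx1 : χ 1 = x) (hx : 2 ≤ x)
    (hcard : x ^ 2 + 1 < Nat.card (Z →* ℂˣ))
    (hle : (classInner (fun c : C => χ c) (fun c : C => χ c)).re ≤
      (Nat.card N : ℝ) / (Nat.card C : ℝ)) :
    ∃ ψ : G → ℂ, IsIrrCharacter G ψ ∧ ψ ≠ (fun _ => 1) ∧ ∀ z ∈ Z, ψ z = ψ 1 := by
  classical
  by_contra hcon
  push Not at hcon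
  have hχc : IsCharacter G χ := isCharacter_of_irr hχ
  have hχne : χ ≠ fun _ => 1 := by
    intro e
    rw [e] at hx1
    have h1' : (1 : ℂ) = (x : ℂ) := hx1
    have : x = 1 := by exact_mod_cast h1'.symm
    omega
  obtain ⟨z, hzZ, hz⟩ := hcon χ hχ hχne
  obtain ⟨φ, ν, hφ, hcc, hν, hres⟩ := stepA h hχc hle ⟨⟨z, hzZ⟩, hz⟩
  have hst : StabC h φ := stabC_of_cc h hφ hcc hν
  have hθ : IsCharacter G (fun g => χ g * conj (χ g)) := isCharacter_mul_conj hχc hχc
  have := finite_irrCharacter G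
  have : Fintype (IrrCharacter G) := Fintype.ofFinite _
  have hD : ∀ ψ : G → ℂ, IsIrrCharacter G ψ → ψ ≠ (fun _ => 1) →
      classInner (fun g => χ g * conj (χ g)) ψ ≠ 0 →
      ∃ (φ₀ : C → ℂ) (ν₀ : Z →* ℂˣ), IsIrrCharacter C φ₀ ∧ HasCC h φ₀ ν₀ ∧ ν₀ ≠ 1 ∧
        ∀ c : C, ψ c = orb h φ₀ c := by
    intro ψ hψ hψne hθψ
    obtain ⟨z, hzZ, hz⟩ := hcon ψ hψ hψne
    exact restrict_eq_orb h hχ hφ hcc hν hres x hx1 hcard hψ hθψ ⟨⟨z, hzZ⟩, hz⟩
  have h1cc : HasCC h (fun _ : C => (1 : ℂ)) 1 := by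
    intro z c
    simp
  have hone : IsIrrCharacter C (fun _ : C => (1 : ℂ)) := Ops.isIrrCharacter_one
  have hθone : classInner (fun g => χ g * conj (χ g)) (fun _ : G => (1 : ℂ)) = 1 := by
    have e : classInner (fun g => χ g * conj (χ g)) (fun _ : G => (1 : ℂ)) = classInner χ χ := by
      unfold classInner
      congr 1
      apply Finset.sum_congr rfl
      intro g _
      simp
    rw [e, Coherence.irr_inner_self hχ]
  have h1 : classInner (fun c : C => χ c * conj (χ c)) (fun _ : C => (1 : ℂ)) = 1 := by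
    have e : classInner (fun c : C => χ c * conj (χ c)) (fun _ : C => (1 : ℂ)) =
        ∑ η : IrrCharacter G, classInner (fun g => χ g * conj (χ g)) (η : G → ℂ) *
          classInner (fun c : C => (η : G → ℂ) c) (fun _ : C => (1 : ℂ)) :=
      restrict_expand C hθ _
    rw [e, Finset.sum_eq_single (⟨fun _ => 1, Ops.isIrrCharacter_one⟩ : IrrCharacter G)]
    · show classInner (fun g => χ g * conj (χ g)) (fun _ : G => (1 : ℂ)) *
        classInner (fun _ : C => (1 : ℂ)) (fun _ : C => (1 : ℂ)) = 1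
      rw [hθone, Coherence.irr_inner_self hone, mul_one]
    · intro η _ hη
      by_cases h0 : classInner (fun g => χ g * conj (χ g)) (η : G → ℂ) = 0
      · rw [h0, zero_mul]
      · have hηne : (η : G → ℂ) ≠ fun _ => 1 := fun e => hη (Subtype.ext e)
        obtain ⟨φ₀, ν₀, hφ₀, hcc₀, hν₀, hres₀⟩ := hD η η.2 hηne h0
        have e1 : (fun c : C => (η : G → ℂ) c) = orb h φ₀ := funext hres₀
        rw [e1, inner_orb_left, Finset.sum_eq_zero, mul_zero, mul_zero]
        intro y _
        by_contra hne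
        have e2 := cc_eq_of_inner_ne_zero h (hasCC_cj h hcc₀ y) h1cc hne
        exact hν₀ ((act_eq_one_iff h y ν₀).mp e2)
    · intro hn
      exact absurd (Finset.mem_univ _) hn
  have h2 : classInner (fun c : C => χ c * conj (χ c)) (fun _ : C => (1 : ℂ)) =
      (Nat.card N : ℂ) / (Nat.card C : ℂ) := by
    rw [← inner_orb_orb_self h hφ hst]
    unfold classInner
    congr 1
    apply Finset.sum_congr rfl
    intro c _
    show χ c * conj (χ c) * conj (1 : ℂ) = orb h φ c * conj (orb h φ c)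
    rw [hres]
    simp
  have hC0 : (Nat.card C : ℂ) ≠ 0 := Nat.cast_ne_zero.mpr Nat.card_pos.ne'
  have hNC : Nat.card N = Nat.card C := by
    rw [h1] at h2
    have e := h2.symm
    rw [div_eq_iff hC0, one_mul] at e
    exact_mod_cast e
  have hall : ∀ y : N, (y : G) ∈ C := by
    have hsub : C.subgroupOf N = ⊤ := by
      apply Subgroup.eq_top_of_card_eq
      rw [Nat.card_congr (Subgroup.subgroupOfEquivOfLe h.hCN).toEquiv, hNC]
    intro y
    have hy : y ∈ C.subgroupOf N := by
      rw [hsub]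
      exact Subgroup.mem_top _
    exact Subgroup.mem_subgroupOf.mp hy
  have horb : ∀ {α : C → ℂ}, IsClassFunction C α → orb h α = α := by
    intro α hα
    funext c
    rw [orb_apply]
    have e : ∀ y : N, cj h y α c = α c := by
      intro y
      rw [cj_of_mem h y (hall y) hα]
    rw [Finset.sum_congr rfl (fun y _ => e y), Finset.sum_const, Finset.card_univ,
      nsmul_eq_mul, ← Nat.card_eq_fintype_card, hNC]
    field_simp
  have hresφ : ∀ c : C, χ c = φ c := by
    intro c
    rw [hres, horb (char_isClassFunction (isCharacter_of_irr hφ))]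
  have hzero : ∀ ψ : G → ℂ, IsIrrCharacter G ψ → ψ ≠ (fun _ => 1) →
      classInner (fun g => χ g * conj (χ g)) ψ = 0 := by
    intro ψ hψ hψne
    by_contra hθψ
    obtain ⟨φ₀, ν₀, hφ₀, hcc₀, hν₀, hres₀⟩ := hD ψ hψ hψne hθψ
    have e1 : (fun c : C => ψ c) = φ₀ := by
      funext c
      rw [hres₀, horb (char_isClassFunction (isCharacter_of_irr hφ₀))]
    obtain ⟨a, ha⟩ := Clifford.classInner_char_nat hθ (isCharacter_of_irr hψ)
    have hk : classInner (fun c : C => ψ c) φ₀ = ((1 : ℕ) : ℂ) := by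
      rw [e1, Coherence.irr_inner_self hφ₀, Nat.cast_one]
    obtain ⟨r, hr⟩ := inner_restrict_ge C hθ hψ (isCharacter_of_irr hφ₀) a 1 ha hk
    have ha1 : a ≠ 0 := by
      intro h0
      apply hθψ
      rw [ha, h0]
      simp
    have hne : classInner (fun c : C => φ c * conj (φ c)) φ₀ ≠ 0 := by
      have e2 : (fun c : C => φ c * conj (φ c)) = fun c : C => χ c * conj (χ c) := by
        funext c
        rw [hresφ]
      rw [e2]
      have e : classInner (fun c : C => χ c * conj (χ c)) φ₀ = ((a * 1 + r : ℕ) : ℂ) := hr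
      rw [e]
      exact_mod_cast (by omega : a * 1 + r ≠ 0)
    have e3 := cc_eq_of_inner_ne_zero h (hasCC_mul_conj h hcc hcc) hcc₀ hne
    apply hν₀
    rw [← e3]
    exact div_self' ν
  obtain ⟨m, hm, hexp⟩ := NormOne.exists_mult_sum hθ
  have hθ1 : χ 1 * conj (χ 1) = ∑ η : IrrCharacter G, (m η : ℂ) * (η : G → ℂ) 1 := by
    have e := congrFun hexp 1
    rw [Finset.sum_apply] at e
    simpa using e
  have hm1 : (m ⟨fun _ => 1, Ops.isIrrCharacter_one⟩ : ℂ) = 1 := by
    rw [← hm]
    exact hθone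
  have hsum : ∑ η : IrrCharacter G, (m η : ℂ) * (η : G → ℂ) 1 =
      (m ⟨fun _ => 1, Ops.isIrrCharacter_one⟩ : ℂ) * 1 := by
    apply Finset.sum_eq_single (⟨fun _ => 1, Ops.isIrrCharacter_one⟩ : IrrCharacter G)
    · intro η _ hη
      have hηne : (η : G → ℂ) ≠ fun _ => 1 := fun e => hη (Subtype.ext e)
      rw [← hm, hzero η η.2 hηne, zero_mul]
    · intro hn
      exact absurd (Finset.mem_univ _) hn
  rw [hsum, hm1, hx1, Complex.conj_natCast] at hθ1
  have hxx : x * x = 1 := by exact_mod_cast hθ1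
  have : x = 1 := Nat.eq_one_of_mul_eq_one_left hxx
  omega

end Orb

end Cfsg.Agent.Lib.Helper74.BLCore2
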