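import Mathlib
import Cfsg.Prelude.Def_Characters
import Cfsg.Agent.Lib.Helper74.BLCore
import Cfsg.Agent.Lib.Helper74.BLCore2
import Cfsg.Agent.Lib.Helper74.TIChar

/-!
Group theory behind the Brauer--Leonard configuration: a Sylow `p`-subgroup `P` all of whose
nonidentity elements have centralizer `C_G(P)` yields the hypotheses `BLCore.Hyp` with
`C = C_G(P)`, `N = N_G(C)`, `Z = P`, and `p`-regularity as the regularity predicate.
-/

set_option autoImplicit false
set_option linter.unusedSectionVars false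
set_option linter.unusedVariables false

namespace Cfsg.Agent.Lib.Helper74.BLGroup

open Cfsg Cfsg.Agent.Lib.Helper74.BLCore Cfsg.Agent.Lib.CT Cfsg.Agent.Lib.CT.Wedderburn
open Cfsg.Agent.Lib.Helper26
open scoped ComplexConjugate

universe u

variable {G : Type u} [Group G]

theorem orderOf_conj' (g c : G) : orderOf (g⁻¹ * c * g) = orderOf c := by
  have h := MulEquiv.orderOf_eq (MulAut.conj g⁻¹) c
  rwa [MulAut.conj_apply, inv_inv] at h

theorem conj_pow' (g c : G) (k : ℕ) : (g⁻¹ * c * g) ^ k = g⁻¹ * c ^ k * g := by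
  have h := map_pow (MulAut.conj g⁻¹) c k
  rw [MulAut.conj_apply, MulAut.conj_apply, inv_inv] at h
  exact h.symm

theorem mem_centralizer_conj_iff (a g h : G) :
    h ∈ Subgroup.centralizer ({g⁻¹ * a * g} : Set G) ↔
      g * h * g⁻¹ ∈ Subgroup.centralizer ({a} : Set G) := by
  rw [Subgroup.mem_centralizer_singleton_iff, Subgroup.mem_centralizer_singleton_iff]
  constructor
  · intro e
    calc g * h * g⁻¹ * a = g * (h * (g⁻¹ * a * g)) * g⁻¹ := by group
      _ = g * (g⁻¹ * a * g * h) * g⁻¹ := by rw [e]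
      _ = a * (g * h * g⁻¹) := by group
  · intro e
    calc h * (g⁻¹ * a * g) = g⁻¹ * (g * h * g⁻¹ * a) * g := by group
      _ = g⁻¹ * (a * (g * h * g⁻¹)) * g := by rw [e]
      _ = g⁻¹ * a * g * h := by group

variable {p : ℕ} [Fact p.Prime] (P : Sylow p G)

theorem le_centralizer
    (hstar : ∀ x ∈ (P : Subgroup G), x ≠ 1 → Subgroup.centralizer ({x} : Set G) =
      Subgroup.centralizer ((P : Subgroup G) : Set G)) :
    (P : Subgroup G) ≤ Subgroup.centralizer ((P : Subgroup G) : Set G) := by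
  intro x hx
  by_cases h1 : x = 1
  · rw [h1]
    exact Subgroup.one_mem _
  · rw [← hstar x hx h1]
    exact Subgroup.mem_centralizer_singleton_iff.mpr rfl

theorem mem_of_orderOf {c : G} (hc : c ∈ Subgroup.centralizer ((P : Subgroup G) : Set G))
    {k : ℕ} (hk : orderOf c = p ^ k) : c ∈ (P : Subgroup G) := by
  have hQ : IsPGroup p (Subgroup.zpowers c) := IsPGroup.of_card ((Nat.card_zpowers c).trans hk)
  have hle : Subgroup.zpowers c ≤ Subgroup.normalizer ((P : Subgroup G) : Set G) := by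
    rw [Subgroup.zpowers_le]
    exact Subgroup.centralizer_le_normalizer _ hc
  have h1 := IsPGroup.to_sup_of_normal_right' hQ P.isPGroup' hle
  have h2 := P.is_maximal' h1 le_sup_right
  rw [← h2]
  exact (le_sup_left : Subgroup.zpowers c ≤ Subgroup.zpowers c ⊔ (P : Subgroup G))
    (Subgroup.mem_zpowers c)

theorem orderOf_of_mem {z : G} (hz : z ∈ (P : Subgroup G)) : ∃ k : ℕ, orderOf z = p ^ k := by
  obtain ⟨k, hk⟩ := IsPGroup.iff_orderOf.mp P.isPGroup' ⟨z, hz⟩
  exact ⟨k, by rw [← hk, ← Subgroup.orderOf_coe]⟩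

theorem normC_aux {y c : G}
    (hy : y ∈ Subgroup.normalizer
      ((Subgroup.centralizer ((P : Subgroup G) : Set G) : Subgroup G) : Set G))
    (hc : c ∈ Subgroup.centralizer ((P : Subgroup G) : Set G)) :
    y⁻¹ * c * y ∈ Subgroup.centralizer ((P : Subgroup G) : Set G) := by
  have h1 := (Subgroup.mem_normalizer_iff.mp (Subgroup.inv_mem _ hy)) c
  rw [inv_inv] at h1
  exact h1.mp hc

theorem normZ_aux
    (hstar : ∀ x ∈ (P : Subgroup G), x ≠ 1 → Subgroup.centralizer ({x} : Set G) =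
      Subgroup.centralizer ((P : Subgroup G) : Set G))
    {y z : G}
    (hy : y ∈ Subgroup.normalizer
      ((Subgroup.centralizer ((P : Subgroup G) : Set G) : Subgroup G) : Set G))
    (hz : z ∈ (P : Subgroup G)) : y⁻¹ * z * y ∈ (P : Subgroup G) := by
  have hC := normC_aux P hy (le_centralizer P hstar hz)
  obtain ⟨k, hk⟩ := orderOf_of_mem P hz
  exact mem_of_orderOf P hC (k := k) (by rw [orderOf_conj', hk])

theorem ti_aux [Finite G]
    (hstar : ∀ x ∈ (P : Subgroup G), x ≠ 1 → Subgroup.centralizer ({x} : Set G) =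
      Subgroup.centralizer ((P : Subgroup G) : Set G))
    {c : G} (hc : c ∈ Subgroup.centralizer ((P : Subgroup G) : Set G))
    (hreg : ¬ Nat.Coprime (orderOf c) p) {g : G}
    (hg : g⁻¹ * c * g ∈ Subgroup.centralizer ((P : Subgroup G) : Set G)) :
    g ∈ Subgroup.normalizer
      ((Subgroup.centralizer ((P : Subgroup G) : Set G) : Subgroup G) : Set G) := by
  have hp : p.Prime := Fact.out
  have hdvd : p ∣ orderOf c := by
    rw [Nat.Prime.dvd_iff_not_coprime hp]
    exact fun h => hreg h.symm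
  have ho : orderOf c ≠ 0 := (orderOf_pos c).ne'
  obtain ⟨u, hu⟩ : ∃ u, u = c ^ (orderOf c / p) := ⟨_, rfl⟩
  have hou : orderOf u = p := by
    rw [hu]
    exact orderOf_pow_orderOf_div ho hdvd
  have huC : u ∈ Subgroup.centralizer ((P : Subgroup G) : Set G) := by
    rw [hu]
    exact Subgroup.pow_mem _ hc _
  have huP : u ∈ (P : Subgroup G) := mem_of_orderOf P huC (k := 1) (by rw [hou, pow_one])
  have hu1 : u ≠ 1 := by
    intro e
    rw [e, orderOf_one] at hou
    exact hp.one_lt.ne hou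
  have hconj : g⁻¹ * u * g = (g⁻¹ * c * g) ^ (orderOf c / p) := by
    rw [hu, conj_pow']
  have hvC : g⁻¹ * u * g ∈ Subgroup.centralizer ((P : Subgroup G) : Set G) := by
    rw [hconj]
    exact Subgroup.pow_mem _ hg _
  have hov : orderOf (g⁻¹ * u * g) = p := by rw [orderOf_conj', hou]
  have hvP : g⁻¹ * u * g ∈ (P : Subgroup G) :=
    mem_of_orderOf P hvC (k := 1) (by rw [hov, pow_one])
  have hv1 : g⁻¹ * u * g ≠ 1 := by
    intro e
    rw [e, orderOf_one] at hov
    exact hp.one_lt.ne hov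
  have e1 := hstar u huP hu1
  have e2 := hstar _ hvP hv1
  rw [Subgroup.mem_normalizer_iff]
  intro h
  have key := mem_centralizer_conj_iff u g h
  rw [e1, e2] at key
  exact key

theorem free_aux [Finite G]
    (hstar : ∀ x ∈ (P : Subgroup G), x ≠ 1 → Subgroup.centralizer ({x} : Set G) =
      Subgroup.centralizer ((P : Subgroup G) : Set G))
    {y : G} (hnZ : ∀ z ∈ (P : Subgroup G), y⁻¹ * z * y ∈ (P : Subgroup G))
    (hy : y ∉ Subgroup.centralizer ((P : Subgroup G) : Set G)) (ν : (P : Subgroup G) →* ℂˣ)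
    (hν : ∀ (z : G) (hz : z ∈ (P : Subgroup G)), ν ⟨y⁻¹ * z * y, hnZ z hz⟩ = ν ⟨z, hz⟩) :
    ν = 1 := by
  obtain ⟨f, hf⟩ : ∃ f : ↥(P : Subgroup G) → ↥(P : Subgroup G),
      f = fun z : ↥(P : Subgroup G) =>
        (⟨y⁻¹ * (z : G) * y, hnZ z z.2⟩ : ↥(P : Subgroup G)) * z⁻¹ := ⟨_, rfl⟩
  have hinj : Function.Injective f := by
    intro z₁ z₂ e
    rw [hf] at e
    have e' : y⁻¹ * (z₁ : G) * y * (z₁ : G)⁻¹ = y⁻¹ * (z₂ : G) * y * (z₂ : G)⁻¹ :=
      congrArg (fun z : ↥(P : Subgroup G) => (z : G)) e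
    have hw : (z₂ : G)⁻¹ * z₁ ∈ (P : Subgroup G) :=
      Subgroup.mul_mem _ (Subgroup.inv_mem _ z₂.2) z₁.2
    have hcomm : y⁻¹ * ((z₂ : G)⁻¹ * z₁) * y = (z₂ : G)⁻¹ * z₁ := by
      have e2 : y⁻¹ * (z₁ : G) * y = y⁻¹ * (z₂ : G) * y * (z₂ : G)⁻¹ * z₁ := by
        rw [← e']
        group
      calc y⁻¹ * ((z₂ : G)⁻¹ * z₁) * y = (y⁻¹ * (z₂ : G) * y)⁻¹ * (y⁻¹ * (z₁ : G) * y) := by group
        _ = (y⁻¹ * (z₂ : G) * y)⁻¹ * (y⁻¹ * (z₂ : G) * y * (z₂ : G)⁻¹ * z₁) := by rw [e2]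
        _ = (z₂ : G)⁻¹ * z₁ := by group
    have hw1 : (z₂ : G)⁻¹ * z₁ = 1 := by
      by_contra hne
      apply hy
      rw [← hstar _ hw hne, Subgroup.mem_centralizer_singleton_iff]
      calc y * ((z₂ : G)⁻¹ * z₁) = y * (y⁻¹ * ((z₂ : G)⁻¹ * z₁) * y) := by rw [hcomm]
        _ = (z₂ : G)⁻¹ * z₁ * y := by group
    apply Subtype.ext
    exact (inv_mul_eq_one.mp hw1).symm
  have hsurj : Function.Surjective f := Finite.injective_iff_surjective.mp hinj
  apply MonoidHom.ext
  intro z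
  obtain ⟨z₀, rfl⟩ := hsurj z
  have e : f z₀ = (⟨y⁻¹ * (z₀ : G) * y, hnZ z₀ z₀.2⟩ : ↥(P : Subgroup G)) * z₀⁻¹ := by rw [hf]
  rw [e, map_mul, map_inv, hν z₀ z₀.2, MonoidHom.one_apply]
  exact mul_inv_cancel (ν z₀)

theorem twist_gen [Finite G] (C : Subgroup G) (hPC : (P : Subgroup G) ≤ C)
    (hcent : ∀ z ∈ (P : Subgroup G), ∀ c ∈ C, z * c = c * z)
    (ν : ↥(P : Subgroup G) →* ℂˣ) :
    ∃ ω : ↥C →* ℂˣ, (∀ z : ↥(P : Subgroup G), ω ⟨z, hPC z.2⟩ = ν z) ∧
      ∀ c : ↥C, Nat.Coprime (orderOf (c : G)) p → ω c = 1 := by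
  classical
  have hp : p.Prime := Fact.out
  by_cases hcard1 : Nat.card ↥(P : Subgroup G) = 1
  · refine ⟨1, ?_, fun c _ => rfl⟩
    intro z
    have hsub : Subsingleton ↥(P : Subgroup G) := (Nat.card_eq_one_iff_unique.mp hcard1).1
    have hz : z = 1 := Subsingleton.elim _ _
    rw [hz, map_one]
    rfl
  have hcardpos : 0 < Nat.card ↥(P : Subgroup G) := Nat.card_pos
  have hcard2 : 1 < Nat.card ↥(P : Subgroup G) := by omega
  obtain ⟨PC, hPCdef⟩ : ∃ PC : Sylow p ↥C, PC = P.subtype hPC := ⟨_, rfl⟩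
  have hmemPC : ∀ c : ↥C, c ∈ (PC : Subgroup ↥C) ↔ (c : G) ∈ (P : Subgroup G) := by
    intro c
    rw [hPCdef, Sylow.coe_subtype, Subgroup.mem_subgroupOf]
  have hnc : Subgroup.normalizer ((PC : Subgroup ↥C) : Set ↥C) ≤
      Subgroup.centralizer ((PC : Subgroup ↥C) : Set ↥C) := by
    intro c _
    rw [Subgroup.mem_centralizer_iff]
    intro z hz
    apply Subtype.ext
    exact hcent z ((hmemPC z).mp hz) c c.2
  obtain ⟨T, hTdef⟩ : ∃ T : ↥C →* ↥(PC : Subgroup ↥C), T = MonoidHom.transferSylow PC hnc :=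
    ⟨_, rfl⟩
  let ι : ↥(PC : Subgroup ↥C) →* ↥(P : Subgroup G) :=
    { toFun := fun z => ⟨((z : ↥C) : G), (hmemPC z).mp z.2⟩
      map_one' := rfl
      map_mul' := fun a b => rfl }
  obtain ⟨idx, hidx⟩ : ∃ idx : ℕ, idx = (PC : Subgroup ↥C).index := ⟨_, rfl⟩
  have hndvd : ¬ p ∣ idx := by
    rw [hidx]
    exact PC.not_dvd_index
  obtain ⟨n, hn⟩ := IsPGroup.iff_card.mp P.isPGroup'
  have hcop : Nat.Coprime idx (Nat.card ↥(P : Subgroup G)) := by
    rw [hn]
    exact Nat.Coprime.pow_right n ((Nat.Prime.coprime_iff_not_dvd hp).mpr hndvd).symm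
  obtain ⟨j, -, hj⟩ := Nat.exists_mul_mod_eq_one_of_coprime hcop hcard2
  refine ⟨(powMonoidHom j).comp (ν.comp (ι.comp T)), ?_, ?_⟩
  · intro z
    have hzmem : (⟨z, hPC z.2⟩ : ↥C) ∈ (PC : Subgroup ↥C) := (hmemPC _).mpr z.2
    have hT := MonoidHom.transferSylow_eq_pow PC hnc (⟨z, hPC z.2⟩ : ↥C) hzmem
    have hι : ι (T ⟨z, hPC z.2⟩) = z ^ idx := by
      rw [hTdef, hT]
      apply Subtype.ext
      simp [ι, hidx]
    show (ν (ι (T ⟨z, hPC z.2⟩))) ^ j = ν z
    rw [hι, ← map_pow, ← pow_mul, ← pow_mod_natCard, hj, pow_one]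
  · intro c hc
    have h1 : orderOf (T c) ∣ orderOf c := orderOf_map_dvd T c
    obtain ⟨k, hk⟩ := IsPGroup.iff_orderOf.mp PC.isPGroup' (T c)
    have h2 : orderOf c = orderOf (c : G) := (Subgroup.orderOf_coe c).symm
    rw [hk, h2] at h1
    have h3 : p ^ k = 1 := Nat.Coprime.eq_one_of_dvd (Nat.Coprime.pow_left k hc.symm) h1
    rw [h3] at hk
    have hT1 : T c = 1 := orderOf_eq_one_iff.mp hk
    show (ν (ι (T c))) ^ j = 1
    rw [hT1, map_one, map_one, one_pow]

/-- The configuration of `BLCore.Hyp` attached to a Sylow subgroup with uniform centralizers. -/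
theorem hyp [Finite G]
    (hstar : ∀ x ∈ (P : Subgroup G), x ≠ 1 → Subgroup.centralizer ({x} : Set G) =
      Subgroup.centralizer ((P : Subgroup G) : Set G)) :
    Hyp (Subgroup.centralizer ((P : Subgroup G) : Set G))
      (Subgroup.normalizer
        ((Subgroup.centralizer ((P : Subgroup G) : Set G) : Subgroup G) : Set G))
      (P : Subgroup G) (fun c => Nat.Coprime (orderOf (c : G)) p) where
  hZC := le_centralizer P hstar
  hCN := Subgroup.le_normalizer
  cent := fun z hz c hc => Subgroup.mem_centralizer_iff.mp hc z hz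
  normC := fun y hy c hc => normC_aux P hy hc
  normZ := fun y hy z hz => normZ_aux P hstar hy hz
  ti := fun c hreg g hg => ti_aux P hstar c.2 hreg hg
  regStable := fun c hc g hg => by
    show Nat.Coprime (orderOf (g⁻¹ * (c : G) * g)) p
    rw [orderOf_conj']
    exact hc
  twist := fun ν => twist_gen P _ (le_centralizer P hstar)
    (fun z hz c hc => Subgroup.mem_centralizer_iff.mp hc z hz) ν
  free := fun y hy hyC ν hν =>
    free_aux P hstar (fun z hz => normZ_aux P hstar hy hz) hyC ν hν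

theorem normalizer_le :
    Subgroup.normalizer ((P : Subgroup G) : Set G) ≤
      Subgroup.normalizer
        ((Subgroup.centralizer ((P : Subgroup G) : Set G) : Subgroup G) : Set G) := by
  have key : ∀ y ∈ Subgroup.normalizer ((P : Subgroup G) : Set G),
      ∀ c ∈ Subgroup.centralizer ((P : Subgroup G) : Set G),
      y * c * y⁻¹ ∈ Subgroup.centralizer ((P : Subgroup G) : Set G) := by
    intro y hy c hc
    rw [Subgroup.mem_centralizer_iff]
    intro z hz
    have hz' : y⁻¹ * z * y ∈ (P : Subgroup G) := by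
      have h1 := (Subgroup.mem_normalizer_iff.mp (Subgroup.inv_mem _ hy)) z
      rw [inv_inv] at h1
      exact h1.mp hz
    have hcomm := Subgroup.mem_centralizer_iff.mp hc _ hz'
    calc z * (y * c * y⁻¹) = y * ((y⁻¹ * z * y) * c) * y⁻¹ := by group
      _ = y * (c * (y⁻¹ * z * y)) * y⁻¹ := by rw [hcomm]
      _ = y * c * y⁻¹ * z := by group
  intro y hy
  rw [Subgroup.mem_normalizer_iff]
  intro c
  constructor
  · exact key y hy c
  · intro h
    have h1 := key y⁻¹ (Subgroup.inv_mem _ hy) _ h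
    have e : y⁻¹ * (y * c * y⁻¹) * y⁻¹⁻¹ = c := by group
    rwa [e] at h1

open scoped Pointwise in
theorem ti_sylow [Finite G]
    (hstar : ∀ x ∈ (P : Subgroup G), x ≠ 1 → Subgroup.centralizer ({x} : Set G) =
      Subgroup.centralizer ((P : Subgroup G) : Set G))
    (g : G) (hg : g ∉ Subgroup.normalizer ((P : Subgroup G) : Set G)) :
    (P : Subgroup G) ⊓ (MulAut.conj g • (P : Subgroup G)) = ⊥ := by
  rw [eq_bot_iff]
  intro x hx
  rw [Subgroup.mem_bot]
  by_contra hx1
  apply hg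
  obtain ⟨hxP, hxg⟩ := Subgroup.mem_inf.mp hx
  have hu : g⁻¹ * x * g ∈ (P : Subgroup G) := by
    rw [Subgroup.mem_pointwise_smul_iff_inv_smul_mem] at hxg
    simpa [MulAut.smul_def] using hxg
  have hC := le_centralizer P hstar
  obtain ⟨k, hk⟩ := orderOf_of_mem P hxP
  have hreg : ¬ Nat.Coprime (orderOf x) p := by
    rw [hk]
    intro hco
    have hk0 : k ≠ 0 := by
      intro h0
      rw [h0, pow_zero, orderOf_eq_one_iff] at hk
      exact hx1 hk
    have h1 := Nat.Coprime.eq_one_of_dvd hco.symm (dvd_pow_self p hk0)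
    exact (Fact.out : p.Prime).one_lt.ne' h1
  have hgN := ti_aux P hstar (hC hxP) hreg (hC hu)
  rw [Subgroup.mem_normalizer_iff]
  intro z
  constructor
  · intro hz
    have h1 := normZ_aux P hstar (Subgroup.inv_mem _ hgN) hz
    rwa [inv_inv] at h1
  · intro hz
    have h1 := normZ_aux P hstar hgN hz
    have e : g⁻¹ * (g * z * g⁻¹) * g = z := by group
    rwa [e] at h1

theorem card_hom [Finite G]
    (hstar : ∀ x ∈ (P : Subgroup G), x ≠ 1 → Subgroup.centralizer ({x} : Set G) =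
      Subgroup.centralizer ((P : Subgroup G) : Set G)) :
    Nat.card (↥(P : Subgroup G) →* ℂˣ) = Nat.card ↥(P : Subgroup G) := by
  have hK : ∀ a ∈ (P : Subgroup G), ∀ b ∈ (P : Subgroup G), a * b = b * a :=
    fun a ha b hb => Subgroup.mem_centralizer_iff.mp (le_centralizer P hstar hb) a ha
  let _ : CommGroup ↥(P : Subgroup G) :=
    { (inferInstance : Group ↥(P : Subgroup G)) with
      mul_comm := fun a b => Subtype.ext (hK a a.2 b b.2) }
  have : NeZero (Monoid.exponent ↥(P : Subgroup G)) := ⟨Monoid.exponent_ne_zero_of_finite⟩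
  have : NeZero ((Monoid.exponent ↥(P : Subgroup G) : ℕ) : ℂ) :=
    ⟨Nat.cast_ne_zero.mpr (NeZero.ne _)⟩
  exact CommGroup.card_monoidHom_of_hasEnoughRootsOfUnity ↥(P : Subgroup G) ℂ

theorem exists_normal_index [Finite G]
    (hstar : ∀ x ∈ (P : Subgroup G), x ≠ 1 → Subgroup.centralizer ({x} : Set G) =
      Subgroup.centralizer ((P : Subgroup G) : Set G))
    (f : G →* ℂˣ) (hf : ∃ z ∈ (P : Subgroup G), f z ≠ 1) :
    ∃ K : Subgroup G, K.Normal ∧ K.index = Nat.card ↥(P : Subgroup G) := by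
  have h := hyp P hstar
  obtain ⟨z₀, hz₀, hfz₀⟩ := hf
  have hNC : Subgroup.normalizer ((P : Subgroup G) : Set G) ≤
      Subgroup.centralizer ((P : Subgroup G) : Set G) := by
    intro y hy
    by_contra hyC
    have hyN := normalizer_le P hy
    have h1 := h.free y hyN hyC (f.comp (P : Subgroup G).subtype) (by
      intro z hz
      show f (y⁻¹ * z * y) = f z
      rw [map_mul, map_mul, map_inv, mul_right_comm, inv_mul_cancel, one_mul])
    apply hfz₀
    exact DFunLike.congr_fun h1 ⟨z₀, hz₀⟩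
  refine ⟨(MonoidHom.transferSylow P hNC).ker, MonoidHom.normal_ker _, ?_⟩
  exact (MonoidHom.ker_transferSylow_isComplement' P hNC).symm.index_eq_card

theorem exists_proper_normal [Finite G] {ψ : G → ℂ} (hψ : IsIrrCharacter G ψ)
    (hψ1 : ψ ≠ fun _ => 1) (Z : Subgroup G) (hZ : ∀ z ∈ Z, ψ z = ψ 1) :
    ∃ K : Subgroup G, K.Normal ∧ K ≠ ⊤ ∧ Z ≤ K := by
  classical
  have : Fintype G := Fintype.ofFinite G
  obtain ⟨K, hKn, hK⟩ := Kernel.exists_normal_ker (isCharacter_of_irr hψ)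
  refine ⟨K, hKn, ?_, fun z hz => (hK z).mpr (hZ z hz)⟩
  intro htop
  apply hψ1
  have hconst : ∀ g, ψ g = ψ 1 := fun g => (hK g).mp (by rw [htop]; exact Subgroup.mem_top g)
  obtain ⟨n, hn, hn1⟩ := irr_exists_apply_one_pos hψ
  have h1 : classInner ψ (fun _ : G => (1 : ℂ)) = n := by
    unfold classInner
    have e : ∀ g ∈ (Finset.univ : Finset G), ψ g * conj ((fun _ : G => (1 : ℂ)) g) = n := by
      intro g _
      rw [hconst g, hn1]
      simp
    rw [Finset.sum_congr rfl e, Finset.sum_const, Finset.card_univ, nsmul_eq_mul,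
      ← Nat.card_eq_fintype_card]
    have hG0 : (Nat.card G : ℂ) ≠ 0 := Nat.cast_ne_zero.mpr Nat.card_pos.ne'
    field_simp
  rw [Coherence.irr_inner hψ Ops.isIrrCharacter_one] at h1
  by_contra hne
  rw [if_neg hne] at h1
  have hn0 : (n : ℂ) ≠ 0 := Nat.cast_ne_zero.mpr hn.ne'
  exact hn0 h1.symm

open scoped Pointwise in
theorem classInner_restrict_eq [Fintype G] (hTI : ∀ g : G,
      g ∉ Subgroup.normalizer ((P : Subgroup G) : Set G) →
      (P : Subgroup G) ⊓ (MulAut.conj g • (P : Subgroup G)) = ⊥)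
    {χ : G → ℂ} (hχ : IsCharacter G χ) (hdeg : charDegree χ ^ 2 ≤ Nat.card ↥(P : Subgroup G))
    (H : Subgroup G) [Fintype ↥H] (hH : Subgroup.normalizer ((P : Subgroup G) : Set G) ≤ H) :
    classInner χ χ = classInner (fun h : ↥H => χ h) (fun h : ↥H => χ h) := by
  obtain ⟨n, ρ, rfl⟩ := hχ
  have hn : charDegree ρ.character = n := by
    apply charDegree_eq_of_apply_one
    rw [Representation.char_one]
    simp
  rw [hn] at hdeg
  have hdeg' : Module.finrank ℂ (Fin n → ℂ) ^ 2 ≤ Nat.card (P : Subgroup G) := by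
    simpa using hdeg
  exact Cfsg.Agent.Lib.Helper74.TIChar.classInner_eq_of_TI p P hTI H hH ρ hdeg'

theorem re_inner_restrict_le [Fintype G] (C N : Subgroup G) [Fintype ↥C] [Fintype ↥N]
    (hCN : C ≤ N) (χ : G → ℂ)
    (hN : classInner (fun y : ↥N => χ y) (fun y : ↥N => χ y) = 1) :
    (classInner (fun c : ↥C => χ c) (fun c : ↥C => χ c)).re ≤
      (Nat.card ↥N : ℝ) / (Nat.card ↥C : ℝ) := by
  classical
  have hCpos : (0 : ℝ) < Nat.card ↥C := Nat.cast_pos.mpr Nat.card_pos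
  have hNpos : (0 : ℝ) < Nat.card ↥N := Nat.cast_pos.mpr Nat.card_pos
  rw [GenChar.classInner_self, Complex.ofReal_re]
  rw [GenChar.classInner_self] at hN
  have hN' : (Nat.card ↥N : ℝ)⁻¹ * ∑ y : ↥N, ‖χ y‖ ^ 2 = 1 := by exact_mod_cast hN
  have hsumN : ∑ y : ↥N, ‖χ y‖ ^ 2 = (Nat.card ↥N : ℝ) := by
    field_simp at hN'
    linarith
  have hle : ∑ c : ↥C, ‖χ c‖ ^ 2 ≤ ∑ y : ↥N, ‖χ y‖ ^ 2 := by
    rw [← Finset.sum_subtype (Finset.univ.filter (fun g : G => g ∈ C)) (p := fun g => g ∈ C)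
      (by intro x; simp) (fun g => ‖χ g‖ ^ 2),
      ← Finset.sum_subtype (Finset.univ.filter (fun g : G => g ∈ N)) (p := fun g => g ∈ N)
      (by intro x; simp) (fun g => ‖χ g‖ ^ 2)]
    apply Finset.sum_le_sum_of_subset_of_nonneg
    · intro g hg
      rw [Finset.mem_filter] at hg ⊢
      exact ⟨hg.1, hCN hg.2⟩
    · intro g _ _
      positivity
  rw [hsumN] at hle
  rw [le_div_iff₀ hCpos, mul_comm, ← mul_assoc, mul_inv_cancel₀ hCpos.ne', one_mul]
  exact hle

/-- **Brauer--Leonard, irreducible form.** -/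
theorem main [Finite G]
    (hstar : ∀ x ∈ (P : Subgroup G), x ≠ 1 → Subgroup.centralizer ({x} : Set G) =
      Subgroup.centralizer ((P : Subgroup G) : Set G))
    (n : ℕ) (hn : Nat.card ↥(P : Subgroup G) = p ^ n) {χ : G → ℂ} (hχ : IsIrrCharacter G χ)
    (h1 : χ ≠ fun _ => 1) (hdeg : charDegree χ ^ 2 + 1 < p ^ n) :
    (∃ K : Subgroup G, K.Normal ∧ K ≠ ⊤ ∧ (P : Subgroup G) ≤ K) ∨
      ((∃ N : Subgroup G, N.Normal ∧ N.index = p ^ n) ∧ charDegree χ = 1) := by
  classical
  have : Fintype G := Fintype.ofFinite G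
  have hχc := isCharacter_of_irr hχ
  have hx1 : χ 1 = (charDegree χ : ℂ) := (char_natCast_charDegree hχc).symm
  have hxpos : 0 < charDegree χ := irr_charDegree_pos hχ
  by_cases hker : ∀ z ∈ (P : Subgroup G), χ z = χ 1
  · left
    exact exists_proper_normal hχ h1 _ hker
  push Not at hker
  obtain ⟨z₀, hz₀, hχz₀⟩ := hker
  have h := hyp P hstar
  by_cases hlin : charDegree χ = 1
  · right
    refine ⟨?_, hlin⟩
    rw [hlin, Nat.cast_one] at hx1
    obtain ⟨f, hf⟩ := LinChar.exists_hom_of_isCharacter χ hχc hx1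
    obtain ⟨K, hKn, hKi⟩ := exists_normal_index P hstar f ⟨z₀, hz₀, by
      intro e
      apply hχz₀
      rw [hf, hf, e, map_one]⟩
    exact ⟨K, hKn, hKi.trans hn⟩
  · left
    have hx2 : 2 ≤ charDegree χ := by omega
    have hinner := classInner_restrict_eq P (ti_sylow P hstar) hχc (by rw [hn]; omega)
      (Subgroup.normalizer
        ((Subgroup.centralizer ((P : Subgroup G) : Set G) : Subgroup G) : Set G))
      (normalizer_le P)
    rw [Coherence.irr_inner_self hχ] at hinner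
    have hle := re_inner_restrict_le (Subgroup.centralizer ((P : Subgroup G) : Set G))
      (Subgroup.normalizer
        ((Subgroup.centralizer ((P : Subgroup G) : Set G) : Subgroup G) : Set G))
      Subgroup.le_normalizer χ hinner.symm
    obtain ⟨ψ, hψ, hψ1, hψZ⟩ := Cfsg.Agent.Lib.Helper74.BLCore2.core h hχ (charDegree χ) hx1 hx2
      (by rw [card_hom P hstar, hn]; exact hdeg) hle
    exact exists_proper_normal hψ hψ1 _ hψZ

end Cfsg.Agent.Lib.Helper74.BLGroup
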