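import Mathlib
import Cfsg.Prelude.Def_Characters
import Cfsg.Agent.Lib.Helper74.BLGroup

/-!
Brauer--Leonard, faithful form: a Sylow `p`-subgroup with uniform centralizers is normal as soon as
the group has a faithful character of small degree.  Induction on the group order from
`BLGroup.main`.
-/

set_option autoImplicit false
set_option linter.unusedSectionVars false
set_option linter.unusedVariables false

namespace Cfsg.Agent.Lib.Helper74.BLFaithful

open Cfsg Cfsg.Agent.Lib.CT Cfsg.Agent.Lib.CT.Wedderburn Cfsg.Agent.Lib.Helper74.BLGroup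

universe u

theorem abelian_case {G : Type u} [Group G] [Fintype G] [Fintype (IrrCharacter G)] {χ : G → ℂ}
    (hfaith : ∀ g : G, χ g = χ 1 → g = 1) (m : IrrCharacter G → ℕ)
    (hexp : χ = ∑ ψ : IrrCharacter G, (m ψ : ℂ) • (ψ : G → ℂ))
    (hlin : ∀ η : IrrCharacter G, m η ≠ 0 → (η : G → ℂ) 1 = 1) : ∀ a b : G, a * b = b * a := by
  intro a b
  have hval : ∀ g : G, χ g = ∑ ψ : IrrCharacter G, (m ψ : ℂ) * (ψ : G → ℂ) g := by
    intro g
    have h := congrFun hexp g
    rw [Finset.sum_apply] at h
    simpa using h
  have h1 : χ (a * b * a⁻¹ * b⁻¹) = χ 1 := by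
    rw [hval, hval]
    apply Finset.sum_congr rfl
    intro η _
    by_cases h0 : m η = 0
    · rw [h0]
      simp
    · have hη1 := hlin η h0
      obtain ⟨f, hf⟩ := LinChar.exists_hom_of_isCharacter (η : G → ℂ) (isCharacter_of_irr η.2) hη1
      have e : f (a * b * a⁻¹ * b⁻¹) = 1 := by
        rw [map_mul, map_mul, map_mul, map_inv, map_inv, mul_right_comm (f a), mul_inv_cancel,
          one_mul, mul_inv_cancel]
      rw [hf, hf, e, map_one]
  have h2 := hfaith _ h1
  calc a * b = (a * b * a⁻¹ * b⁻¹) * (b * a) := by group
    _ = b * a := by rw [h2, one_mul]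

/-- **Brauer--Leonard, faithful form.** -/
theorem faithful_normal : ∀ (N : ℕ) (G : Type u) [Group G] [Finite G], Nat.card G = N →
    ∀ (p : ℕ) [Fact p.Prime] (P : Sylow p G),
    (∀ x ∈ (P : Subgroup G), x ≠ 1 → Subgroup.centralizer ({x} : Set G) =
      Subgroup.centralizer ((P : Subgroup G) : Set G)) →
    ∀ (n : ℕ), Nat.card ↥(P : Subgroup G) = p ^ n → ∀ (χ : G → ℂ), IsCharacter G χ →
    (∀ g : G, χ g = χ 1 → g = 1) → charDegree χ ^ 2 + 1 < p ^ n → (P : Subgroup G).Normal := by
  intro N
  induction N using Nat.strong_induction_on with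
  | _ N ih =>
    intro G _ _ hcard p _ P hstar n hn χ hχ hfaith hdeg
    classical
    have : Fintype G := Fintype.ofFinite G
    have := finite_irrCharacter G
    have : Fintype (IrrCharacter G) := Fintype.ofFinite _
    obtain ⟨m, hm, hexp⟩ := NormOne.exists_mult_sum hχ
    have hval1 : χ 1 = ∑ ψ : IrrCharacter G, (m ψ : ℂ) * (ψ : G → ℂ) 1 := by
      have h := congrFun hexp 1
      rw [Finset.sum_apply] at h
      simpa using h
    have hdegsum : charDegree χ = ∑ ψ : IrrCharacter G, m ψ * charDegree (ψ : G → ℂ) := by
      apply charDegree_eq_of_apply_one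
      rw [hval1]
      push_cast
      apply Finset.sum_congr rfl
      intro ψ _
      rw [char_natCast_charDegree (isCharacter_of_irr ψ.2)]
    by_cases hex : ∃ η : IrrCharacter G, m η ≠ 0 ∧ (η : G → ℂ) ≠ (fun _ => 1) ∧
        charDegree (η : G → ℂ) ≠ 1
    · obtain ⟨η, hmη, hη1, hηdeg⟩ := hex
      have hle : charDegree (η : G → ℂ) ≤ charDegree χ := by
        rw [hdegsum]
        calc charDegree (η : G → ℂ) ≤ m η * charDegree (η : G → ℂ) :=
              Nat.le_mul_of_pos_left _ (Nat.pos_of_ne_zero hmη)
          _ ≤ _ := Finset.single_le_sum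
              (f := fun ψ : IrrCharacter G => m ψ * charDegree (ψ : G → ℂ))
              (fun _ _ => Nat.zero_le _) (Finset.mem_univ η)
      have hdeg' : charDegree (η : G → ℂ) ^ 2 + 1 < p ^ n := by
        have h2 := Nat.pow_le_pow_left hle 2
        omega
      rcases main P hstar n hn η.2 hη1 hdeg' with ⟨K, hKn, hKtop, hPK⟩ | ⟨-, h1⟩
      · have hKlt : Nat.card ↥K < N := by
          rw [← hcard]
          apply lt_of_le_of_ne (Subgroup.card_le_card_group K)
          intro e
          exact hKtop (Subgroup.eq_top_of_card_eq K e)
        have hPKn : ((P.subtype hPK : Sylow p ↥K) : Subgroup ↥K).Normal := by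
          refine ih (Nat.card ↥K) hKlt ↥K rfl p (P.subtype hPK) ?_ n ?_ (fun k : ↥K => χ k)
            (Ops.isCharacter_restrict K hχ) ?_ ?_
          · intro x hx hx1
            have hxP : (x : G) ∈ (P : Subgroup G) := hx
            have hx1' : (x : G) ≠ 1 := fun e => hx1 (Subtype.ext e)
            ext k
            rw [Subgroup.mem_centralizer_singleton_iff, Subgroup.mem_centralizer_iff]
            constructor
            · intro e z hz
              have e' : (k : G) * (x : G) = (x : G) * (k : G) := congrArg Subtype.val e
              have hk : (k : G) ∈ Subgroup.centralizer ({(x : G)} : Set G) :=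
                Subgroup.mem_centralizer_singleton_iff.mpr e'
              rw [hstar _ hxP hx1'] at hk
              apply Subtype.ext
              exact Subgroup.mem_centralizer_iff.mp hk z hz
            · intro h
              exact (h x hx).symm
          · rw [← hn]
            exact Nat.card_congr (Subgroup.subgroupOfEquivOfLe hPK).toEquiv
          · intro k hk
            apply Subtype.ext
            exact hfaith k hk
          · exact hdeg
        have hchar := Sylow.characteristic_of_normal (P.subtype hPK) hPKn
        have hmap : ((P.subtype hPK : Sylow p ↥K) : Subgroup ↥K).map K.subtype =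
            (P : Subgroup G) := Subgroup.map_subgroupOf_eq_of_le hPK
        rw [← hmap]
        exact ConjAct.normal_of_characteristic_of_normal
      · exact absurd h1 hηdeg
    · push Not at hex
      have hcomm := abelian_case hfaith m hexp (by
        intro η hη
        by_cases h1 : (η : G → ℂ) = fun _ => 1
        · rw [h1]
        · have h2 := hex η hη h1
          rw [← char_natCast_charDegree (isCharacter_of_irr η.2), h2, Nat.cast_one])
      constructor
      intro z hz g
      have e : g * z * g⁻¹ = z := by rw [hcomm g z, mul_inv_cancel_right]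
      rw [e]
      exact hz

end Cfsg.Agent.Lib.Helper74.BLFaithful
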