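import Mathlib
import Cfsg.Prelude.Def_Blocks
import Cfsg.Agent.Lib.Helper17.BrBridge
import Cfsg.Agent.Lib.CT.FrobRec
import Cfsg.Agent.Lib.CT.IndChar
import Cfsg.Agent.Lib.CT.Kernel
import Cfsg.Agent.Lib.CT.Ops
import Cfsg.Agent.Lib.Helper3.Orth
import Cfsg.Agent.Lib.Helper3.Irr
import Cfsg.Agent.Lib.Helper80.Integrality

/-!
# Section functions for a block with a defect group of prime order

For a Sylow `p`-subgroup `P` of order `p` with centralizer `C` and an irreducible character `θ`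
of `C` with `P` in its kernel, the class functions induced from `θ` cut down to one `p`-section
of `C` are algebraic-integer valued, vanish on `p`-regular elements, lie in the span of a block
as soon as the characters outside it are orthogonal to the sections, and their pairings with
`θ` on the sections of `P` are computed.
-/

set_option autoImplicit false
set_option linter.unusedSectionVars false
set_option linter.style.haveILetI false
set_option maxHeartbeats 1000000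

namespace Cfsg.Agent.Lib.Helper74.BrSections

open Cfsg
open scoped ComplexConjugate

universe u

section general

variable {G : Type u} [Group G]

theorem eq_of_pow_eq {a b : G} {p N : ℕ} (hp : p.Prime) (hN : ¬ p ∣ N) (ha : a ^ p = 1)
    (hb : b ^ p = 1) (h : a ^ N = b ^ N) : a = b := by
  have hc : Nat.Coprime N p := ((Nat.Prime.coprime_iff_not_dvd hp).2 hN).symm
  obtain ⟨s, -, hs⟩ := Nat.exists_mul_mod_eq_one_of_coprime hc hp.one_lt
  have e1 : a ^ (N * s) = a := by rw [pow_eq_pow_mod _ ha, hs, pow_one]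
  have e2 : b ^ (N * s) = b := by rw [pow_eq_pow_mod _ hb, hs, pow_one]
  rw [← e1, ← e2, pow_mul, pow_mul, h]

/-- The `p`-part of an element of finite order. -/
theorem exists_pow_decomp [Finite G] (p : ℕ) (hp : p.Prime) (c : G) :
    ∃ z : G, (∃ i : ℕ, z = c ^ i) ∧ (∃ a : ℕ, z ^ (p ^ a) = 1) ∧ ¬ p ∣ orderOf (z⁻¹ * c) := by
  obtain ⟨a, m, hm, hn⟩ := Nat.exists_eq_pow_mul_and_not_dvd (orderOf_pos c).ne' p hp.ne_one
  have hcop : Nat.Coprime m (p ^ a) :=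
    Nat.Coprime.pow_right a ((Nat.Prime.coprime_iff_not_dvd hp).2 hm).symm
  rcases Nat.eq_zero_or_pos a with ha | ha
  · subst ha
    refine ⟨1, ⟨0, (pow_zero c).symm⟩, ⟨0, by simp⟩, ?_⟩
    simp only [inv_one, one_mul]
    rw [hn]
    simpa using hm
  · have h1 : 1 < p ^ a := Nat.one_lt_pow ha.ne' hp.one_lt
    obtain ⟨w, -, hw⟩ := Nat.exists_mul_mod_eq_one_of_coprime hcop h1
    refine ⟨c ^ (m * w), ⟨_, rfl⟩, ⟨a, ?_⟩, ?_⟩
    · rw [← pow_mul, mul_comm (m * w), ← mul_assoc, ← hn, pow_mul, pow_orderOf_eq_one, one_pow]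
    · have hdvd : orderOf ((c ^ (m * w))⁻¹ * c) ∣ m := by
        apply orderOf_dvd_of_pow_eq_one
        have hcomm : Commute (c ^ (m * w))⁻¹ c := ((Commute.refl c).pow_left _).inv_left
        rw [hcomm.mul_pow, inv_pow, ← pow_mul, inv_mul_eq_one]
        have e : m * w = p ^ a * (m * w / p ^ a) + 1 := by
          have := Nat.div_add_mod (m * w) (p ^ a)
          omega
        rw [e, add_mul, one_mul, pow_add, mul_assoc, mul_comm _ m, ← mul_assoc, ← hn, pow_mul,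
          pow_orderOf_eq_one, one_pow, one_mul]
      exact fun h => hm (h.trans hdvd)

theorem finsum_mem_eq_sum {α : Type*} [Fintype α] (S : Set α) [DecidablePred (· ∈ S)]
    (f : α → ℂ) : ∑ᶠ k ∈ S, f k = ∑ k, if k ∈ S then f k else 0 := by
  rw [finsum_mem_def, finsum_eq_sum_of_fintype]
  refine Finset.sum_congr rfl fun k _ => ?_
  by_cases hk : k ∈ S
  · rw [Set.indicator_of_mem hk, if_pos hk]
  · rw [Set.indicator_of_notMem hk, if_neg hk]

/-- The configuration: a subgroup `P` of prime order `p` inside `C`, central in `C`, containing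
all `p`-elements of `C`, with `C` the centralizer of each non-identity element of `P`. -/
structure Cfg (p : ℕ) (P C : Subgroup G) : Prop where
  hp : p.Prime
  le : P ≤ C
  cent : ∀ z ∈ P, ∀ c ∈ C, c * z = z * c
  gen : ∀ z ∈ P, z ≠ 1 → ∀ w ∈ P, ∃ n : ℤ, w = z ^ n
  mem_of_comm : ∀ z ∈ P, z ≠ 1 → ∀ c, c * z = z * c → c ∈ C
  pel : ∀ c ∈ C, (∃ a : ℕ, c ^ (p ^ a) = 1) → c ∈ P
  pow : ∀ z ∈ P, z ^ p = 1
  card : Nat.card P = p
  ndvd : ∀ m : ℕ, Nat.card C = p * m → ¬ p ∣ m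

theorem cfg_of_sylow [Finite G] (p : ℕ) [Fact p.Prime] (P : Sylow p G) (hP : Nat.card P = p) :
    Cfg p (P : Subgroup G) (Subgroup.centralizer ((P : Subgroup G) : Set G)) := by
  have hp : p.Prime := Fact.out
  have hgen : ∀ z ∈ (P : Subgroup G), z ≠ 1 → ∀ w ∈ (P : Subgroup G), ∃ n : ℤ, w = z ^ n := by
    intro z hz hz1 w hw
    have h1 : Subgroup.zpowers (⟨z, hz⟩ : (P : Subgroup G)) = ⊤ :=
      zpowers_eq_top_of_prime_card hP (fun h => hz1 (congrArg Subtype.val h))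
    have h2 : (⟨w, hw⟩ : (P : Subgroup G)) ∈ Subgroup.zpowers (⟨z, hz⟩ : (P : Subgroup G)) := by
      rw [h1]; trivial
    obtain ⟨n, hn⟩ := Subgroup.mem_zpowers_iff.1 h2
    refine ⟨n, ?_⟩
    have := congrArg Subtype.val hn
    simpa using this.symm
  have hpow : ∀ z ∈ (P : Subgroup G), z ^ p = 1 := by
    intro z hz
    have h1 : (⟨z, hz⟩ : (P : Subgroup G)) ^ p = 1 := by
      have h0 : (⟨z, hz⟩ : (P : Subgroup G)) ^ Nat.card (P : Subgroup G) = 1 := pow_card_eq_one'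
      rwa [hP] at h0
    simpa using congrArg Subtype.val h1
  have hcomm : ∀ z ∈ (P : Subgroup G), ∀ w ∈ (P : Subgroup G), w * z = z * w := by
    intro z hz w hw
    by_cases hz1 : z = 1
    · rw [hz1]; simp
    · obtain ⟨n, rfl⟩ := hgen z hz hz1 w hw
      exact ((Commute.refl z).zpow_left n).eq
  refine ⟨hp, ?_, ?_, hgen, ?_, ?_, hpow, hP, ?_⟩
  · intro z hz
    rw [Subgroup.mem_centralizer_iff]
    intro w hw
    exact hcomm z hz w hw
  · intro z hz c hc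
    rw [Subgroup.mem_centralizer_iff] at hc
    exact (hc z hz).symm
  · intro z hz hz1 c hc
    rw [Subgroup.mem_centralizer_iff]
    intro w hw
    obtain ⟨n, rfl⟩ := hgen z hz hz1 w hw
    have : Commute c z := hc
    exact (this.zpow_right n).eq.symm
  · intro c hc ⟨a, ha⟩
    have hK : IsPGroup p (Subgroup.zpowers c) := by
      intro x
      obtain ⟨n, hn⟩ := Subgroup.mem_zpowers_iff.1 x.2
      refine ⟨a, Subtype.ext ?_⟩
      simp only [Subgroup.coe_pow, Subgroup.coe_one]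
      rw [← hn, ← zpow_natCast, ← zpow_mul, mul_comm, zpow_mul, zpow_natCast, ha, one_zpow]
    have hle : Subgroup.zpowers c ≤ Subgroup.normalizer ((P : Subgroup G) : Set G) := by
      rw [Subgroup.zpowers_le]
      rw [Subgroup.mem_centralizer_iff] at hc
      rw [Subgroup.mem_normalizer_iff]
      intro h
      constructor
      · intro hh
        have := hc h hh
        rw [← this]
        simpa using hh
      · intro hh
        have h3 := hc _ hh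
        have h4 : c * h * c⁻¹ * c = c * h := by group
        rw [h4] at h3
        have h5 : c * h * c⁻¹ = h := by
          have := mul_left_cancel h3
          rw [← this]
        rwa [h5] at hh
    have hQ := IsPGroup.to_sup_of_normal_left' P.isPGroup' hK hle
    have hmax := P.is_maximal' hQ le_sup_left
    have : Subgroup.zpowers c ≤ (P : Subgroup G) := by
      rw [← hmax]; exact le_sup_right
    exact this (Subgroup.mem_zpowers c)
  · intro m hm hpm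
    obtain ⟨m', rfl⟩ := hpm
    have h1 : p * (p * m') ∣ Nat.card G := by
      rw [← hm]; exact Subgroup.card_subgroup_dvd_card _
    have h2 : p ^ 2 ∣ Nat.card G := by
      refine Dvd.dvd.trans ?_ h1
      exact ⟨m', by ring⟩
    have h3 := P.pow_dvd_card_of_pow_dvd_card h2
    rw [hP] at h3
    have h4 : p ^ 2 ≤ p := Nat.le_of_dvd hp.pos h3
    have h5 : p ^ 2 = p * p := by ring
    have h6 : 2 ≤ p := hp.two_le
    nlinarith

/-- Conjugation `g ↦ x⁻¹ g x` as an automorphism. -/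
def cj (x : G) : G ≃* G := MulAut.conj x⁻¹

theorem cj_apply (x g : G) : cj x g = x⁻¹ * g * x := by
  unfold cj
  rw [MulAut.conj_apply, inv_inv]

theorem ppart_unique {p : ℕ} (hp : p.Prime) {c z z' : G} (hz : z ^ p = 1) (hz' : z' ^ p = 1)
    (hzc : Commute z c) (hz'c : Commute z' c)
    (h1 : ¬ p ∣ orderOf (z⁻¹ * c)) (h2 : ¬ p ∣ orderOf (z'⁻¹ * c)) : z = z' := by
  have e1 : c ^ orderOf (z⁻¹ * c) = z ^ orderOf (z⁻¹ * c) := by
    have := pow_orderOf_eq_one (z⁻¹ * c)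
    rw [hzc.inv_left.mul_pow, inv_pow, inv_mul_eq_one] at this
    exact this.symm
  have e2 : c ^ orderOf (z'⁻¹ * c) = z' ^ orderOf (z'⁻¹ * c) := by
    have := pow_orderOf_eq_one (z'⁻¹ * c)
    rw [hz'c.inv_left.mul_pow, inv_pow, inv_mul_eq_one] at this
    exact this.symm
  apply eq_of_pow_eq hp (N := orderOf (z⁻¹ * c) * orderOf (z'⁻¹ * c)) ?_ hz hz'
  · rw [pow_mul, ← e1, ← pow_mul, mul_comm, pow_mul, e2, ← pow_mul, mul_comm]
  · exact fun hd => (hp.dvd_mul.1 hd).elim h1 h2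

namespace Cfg

variable {p : ℕ} {P C : Subgroup G}

theorem order (h : Cfg p P C) {z : G} (hz : z ∈ P) (hz1 : z ≠ 1) : orderOf z = p :=
  haveI := Fact.mk h.hp
  orderOf_eq_prime (h.pow z hz) hz1

theorem decomp_unique (h : Cfg p P C) {c z z' : G} (hc : c ∈ C) (hz : z ∈ P) (hz' : z' ∈ P)
    (h1 : ¬ p ∣ orderOf (z⁻¹ * c)) (h2 : ¬ p ∣ orderOf (z'⁻¹ * c)) : z = z' :=
  ppart_unique h.hp (h.pow z hz) (h.pow z' hz') (h.cent z hz c hc).symm (h.cent z' hz' c hc).symm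
    h1 h2

theorem decomp_exists [Finite G] (h : Cfg p P C) {c : G} (hc : c ∈ C) :
    ∃ z ∈ P, ¬ p ∣ orderOf (z⁻¹ * c) := by
  obtain ⟨z, ⟨i, hi⟩, ha, hz⟩ := exists_pow_decomp p h.hp c
  exact ⟨z, h.pel z (hi ▸ C.pow_mem hc i) ha, hz⟩

theorem sum_decomp [Finite G] (h : Cfg p P C) [Fintype ↥C] [Fintype ↥P] (F : ↥C → ℂ) :
    ∑ c : ↥C, F c = ∑ z : ↥P, ∑ k : ↥C,
      if ¬ p ∣ orderOf (k : G) then F (⟨z, h.le z.2⟩ * k) else 0 := by
  classical
  have e1 : ∀ z : ↥P, ∑ k : ↥C, (if ¬ p ∣ orderOf (k : G) then F (⟨z, h.le z.2⟩ * k) else 0) =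
      ∑ c : ↥C, if ¬ p ∣ orderOf ((z : G)⁻¹ * (c : G)) then F c else 0 := by
    intro z
    refine Fintype.sum_equiv (Equiv.mulLeft (⟨z, h.le z.2⟩ : ↥C)) _ _ (fun k => ?_)
    simp
  simp_rw [e1]
  rw [Finset.sum_comm]
  refine Finset.sum_congr rfl fun c _ => ?_
  obtain ⟨z₀, hz₀, hz₀'⟩ := h.decomp_exists c.2
  rw [Finset.sum_eq_single (⟨z₀, hz₀⟩ : ↥P)]
  · rw [if_pos hz₀']
  · intro z _ hz
    rw [if_neg]
    intro hh
    exact hz (Subtype.ext (h.decomp_unique c.2 z.2 hz₀ hh hz₀'))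
  · intro hh
    exact absurd (Finset.mem_univ _) hh

theorem orth [Finite G] (h : Cfg p P C) [Fintype ↥C] (θ θ' : IrrCharacter ↥C)
    (hθ : ∀ z : ↥C, (z : G) ∈ P → (θ : ↥C → ℂ) z = (θ : ↥C → ℂ) 1)
    (hθ' : ∀ z : ↥C, (z : G) ∈ P → (θ' : ↥C → ℂ) z = (θ' : ↥C → ℂ) 1) :
    (p : ℂ) * ∑ k : ↥C,
        (if ¬ p ∣ orderOf (k : G) then conj ((θ : ↥C → ℂ) k) * (θ' : ↥C → ℂ) k else 0) =
      (Nat.card ↥C : ℂ) * (if θ' = θ then 1 else 0) := by
  classical
  haveI : Fintype ↥P := Fintype.ofFinite _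
  have h1 := Cfsg.Agent.Lib.Helper3.Irr.irr_orthonormal θ' θ
  unfold classInner at h1
  rw [h.sum_decomp (fun c => (θ' : ↥C → ℂ) c * conj ((θ : ↥C → ℂ) c))] at h1
  have e : ∀ z : ↥P, ∀ k : ↥C,
      (if ¬ p ∣ orderOf (k : G) then (θ' : ↥C → ℂ) (⟨z, h.le z.2⟩ * k) *
          conj ((θ : ↥C → ℂ) (⟨z, h.le z.2⟩ * k)) else 0) =
        (if ¬ p ∣ orderOf (k : G) then conj ((θ : ↥C → ℂ) k) * (θ' : ↥C → ℂ) k else 0) := by
    intro z k
    rw [Cfsg.Agent.Lib.CT.Kernel.apply_mul_of_eq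
        (Cfsg.Agent.Lib.Helper3.Irr.IsIrrCharacter.isCharacter θ'.2) (hθ' ⟨z, h.le z.2⟩ z.2),
      Cfsg.Agent.Lib.CT.Kernel.apply_mul_of_eq
        (Cfsg.Agent.Lib.Helper3.Irr.IsIrrCharacter.isCharacter θ.2) (hθ ⟨z, h.le z.2⟩ z.2),
      mul_comm]
  simp_rw [e] at h1
  rw [Finset.sum_const, Finset.card_univ, ← Nat.card_eq_fintype_card, h.card, nsmul_eq_mul] at h1
  rw [← h1]
  have h3 : (Nat.card ↥C : ℂ) ≠ 0 := by
    exact_mod_cast (Nat.card_pos (α := ↥C)).ne'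
  field_simp

theorem conj_mem (h : Cfg p P C) {x y₀ y : G} (hy₀ : y₀ ∈ P) (hy₀1 : y₀ ≠ 1) (hy : y ∈ P)
    (hxy : x⁻¹ * y₀ * x = y) :
    (∀ w, w ∈ P ↔ x⁻¹ * w * x ∈ P) ∧ (∀ c, c ∈ C ↔ x⁻¹ * c * x ∈ C) := by
  have hy1 : y ≠ 1 := by
    rintro rfl
    apply hy₀1
    have : cj x y₀ = cj x 1 := by rw [cj_apply, hxy, map_one]
    exact (cj x).injective this
  have key : ∀ (b : G) (n : ℤ), x⁻¹ * b ^ n * x = (x⁻¹ * b * x) ^ n := by
    intro b n
    rw [← cj_apply, ← cj_apply, map_zpow]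
  constructor
  · intro w
    constructor
    · intro hw
      obtain ⟨n, rfl⟩ := h.gen y₀ hy₀ hy₀1 w hw
      rw [key, hxy]
      exact P.zpow_mem hy n
    · intro hw
      obtain ⟨n, hn⟩ := h.gen y hy hy1 _ hw
      rw [← hxy, ← key, ← cj_apply, ← cj_apply] at hn
      rw [(cj x).injective hn]
      exact P.zpow_mem hy₀ n
  · intro c
    constructor
    · intro hc
      apply h.mem_of_comm y hy hy1
      rw [← hxy]
      have := h.cent y₀ hy₀ c hc
      rw [← cj_apply, ← cj_apply, ← map_mul, ← map_mul, this]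
    · intro hc
      apply h.mem_of_comm y₀ hy₀ hy₀1
      have := h.cent y hy _ hc
      rw [← hxy, ← cj_apply, ← cj_apply, ← map_mul, ← map_mul] at this
      exact (cj x).injective this

end Cfg

end general

section main

open Cfsg.Agent.Lib.CT.FrobRec

variable {G : Type u} [Group G] [Fintype G]

/-- `θ` cut down to the `p`-section of `y`. -/
noncomputable def secFun (p : ℕ) (C : Subgroup G) (θ : ↥C → ℂ) (y : G) : ↥C → ℂ :=
  fun c => if ¬ p ∣ orderOf (y⁻¹ * (c : G)) then θ c else 0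

open Classical in
/-- The induced section function, as an algebraic integer. -/
noncomputable def sig (p : ℕ) (C : Subgroup G) (θ : ↥C → ℂ) (y g : G) : AlgInt :=
  if h : IsIntegral ℤ (indFun C (secFun p C θ y) g) then ⟨_, h⟩ else 0

variable {p : ℕ} {P C : Subgroup G}

theorem secFun_isClassFunction (h : Cfg p P C) (θ : ↥C → ℂ) (hθ : IsClassFunction ↥C θ) {y : G}
    (hy : y ∈ P) : IsClassFunction ↥C (secFun p C θ y) := by
  intro c k
  unfold secFun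
  have e : orderOf (y⁻¹ * ((k * c * k⁻¹ : ↥C) : G)) = orderOf (y⁻¹ * (c : G)) := by
    have e1 : y⁻¹ * ((k * c * k⁻¹ : ↥C) : G) = cj (k : G)⁻¹ (y⁻¹ * (c : G)) := by
      have hk : Commute (k : G) y := h.cent y hy k k.2
      rw [cj_apply, inv_inv]
      push_cast
      rw [← mul_assoc, ← mul_assoc, ← mul_assoc, hk.inv_right.eq]
    rw [e1, MulEquiv.orderOf_eq]
  rw [e, hθ c k]

theorem isIntegral_ind (h : Cfg p P C) (θ : IrrCharacter ↥C) {y : G} (hy : y ∈ P) (g : G) :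
    IsIntegral ℤ (indFun C (secFun p C (θ : ↥C → ℂ) y) g) := by
  classical
  haveI : Fintype (G ⧸ C) := Fintype.ofFinite _
  rw [Cfsg.Agent.Lib.CT.IndChar.indFun_eq_sum_rep C _
    (secFun_isClassFunction h _ (Cfsg.Agent.Lib.Helper3.Irr.IsIrrCharacter.isClassFunction θ.2) hy)
    g]
  refine IsIntegral.sum _ fun q _ => ?_
  by_cases hq : (Cfsg.Agent.Lib.CT.IndChar.rep C q)⁻¹ * g * Cfsg.Agent.Lib.CT.IndChar.rep C q ∈ C
  · rw [extendByZero_apply_of_mem C _ hq]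
    unfold secFun
    split_ifs
    · exact isIntegral_zero
    · exact Cfsg.Agent.Lib.Helper80.Integrality.isIntegral_irrCharacter θ _
  · rw [extendByZero_apply_of_not_mem C _ hq]
    exact isIntegral_zero

theorem sig_coe (h : Cfg p P C) (θ : IrrCharacter ↥C) {y : G} (hy : y ∈ P) (g : G) :
    ((sig p C (θ : ↥C → ℂ) y g : AlgInt) : ℂ) = indFun C (secFun p C (θ : ↥C → ℂ) y) g := by
  unfold sig
  rw [dif_pos (isIntegral_ind h θ hy g)]

theorem sig_conj (θ : ↥C → ℂ) (y g k : G) :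
    sig p C θ y (k * g * k⁻¹) = sig p C θ y g := by
  have e := indFun_isClassFunction C (secFun p C θ y) g k
  unfold sig
  by_cases hh : IsIntegral ℤ (indFun C (secFun p C θ y) g)
  · rw [dif_pos hh, dif_pos (by rw [e]; exact hh)]
    exact Subtype.ext e
  · rw [dif_neg hh, dif_neg (by rw [e]; exact hh)]

theorem ind_eq_zero_of_reg (h : Cfg p P C) (θ : ↥C → ℂ) {y : G} (hy : y ∈ P) (hy1 : y ≠ 1)
    {g : G} (hg : ¬ p ∣ orderOf g) : indFun C (secFun p C θ y) g = 0 := by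
  rw [indFun_apply, Finset.sum_eq_zero, mul_zero]
  intro x _
  by_cases hx : x⁻¹ * g * x ∈ C
  · rw [extendByZero_apply_of_mem C _ hx]
    unfold secFun
    rw [if_neg]
    intro hh
    apply hh
    have hcomm0 : Commute (x⁻¹ * g * x) y := h.cent y hy _ hx
    have hcomm : Commute y⁻¹ (x⁻¹ * g * x) := hcomm0.symm.inv_left
    have ho : orderOf (x⁻¹ * g * x) = orderOf g := by
      rw [← cj_apply, MulEquiv.orderOf_eq]
    have hoy : orderOf y⁻¹ = p := by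
      rw [orderOf_inv]; exact h.order hy hy1
    rw [hcomm.orderOf_mul_eq_mul_orderOf_of_coprime
      (by rw [hoy, ho]; exact (Nat.Prime.coprime_iff_not_dvd h.hp).2 hg), hoy]
    exact dvd_mul_right _ _
  · exact extendByZero_apply_of_not_mem C _ hx

theorem ind_mem_span (h : Cfg p P C) (B : Set (IrrCharacter G)) (θ : IrrCharacter ↥C)
    (hθP : ∀ x : ↥C, (x : G) ∈ P → (θ : ↥C → ℂ) x = (θ : ↥C → ℂ) 1)
    (hZ : ∀ χ : IrrCharacter G, χ ∉ B → ∀ y ∈ P, y ≠ 1 →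
      ∑ᶠ k ∈ {k : ↥C | ¬ p ∣ orderOf k},
        (χ : G → ℂ) (y * (k : G)) * conj ((θ : ↥C → ℂ) k) = 0)
    {y : G} (hy : y ∈ P) (hy1 : y ≠ 1) :
    indFun C (secFun p C (θ : ↥C → ℂ) y) ∈ Cfsg.Agent.Lib.Helper17.BrBridge.spanB B := by
  classical
  haveI : Finite (IrrCharacter G) := Cfsg.Agent.Lib.Helper3.Irr.finite_irrCharacter
  letI : Fintype (IrrCharacter G) := Fintype.ofFinite _
  letI : Fintype ↥C := Fintype.ofFinite _
  rw [Cfsg.Agent.Lib.Helper3.Orth.classFunction_eq_sum _ (indFun_isClassFunction C _)]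
  refine Submodule.sum_mem _ fun χ _ => ?_
  by_cases hχ : χ ∈ B
  · exact Submodule.smul_mem _ _ (Submodule.subset_span ⟨χ, hχ, rfl⟩)
  · have h0 : classInner (indFun C (secFun p C (θ : ↥C → ℂ) y)) (χ : G → ℂ) = 0 := by
      rw [frobenius_reciprocity C _ _
        (Cfsg.Agent.Lib.Helper3.Irr.IsIrrCharacter.isClassFunction χ.2)]
      unfold classInner
      have hz := hZ χ hχ y hy hy1
      rw [finsum_mem_eq_sum] at hz
      have e : ∑ c : ↥C, secFun p C (θ : ↥C → ℂ) y c * conj ((χ : G → ℂ) c) =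
          conj (∑ k : ↥C, if k ∈ {k : ↥C | ¬ p ∣ orderOf k} then
            (χ : G → ℂ) (y * (k : G)) * conj ((θ : ↥C → ℂ) k) else 0) := by
        rw [map_sum]
        refine Fintype.sum_equiv (Equiv.mulLeft (⟨y, h.le hy⟩ : ↥C)).symm _ _ (fun c => ?_)
        have hk : (θ : ↥C → ℂ) ((⟨y, h.le hy⟩ : ↥C)⁻¹ * c) = (θ : ↥C → ℂ) c :=
          Cfsg.Agent.Lib.CT.Kernel.apply_mul_of_eq
            (Cfsg.Agent.Lib.Helper3.Irr.IsIrrCharacter.isCharacter θ.2)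
            (hθP (⟨y, h.le hy⟩ : ↥C)⁻¹ (by simpa using P.inv_mem hy)) c
        have ho : orderOf ((⟨y, h.le hy⟩ : ↥C)⁻¹ * c) = orderOf (y⁻¹ * (c : G)) := by
          rw [← Subgroup.orderOf_coe]
          simp
        simp only [Equiv.mulLeft_symm_apply, Set.mem_ofPred_eq, ho, hk, secFun]
        split_ifs
        · simp
        · simp only [Subgroup.coe_mul, InvMemClass.coe_inv, mul_inv_cancel_left, map_mul,
            Complex.conj_conj]
          exact mul_comm _ _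
      rw [e, hz, map_zero, mul_zero]
    rw [h0, zero_smul]
    exact Submodule.zero_mem _

theorem ext_eq_zero (h : Cfg p P C) (θ : ↥C → ℂ) {y y₀ : G} (hy : y ∈ P) (hy₀ : y₀ ∈ P) {x : G}
    (hx : x⁻¹ * y₀ * x ≠ y) (k : ↥C) (hk : ¬ p ∣ orderOf (k : G)) :
    extendByZero C (secFun p C θ y) (x⁻¹ * (y₀ * (k : G)) * x) = 0 := by
  by_contra hne
  apply hx
  have hc := extendByZero_ne_zero_mem C _ hne
  rw [extendByZero_apply_of_mem C _ hc] at hne
  have hreg : ¬ p ∣ orderOf (y⁻¹ * (x⁻¹ * (y₀ * (k : G)) * x)) := by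
    intro hh
    apply hne
    unfold secFun
    rw [if_neg (not_not.2 hh)]
  have hab : x⁻¹ * (y₀ * (k : G)) * x = cj x y₀ * cj x (k : G) := by
    rw [← map_mul, cj_apply]
  rw [hab] at hreg hc
  rw [← cj_apply]
  have hcomm : Commute (cj x y₀) (cj x (k : G)) := by
    have h0 : Commute (k : G) y₀ := h.cent y₀ hy₀ k k.2
    exact h0.symm.map (cj x)
  have hcy : Commute (cj x y₀ * cj x (k : G)) y := h.cent y hy _ hc
  refine ppart_unique h.hp ?_ (h.pow y hy) ?_ hcy.symm ?_ hreg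
  · rw [← map_pow, h.pow y₀ hy₀, map_one]
  · exact (Commute.refl _).mul_right hcomm
  · rw [inv_mul_cancel_left, MulEquiv.orderOf_eq]
    exact hk

/-- Conjugation by `x` on a subgroup that it normalizes. -/
def cjC (C : Subgroup G) (x : G) (hxC : ∀ c, c ∈ C ↔ x⁻¹ * c * x ∈ C) : ↥C ≃* ↥C where
  toFun c := ⟨x⁻¹ * c * x, (hxC c).1 c.2⟩
  invFun c := ⟨x * c * x⁻¹, (hxC _).2 (by simp [mul_assoc])⟩
  left_inv c := Subtype.ext (by simp [mul_assoc])
  right_inv c := Subtype.ext (by simp [mul_assoc])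
  map_mul' a b := Subtype.ext (by simp [mul_assoc])

theorem cjC_coe (C : Subgroup G) (x : G) (hxC : ∀ c, c ∈ C ↔ x⁻¹ * c * x ∈ C) (c : ↥C) :
    ((cjC C x hxC c : ↥C) : G) = x⁻¹ * c * x := rfl

theorem ext_eq (h : Cfg p P C) (θ : IrrCharacter ↥C)
    (hθP : ∀ x : ↥C, (x : G) ∈ P → (θ : ↥C → ℂ) x = (θ : ↥C → ℂ) 1)
    {y y₀ : G} (hy : y ∈ P) {x : G} (hx : x⁻¹ * y₀ * x = y)
    (hxC : ∀ c, c ∈ C ↔ x⁻¹ * c * x ∈ C) (k : ↥C) (hk : ¬ p ∣ orderOf (k : G)) :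
    extendByZero C (secFun p C (θ : ↥C → ℂ) y) (x⁻¹ * (y₀ * (k : G)) * x) =
      (θ : ↥C → ℂ) (cjC C x hxC k) := by
  have hab : x⁻¹ * (y₀ * (k : G)) * x = (((⟨y, h.le hy⟩ : ↥C) * cjC C x hxC k : ↥C) : G) := by
    rw [Subgroup.coe_mul, cjC_coe]
    show _ = y * _
    rw [← hx]
    group
  rw [hab, extendByZero_apply_coe]
  unfold secFun
  rw [if_pos, Cfsg.Agent.Lib.CT.Kernel.apply_mul_of_eq
    (Cfsg.Agent.Lib.Helper3.Irr.IsIrrCharacter.isCharacter θ.2) (hθP ⟨y, h.le hy⟩ hy)]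
  rw [Subgroup.coe_mul]
  show ¬ p ∣ orderOf (y⁻¹ * (y * (x⁻¹ * (k : G) * x)))
  rw [inv_mul_cancel_left, ← cj_apply, MulEquiv.orderOf_eq]
  exact hk

open Classical in
theorem inner_sum (h : Cfg p P C) [Fintype ↥C] (θ : IrrCharacter ↥C)
    (hθP : ∀ x : ↥C, (x : G) ∈ P → (θ : ↥C → ℂ) x = (θ : ↥C → ℂ) 1)
    (T : Subgroup G)
    (hT : ∀ g : G, g ∈ T ↔ (g ∈ Subgroup.normalizer (P : Set G) ∧
      ∀ c c' : ↥C, (c' : G) = g * c * g⁻¹ → (θ : ↥C → ℂ) c' = (θ : ↥C → ℂ) c))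
    {y y₀ : G} (hy : y ∈ P) (hy₀ : y₀ ∈ P) (hy₀1 : y₀ ≠ 1) (x : G) :
    (p : ℂ) * ∑ k : ↥C, (if ¬ p ∣ orderOf (k : G) then
        conj ((θ : ↥C → ℂ) k) *
          extendByZero C (secFun p C (θ : ↥C → ℂ) y) (x⁻¹ * (y₀ * (k : G)) * x) else 0) =
      (Nat.card ↥C : ℂ) * (if x⁻¹ * y₀ * x = y ∧ x⁻¹ ∈ T then 1 else 0) := by
  by_cases hx : x⁻¹ * y₀ * x = y
  · obtain ⟨hxP, hxC⟩ := h.conj_mem hy₀ hy₀1 hy hx
    obtain ⟨θx, hθx⟩ : ∃ θx : IrrCharacter ↥C,
        ∀ c, (θx : ↥C → ℂ) c = (θ : ↥C → ℂ) (cjC C x hxC c) :=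
      ⟨⟨fun c => (θ : ↥C → ℂ) (cjC C x hxC c),
        Cfsg.Agent.Lib.CT.Ops.isIrrCharacter_comp_mulEquiv (cjC C x hxC) θ.2⟩, fun c => rfl⟩
    have e : ∀ k : ↥C, (if ¬ p ∣ orderOf (k : G) then
        conj ((θ : ↥C → ℂ) k) *
          extendByZero C (secFun p C (θ : ↥C → ℂ) y) (x⁻¹ * (y₀ * (k : G)) * x) else 0) =
        (if ¬ p ∣ orderOf (k : G) then conj ((θ : ↥C → ℂ) k) * (θx : ↥C → ℂ) k else 0) := by
      intro k
      split_ifs with hk
      · rfl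
      · rw [ext_eq h θ hθP hy hx hxC k hk, hθx]
    simp_rw [e]
    have hθx' : ∀ z : ↥C, (z : G) ∈ P → (θx : ↥C → ℂ) z = (θx : ↥C → ℂ) 1 := by
      intro z hz
      rw [hθx, hθx, map_one]
      exact hθP _ ((hxP z).1 hz)
    rw [h.orth θ θx hθP hθx']
    congr 1
    have hiff : θx = θ ↔ (x⁻¹ * y₀ * x = y ∧ x⁻¹ ∈ T) := by
      constructor
      · intro hh
        refine ⟨hx, (hT x⁻¹).2 ⟨?_, ?_⟩⟩
        · rw [Subgroup.mem_set_normalizer_iff]
          intro w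
          rw [inv_inv]
          exact hxP w
        · intro c c' hc'
          rw [inv_inv] at hc'
          have : c' = cjC C x hxC c := Subtype.ext hc'
          rw [this, ← hθx, hh]
      · rintro ⟨-, hxT⟩
        apply Subtype.ext
        funext c
        rw [hθx]
        exact ((hT x⁻¹).1 hxT).2 c (cjC C x hxC c) (by rw [inv_inv]; rfl)
    by_cases hh : θx = θ
    · rw [if_pos hh, if_pos (hiff.1 hh)]
    · rw [if_neg hh, if_neg (fun h' => hh (hiff.2 h'))]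
  · rw [if_neg (fun h' => hx h'.1), mul_zero, Finset.sum_eq_zero, mul_zero]
    intro k _
    split_ifs with hk
    · rfl
    · rw [ext_eq_zero h _ hy hy₀ hx k hk, mul_zero]

open Classical in
theorem count_sum (h : Cfg p P C) (T : Subgroup G) (hCT : C ≤ T) {y y₀ : G} (hy₀ : y₀ ∈ P)
    (hy₀1 : y₀ ≠ 1) :
    (∑ x : G, (if x⁻¹ * y₀ * x = y ∧ x⁻¹ ∈ T then (1 : ℂ) else 0)) =
      if ∃ t ∈ T, t * y₀ * t⁻¹ = y then (Nat.card ↥C : ℂ) else 0 := by
  by_cases ht : ∃ t ∈ T, t * y₀ * t⁻¹ = y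
  · rw [if_pos ht]
    obtain ⟨t, htT, hty⟩ := ht
    have e : ∀ x : G, (if ((t * x)⁻¹)⁻¹ * y₀ * (t * x)⁻¹ = y ∧ ((t * x)⁻¹)⁻¹ ∈ T
        then (1 : ℂ) else 0) = if x ∈ C then 1 else 0 := by
      intro x
      have hiff : (((t * x)⁻¹)⁻¹ * y₀ * (t * x)⁻¹ = y ∧ ((t * x)⁻¹)⁻¹ ∈ T) ↔ x ∈ C := by
        rw [inv_inv]
        have h2 : t * x * y₀ * (t * x)⁻¹ = t * (x * y₀ * x⁻¹) * t⁻¹ := by group
        constructor
        · rintro ⟨h1, -⟩
          apply h.mem_of_comm y₀ hy₀ hy₀1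
          rw [← hty, h2] at h1
          have h3 := mul_left_cancel (mul_right_cancel h1)
          exact mul_inv_eq_iff_eq_mul.1 h3
        · intro hxC
          refine ⟨?_, T.mul_mem htT (hCT hxC)⟩
          have h3 : x * y₀ = y₀ * x := h.cent y₀ hy₀ x hxC
          rw [← hty, h2, h3, mul_inv_cancel_right]
      by_cases hxC : x ∈ C
      · rw [if_pos hxC, if_pos (hiff.2 hxC)]
      · rw [if_neg hxC, if_neg (fun h' => hxC (hiff.1 h'))]
    rw [← Fintype.sum_equiv ((Equiv.mulLeft t).trans (Equiv.inv G))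
      (fun x => if ((t * x)⁻¹)⁻¹ * y₀ * (t * x)⁻¹ = y ∧ ((t * x)⁻¹)⁻¹ ∈ T then (1 : ℂ) else 0) _
      (fun x => rfl)]
    simp_rw [e]
    rw [Finset.sum_boole, Nat.card_eq_fintype_card, Fintype.card_subtype]
  · rw [if_neg ht]
    apply Finset.sum_eq_zero
    intro x _
    rw [if_neg]
    rintro ⟨h1, h2⟩
    exact ht ⟨x⁻¹, h2, by rw [inv_inv]; exact h1⟩

open Classical in
theorem pair_sum (h : Cfg p P C) (θ : IrrCharacter ↥C)
    (hθP : ∀ x : ↥C, (x : G) ∈ P → (θ : ↥C → ℂ) x = (θ : ↥C → ℂ) 1)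
    (T : Subgroup G)
    (hT : ∀ g : G, g ∈ T ↔ (g ∈ Subgroup.normalizer (P : Set G) ∧
      ∀ c c' : ↥C, (c' : G) = g * c * g⁻¹ → (θ : ↥C → ℂ) c' = (θ : ↥C → ℂ) c))
    {y y₀ : G} (hy : y ∈ P) (hy₀ : y₀ ∈ P) (hy₀1 : y₀ ≠ 1) :
    (p : ℂ) * ∑ᶠ k ∈ {k : ↥C | ¬ p ∣ orderOf k},
        conj ((θ : ↥C → ℂ) k) * indFun C (secFun p C (θ : ↥C → ℂ) y) (y₀ * (k : G)) =
      if ∃ t ∈ T, t * y₀ * t⁻¹ = y then (Nat.card ↥C : ℂ) else 0 := by
  letI : Fintype ↥C := Fintype.ofFinite _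
  have hCT : C ≤ T := by
    intro c hc
    rw [hT]
    refine ⟨?_, ?_⟩
    · rw [Subgroup.mem_set_normalizer_iff]
      intro w
      constructor
      · intro hw
        have := h.cent w hw c hc
        rw [this, mul_inv_cancel_right]
        exact hw
      · intro hw
        have h1 := h.cent _ hw c hc
        have e3 : c * w * c⁻¹ * c = c * w := by group
        rw [e3] at h1
        have e2 : c * w * c⁻¹ = w := mul_left_cancel h1
        rwa [e2] at hw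
    · intro k k' hk'
      have : k' = ⟨c, hc⟩ * k * (⟨c, hc⟩ : ↥C)⁻¹ := Subtype.ext (by rw [hk']; rfl)
      rw [this]
      exact Cfsg.Agent.Lib.Helper3.Irr.IsIrrCharacter.isClassFunction θ.2 k ⟨c, hc⟩
  rw [finsum_mem_eq_sum]
  have e1 : ∀ k : ↥C, (if k ∈ {k : ↥C | ¬ p ∣ orderOf k} then
      conj ((θ : ↥C → ℂ) k) * indFun C (secFun p C (θ : ↥C → ℂ) y) (y₀ * (k : G)) else 0) =
      (Nat.card ↥C : ℂ)⁻¹ * ∑ x : G, (if ¬ p ∣ orderOf (k : G) then
        conj ((θ : ↥C → ℂ) k) *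
          extendByZero C (secFun p C (θ : ↥C → ℂ) y) (x⁻¹ * (y₀ * (k : G)) * x) else 0) := by
    intro k
    by_cases hk : ¬ p ∣ orderOf (k : G)
    · have hk' : k ∈ {k : ↥C | ¬ p ∣ orderOf k} := by
        rw [Subgroup.orderOf_coe] at hk
        exact hk
      rw [if_pos hk']
      simp only [if_pos hk]
      rw [indFun_apply, ← Finset.mul_sum]
      ring
    · have hk' : k ∉ {k : ↥C | ¬ p ∣ orderOf k} := by
        rw [Subgroup.orderOf_coe] at hk
        exact hk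
      rw [if_neg hk']
      simp only [if_neg hk]
      simp
  simp_rw [e1]
  rw [← Finset.mul_sum, Finset.sum_comm, mul_left_comm, Finset.mul_sum]
  simp_rw [inner_sum h θ hθP T hT hy hy₀ hy₀1]
  rw [← Finset.mul_sum, count_sum h T hCT hy₀ hy₀1]
  have h3 : (Nat.card ↥C : ℂ) ≠ 0 := by
    exact_mod_cast (Nat.card_pos (α := ↥C)).ne'
  split_ifs
  · field_simp
  · simp

theorem exists_sections_aux (h : Cfg p P C) (B : Set (IrrCharacter G)) (θ : IrrCharacter ↥C)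
    (hθP : ∀ x : ↥C, (x : G) ∈ P → (θ : ↥C → ℂ) x = (θ : ↥C → ℂ) 1)
    (T : Subgroup G)
    (hT : ∀ g : G, g ∈ T ↔ (g ∈ Subgroup.normalizer (P : Set G) ∧
      ∀ c c' : ↥C, (c' : G) = g * c * g⁻¹ → (θ : ↥C → ℂ) c' = (θ : ↥C → ℂ) c))
    (hZ : ∀ χ : IrrCharacter G, χ ∉ B → ∀ y ∈ P, y ≠ 1 →
      ∑ᶠ k ∈ {k : ↥C | ¬ p ∣ orderOf k},
        (χ : G → ℂ) (y * (k : G)) * conj ((θ : ↥C → ℂ) k) = 0) :
    ∃ (σ : G → G → AlgInt) (m : ℕ), ¬ p ∣ m ∧
      (∀ y g k, σ y (k * g * k⁻¹) = σ y g) ∧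
      (∀ y ∈ P, y ≠ 1 →
        (fun g => ((σ y g : AlgInt) : ℂ)) ∈ Cfsg.Agent.Lib.Helper17.BrBridge.spanB B) ∧
      (∀ y ∈ P, y ≠ 1 → ∀ g : G, ¬ p ∣ orderOf g → σ y g = 0) ∧
      (∀ y ∈ P, y ≠ 1 → ∀ y₀ ∈ P, y₀ ≠ 1 → (∃ t ∈ T, t * y₀ * t⁻¹ = y) →
        ∑ᶠ k ∈ {k : ↥C | ¬ p ∣ orderOf k},
          conj ((θ : ↥C → ℂ) k) * ((σ y (y₀ * (k : G)) : AlgInt) : ℂ) = (m : ℂ)) ∧
      (∀ y ∈ P, y ≠ 1 → ∀ y₀ ∈ P, y₀ ≠ 1 → (¬ ∃ t ∈ T, t * y₀ * t⁻¹ = y) →
        ∑ᶠ k ∈ {k : ↥C | ¬ p ∣ orderOf k},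
          conj ((θ : ↥C → ℂ) k) * ((σ y (y₀ * (k : G)) : AlgInt) : ℂ) = 0) := by
  classical
  have hdvd : p ∣ Nat.card ↥C := by
    rw [← h.card]
    exact Subgroup.card_dvd_of_le h.le
  obtain ⟨m, hm⟩ := hdvd
  have hp0 : (p : ℂ) ≠ 0 := by exact_mod_cast h.hp.ne_zero
  refine ⟨sig p C (θ : ↥C → ℂ), m, h.ndvd m hm, fun y g k => sig_conj _ y g k, ?_, ?_, ?_, ?_⟩
  · intro y hy hy1
    have e : (fun g => ((sig p C (θ : ↥C → ℂ) y g : AlgInt) : ℂ)) =
        indFun C (secFun p C (θ : ↥C → ℂ) y) := funext fun g => sig_coe h θ hy g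
    rw [e]
    exact ind_mem_span h B θ hθP hZ hy hy1
  · intro y hy hy1 g hg
    apply Subtype.ext
    rw [sig_coe h θ hy g, ind_eq_zero_of_reg h _ hy hy1 hg]
    rfl
  · intro y hy hy1 y₀ hy₀ hy₀1 ht
    have key := pair_sum h θ hθP T hT hy hy₀ hy₀1
    rw [if_pos ht, hm] at key
    simp only [sig_coe h θ hy]
    push_cast at key
    exact mul_left_cancel₀ hp0 key
  · intro y hy hy1 y₀ hy₀ hy₀1 ht
    have key := pair_sum h θ hθP T hT hy hy₀ hy₀1
    rw [if_neg ht] at key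
    simp only [sig_coe h θ hy]
    exact (mul_eq_zero.1 key).resolve_left hp0

end main

/-- (SEC) -/
theorem exists_sections {G : Type u} [Group G] [Fintype G] (p : ℕ) [Fact p.Prime]
    (P : Sylow p G) (hP : Nat.card P = p)
    (B : Set (IrrCharacter G))
    (θ : IrrCharacter (Subgroup.centralizer ((P : Subgroup G) : Set G)))
    (hθP : ∀ x : Subgroup.centralizer ((P : Subgroup G) : Set G), (x : G) ∈ (P : Subgroup G) →
      (θ : Subgroup.centralizer ((P : Subgroup G) : Set G) → ℂ) x =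
        (θ : Subgroup.centralizer ((P : Subgroup G) : Set G) → ℂ) 1)
    (T : Subgroup G)
    (hT : ∀ g : G, g ∈ T ↔ (g ∈ Subgroup.normalizer ((P : Subgroup G) : Set G) ∧
      ∀ c c' : Subgroup.centralizer ((P : Subgroup G) : Set G), (c' : G) = g * c * g⁻¹ →
        (θ : Subgroup.centralizer ((P : Subgroup G) : Set G) → ℂ) c' =
          (θ : Subgroup.centralizer ((P : Subgroup G) : Set G) → ℂ) c))
    (hZ : ∀ χ : IrrCharacter G, χ ∉ B → ∀ y ∈ (P : Subgroup G), y ≠ 1 →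
      ∑ᶠ k ∈ {k : Subgroup.centralizer ((P : Subgroup G) : Set G) | ¬ p ∣ orderOf k},
        (χ : G → ℂ) (y * (k : G)) *
          conj ((θ : Subgroup.centralizer ((P : Subgroup G) : Set G) → ℂ) k) = 0) :
    ∃ (σ : G → G → AlgInt) (m : ℕ), ¬ p ∣ m ∧
      (∀ y g h, σ y (h * g * h⁻¹) = σ y g) ∧
      (∀ y ∈ (P : Subgroup G), y ≠ 1 →
        (fun g => ((σ y g : AlgInt) : ℂ)) ∈ Cfsg.Agent.Lib.Helper17.BrBridge.spanB B) ∧
      (∀ y ∈ (P : Subgroup G), y ≠ 1 → ∀ g : G, ¬ p ∣ orderOf g → σ y g = 0) ∧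
      (∀ y ∈ (P : Subgroup G), y ≠ 1 → ∀ y₀ ∈ (P : Subgroup G), y₀ ≠ 1 →
        (∃ t ∈ T, t * y₀ * t⁻¹ = y) →
        ∑ᶠ k ∈ {k : Subgroup.centralizer ((P : Subgroup G) : Set G) | ¬ p ∣ orderOf k},
          conj ((θ : Subgroup.centralizer ((P : Subgroup G) : Set G) → ℂ) k) *
            ((σ y (y₀ * (k : G)) : AlgInt) : ℂ) = (m : ℂ)) ∧
      (∀ y ∈ (P : Subgroup G), y ≠ 1 → ∀ y₀ ∈ (P : Subgroup G), y₀ ≠ 1 →
        (¬ ∃ t ∈ T, t * y₀ * t⁻¹ = y) →
        ∑ᶠ k ∈ {k : Subgroup.centralizer ((P : Subgroup G) : Set G) | ¬ p ∣ orderOf k},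
          conj ((θ : Subgroup.centralizer ((P : Subgroup G) : Set G) → ℂ) k) *
            ((σ y (y₀ * (k : G)) : AlgInt) : ℂ) = 0) :=
  exists_sections_aux (cfg_of_sylow p P hP) B θ hθP T hT hZ

end Cfsg.Agent.Lib.Helper74.BrSections
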