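import Mathlib
import Cfsg.Agent.Lib.Helper74.AutAct
import Cfsg.Agent.Lib.Helper74.GlauPerm
import Cfsg.Agent.Lib.Helper25.CliffordCorr
import Cfsg.Agent.Lib.Helper25.CliffordCorr2
import Cfsg.Agent.Lib.Helper78.CliffordCorr
import Cfsg.Agent.Lib.CT.LinChar
import Cfsg.Agent.Lib.CT.FrobRec

/-!
Coprime action and extension over an abelian quotient (the key step of Isaacs 13.28/13.31):
an invariant irreducible character of a normal subgroup `M` with `G/M` abelian lies under an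
invariant irreducible character of `G`.
-/

set_option autoImplicit false

namespace Cfsg.Agent.Lib.Helper74.CoprimeExt

open Cfsg Cfsg.Agent.Lib.Helper74.AutAct
open Cfsg.Agent.Lib.Helper3.Irr Cfsg.Agent.Lib.CT Cfsg.Agent.Lib.CT.FrobRec
open Cfsg.Agent.Lib.Helper25.CliffordCorr Cfsg.Agent.Lib.Helper25.CliffordCorr2
open scoped ComplexConjugate

universe u v

section Lin

variable {T : Type u} [Group T]

/-- The linear characters (homomorphisms into `ℂˣ`) that are trivial on a subgroup. -/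
def linKer (M : Subgroup T) : Subgroup (T →* ℂˣ) where
  carrier := {f | ∀ t ∈ M, f t = 1}
  one_mem' := fun _ _ => rfl
  mul_mem' := by
    intro f g hf hg t ht
    rw [MonoidHom.mul_apply, hf t ht, hg t ht, mul_one]
  inv_mem' := by
    intro f hf t ht
    rw [MonoidHom.inv_apply, hf t ht, inv_one]

/-- Multiplication by linear characters trivial on `M`, as an action on `X p`. -/
@[reducible]
noncomputable def linAct (M : Subgroup T) (p : (T → ℂ) → Prop)
    (hp : ∀ f ∈ linKer M, ∀ η : T → ℂ, p η → p (fun t => ((f t : ℂˣ) : ℂ) * η t)) :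
    MulAction (linKer M) (X p) where
  smul f x := ⟨fun t => ((f.1 t : ℂˣ) : ℂ) * x.1 t,
    ⟨Cfsg.Agent.Lib.CT.LinChar.isIrrCharacter_linear_mul
        (Cfsg.Agent.Lib.CT.LinChar.isCharacter_of_hom f.1) (by simp) x.2.1,
      hp f.1 f.2 x.1 x.2.2⟩⟩
  one_smul x := by
    apply Subtype.ext
    funext t
    show ((((1 : linKer M) : T →* ℂˣ) t : ℂˣ) : ℂ) * x.1 t = x.1 t
    simp
  mul_smul f g x := by
    apply Subtype.ext
    funext t
    show ((((f * g : linKer M) : T →* ℂˣ) t : ℂˣ) : ℂ) * x.1 t =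
      ((f.1 t : ℂˣ) : ℂ) * (((g.1 t : ℂˣ) : ℂ) * x.1 t)
    simp [mul_assoc]

/-- The permutation representation of `linKer M` on `X p`. -/
noncomputable def linPermHom (M : Subgroup T) (p : (T → ℂ) → Prop)
    (hp : ∀ f ∈ linKer M, ∀ η : T → ℂ, p η → p (fun t => ((f t : ℂˣ) : ℂ) * η t)) :
    linKer M →* Equiv.Perm (X p) :=
  @MulAction.toPermHom (linKer M) (X p) _ (linAct M p hp)

theorem linPermHom_apply (M : Subgroup T) (p : (T → ℂ) → Prop)
    (hp : ∀ f ∈ linKer M, ∀ η : T → ℂ, p η → p (fun t => ((f t : ℂˣ) : ℂ) * η t))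
    (f : linKer M) (x : X p) (t : T) :
    ((linPermHom M p hp f x : X p) : T → ℂ) t = ((f.1 t : ℂˣ) : ℂ) * x.1 t := rfl

end Lin

/-- If `A` acts on `G` fixing the normal subgroup `M`, with `G/M` abelian and `|G : M|` prime to
`|A|`, then every `A`-invariant irreducible character of `M` lies under an `A`-invariant
irreducible character of `G`. -/
theorem exists_invariant_over_abelian {G : Type u} [Group G] [Fintype G] (M : Subgroup G)
    [hM : M.Normal] [Fintype M] (hab : ∀ x y : G, x * y * x⁻¹ * y⁻¹ ∈ M)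
    {A : Type v} [Group A] [Finite A] (α : A →* MulAut G) (hαM : ∀ a, ∀ m ∈ M, α a m ∈ M)
    (hcop : (M.index).Coprime (Nat.card A))
    (ψ : M → ℂ) (hψ : IsIrrCharacter M ψ) (hinv : ∀ a (m : M), ψ ⟨α a m, hαM a m m.2⟩ = ψ m) :
    ∃ χ : G → ℂ, IsIrrCharacter G χ ∧ classInner (fun m : M => χ m) ψ ≠ 0 ∧
      ∀ a g, χ (α a g) = χ g := by
  classical
  obtain ⟨T, hTdef⟩ : ∃ T : Subgroup G,
      T = Cfsg.Agent.Lib.Helper78.CliffordCorr.inertia M hM ψ := ⟨_, rfl⟩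
  have hT : ∀ g : G, g ∈ T ↔ ∀ h : M, ψ ⟨g * h * g⁻¹, hM.conj_mem h h.2 g⟩ = ψ h := by
    intro g
    rw [hTdef]
    exact Cfsg.Agent.Lib.Helper78.CliffordCorr.mem_inertia M hM ψ g
  have hMT : M ≤ T := by
    rw [hTdef]
    exact Cfsg.Agent.Lib.Helper78.CliffordCorr.le_inertia M hM (IsIrrCharacter.isClassFunction hψ)
  have hfinT : Fintype T := Fintype.ofFinite _
  have hαT : ∀ a, ∀ t ∈ T, α a t ∈ T := by
    intro a t ht
    rw [hT] at ht ⊢
    intro h
    have h1 := hinv a⁻¹ h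
    have h2 := ht ⟨α a⁻¹ h, hαM a⁻¹ h h.2⟩
    have h3 := hinv a ⟨t * α a⁻¹ h * t⁻¹, hM.conj_mem _ (hαM a⁻¹ h h.2) t⟩
    rw [← h1, ← h2, ← h3]
    refine congrArg ψ ?_
    apply Subtype.ext
    simp
  obtain ⟨p, hp⟩ : ∃ p : (T → ℂ) → Prop,
      p = fun η => classInner (fun m : M => η ⟨m, hMT m.2⟩) ψ ≠ 0 := ⟨_, rfl⟩
  have hpiff : ∀ η : T → ℂ, p η ↔ classInner (fun m : M => η ⟨m, hMT m.2⟩) ψ ≠ 0 :=
    fun η => by rw [hp]
  obtain ⟨βA, hβAdef⟩ : ∃ βA : A →* MulAut T, βA = restrictAut α T hαT := ⟨_, rfl⟩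
  have hβAapp : ∀ (a : A) (t : T), ((βA a t : T) : G) = α a t := by
    intro a t
    rw [hβAdef]; rfl
  have hβA : ∀ a, βA a ∈ stab p := by
    intro a η
    rw [hpiff, hpiff]
    show classInner (fun m : M => η (βA a ⟨m, hMT m.2⟩)) ψ ≠ 0 ↔
      classInner (fun m : M => η ⟨m, hMT m.2⟩) ψ ≠ 0
    have h1 := classInner_comp_equiv (restrictAut α M hαM a) (fun m : M => η ⟨m, hMT m.2⟩) ψ
    have h2 : (fun x : M => ψ (restrictAut α M hαM a x)) = ψ := funext (fun x => hinv a x)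
    have h3 : (fun m : M => η (βA a ⟨m, hMT m.2⟩)) =
        fun x : M => (fun m : M => η ⟨m, hMT m.2⟩) (restrictAut α M hαM a x) := by
      funext m
      refine congrArg η ?_
      apply Subtype.ext
      rw [hβAapp]
      rfl
    rw [h2] at h1
    rw [h3, h1]
  obtain ⟨b₀, hb₀⟩ : ∃ b₀ : A →* Equiv.Perm (X p),
      b₀ = (permHom p).comp (βA.codRestrict (stab p) hβA) := ⟨_, rfl⟩
  have hb₀app : ∀ (a : A) (x : X p) (t : T), ((b₀ a x : X p) : T → ℂ) t = x.1 ((βA a)⁻¹ t) := by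
    intro a x t
    rw [hb₀]; rfl
  have hplin : ∀ f ∈ linKer (M.subgroupOf T), ∀ η : T → ℂ, p η →
      p (fun t => ((f t : ℂˣ) : ℂ) * η t) := by
    intro f hf η hη
    rw [hpiff] at hη ⊢
    have h1 : (fun m : M => ((f ⟨m, hMT m.2⟩ : ℂˣ) : ℂ) * η ⟨m, hMT m.2⟩) =
        fun m : M => η ⟨m, hMT m.2⟩ := by
      funext m
      rw [hf ⟨m, hMT m.2⟩ (Subgroup.mem_subgroupOf.mpr m.2)]
      simp
    show classInner (fun m : M => ((f ⟨m, hMT m.2⟩ : ℂˣ) : ℂ) * η ⟨m, hMT m.2⟩) ψ ≠ 0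
    rw [h1]
    exact hη
  obtain ⟨a₀, ha₀⟩ : ∃ a₀ : linKer (M.subgroupOf T) →* Equiv.Perm (X p),
      a₀ = linPermHom (M.subgroupOf T) p hplin := ⟨_, rfl⟩
  have ha₀app : ∀ (f : linKer (M.subgroupOf T)) (x : X p) (t : T),
      ((a₀ f x : X p) : T → ℂ) t = ((f.1 t : ℂˣ) : ℂ) * x.1 t := by
    intro f x t
    rw [ha₀]; rfl
  have hfinX : Finite (X p) := finite_X p
  have hneX : Nonempty (X p) := by
    have hfi : Finite (IrrCharacter T) := finite_irrCharacter
    have hFi : Fintype (IrrCharacter T) := Fintype.ofFinite _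
    by_contra hcon
    have hall : ∀ ξ : IrrCharacter T,
        classInner (fun h : M => (ξ : T → ℂ) ⟨h, hMT h.2⟩) ψ = 0 := by
      intro ξ
      by_contra h
      exact hcon ⟨⟨ξ.1, ξ.2, (hpiff _).2 h⟩⟩
    have hdec := ind_decomp M T hMT ψ (Cfsg.Agent.Lib.CT.Ops.IsIrrCharacter.isCharacter hψ)
    have h1 : indFun M ψ = 0 := by
      rw [hdec]
      apply Finset.sum_eq_zero
      intro ξ _
      rw [hall ξ, zero_smul]
    have h2 := indFun_one M ψ
    rw [h1] at h2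
    have hidx : (M.index : ℂ) ≠ 0 := Nat.cast_ne_zero.mpr Subgroup.index_ne_zero_of_finite
    have hψ1 : ψ 1 ≠ 0 := IsIrrCharacter.apply_one_ne_zero hψ
    exact (mul_ne_zero hidx hψ1) h2.symm
  have hnorm : ∀ s f, ∃ f', b₀ s * a₀ f * (b₀ s)⁻¹ = a₀ f' := by
    intro s f
    have hf' : (f.1.comp ((βA s)⁻¹ : MulAut T).toMonoidHom) ∈ linKer (M.subgroupOf T) := by
      intro t ht
      show f.1 ((βA s)⁻¹ t) = 1
      apply f.2
      rw [Subgroup.mem_subgroupOf] at ht ⊢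
      rw [← map_inv, hβAapp]
      exact hαM s⁻¹ _ ht
    refine ⟨⟨_, hf'⟩, ?_⟩
    apply Equiv.ext
    intro x
    apply Subtype.ext
    funext t
    rw [Equiv.Perm.mul_apply, Equiv.Perm.mul_apply, hb₀app, ha₀app, ← map_inv b₀, hb₀app,
      ha₀app]
    have h1 : (βA s⁻¹)⁻¹ ((βA s)⁻¹ t) = t := by
      rw [map_inv, inv_inv]
      simp
    rw [h1]
    rfl
  have hexp : ∀ σ ∈ a₀.range, σ ^ M.index = 1 := by
    rintro σ ⟨f, rfl⟩
    rw [← map_pow]
    have h1 : f ^ M.index = 1 := by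
      apply Subtype.ext
      apply MonoidHom.ext
      intro t
      rw [Subgroup.coe_pow, MonoidHom.pow_apply, ← map_pow]
      apply f.2
      rw [Subgroup.mem_subgroupOf, Subgroup.coe_pow]
      exact Subgroup.pow_index_mem M (t : G)
    rw [h1, map_one]
  have hcopr : (Nat.card a₀.range).Coprime (Nat.card b₀.range) := by
    have h2 : Nat.card b₀.range ∣ Nat.card A := Subgroup.card_range_dvd b₀
    by_contra hc
    obtain ⟨q, hq, hqd⟩ := Nat.exists_prime_and_dvd hc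
    have hq1 : q ∣ Nat.card a₀.range := hqd.trans (Nat.gcd_dvd_left _ _)
    have hq2 : q ∣ Nat.card A := (hqd.trans (Nat.gcd_dvd_right _ _)).trans h2
    have hqf := Fact.mk hq
    obtain ⟨σ, hσ⟩ := exists_prime_orderOf_dvd_card' q hq1
    have hq3 : q ∣ M.index := by
      rw [← hσ]
      apply orderOf_dvd_of_pow_eq_one
      apply Subtype.ext
      rw [Subgroup.coe_pow]
      exact hexp σ.1 σ.2
    have h3 := Nat.dvd_gcd hq3 hq2
    rw [hcop] at h3
    exact hq.one_lt.ne' (Nat.dvd_one.mp h3)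
  have hsolv' : Group.IsSolvable a₀.range ∨ Group.IsSolvable b₀.range := by
    left
    apply Group.isSolvable_of_comm
    rintro ⟨_, ⟨f, rfl⟩⟩ ⟨_, ⟨g, rfl⟩⟩
    apply Subtype.ext
    show a₀ f * a₀ g = a₀ g * a₀ f
    rw [← map_mul, ← map_mul, mul_comm]
  have hab' : ∀ x ∈ T, ∀ y ∈ T, x * y * x⁻¹ * y⁻¹ ∈ M := fun x _ y _ => hab x y
  have hTinv : ∀ g : G, g ∈ T → ∀ h : M, ψ ⟨g * h * g⁻¹, hM.conj_mem h h.2 g⟩ = ψ h :=
    fun g hg => (hT g).1 hg
  have hres : ∀ x : X p, ∃ c : ℂ, c ≠ 0 ∧ (fun h : M => x.1 ⟨h, hMT h.2⟩) = c • ψ :=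
    fun x => ⟨_, (hpiff _).1 x.2.2,
      res_eq_smul M T hMT ψ hψ hTinv x.1 x.2.1 ((hpiff _).1 x.2.2)⟩
  have htrans : ∀ x y : X p, ∃ k, a₀ k x = y := by
    intro x y
    obtain ⟨cx, hcx, hx⟩ := hres x
    obtain ⟨cy, hcy, hy⟩ := hres y
    have hne : classInner (fun h : M => x.1 ⟨h, hMT h.2⟩)
        (fun h : M => y.1 ⟨h, hMT h.2⟩) ≠ 0 := by
      rw [hx, hy, classInner_smul_left, classInner_smul_right, irr_inner_self ⟨ψ, hψ⟩, mul_one]
      exact mul_ne_zero hcx ((map_ne_zero _).mpr hcy)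
    obtain ⟨f, hf1, hf2⟩ := exists_twist M T hMT hab' x.1 y.1 x.2.1 y.2.1 hne
    refine ⟨⟨f, fun t ht => hf1 t (Subgroup.mem_subgroupOf.mp ht)⟩, ?_⟩
    apply Subtype.ext
    funext t
    rw [ha₀app, hf2]
  obtain ⟨x, hx⟩ := Cfsg.Agent.Lib.Helper74.GlauPerm.exists_fixed a₀ b₀ hnorm hcopr hsolv' htrans
  have hxinv : ∀ (a : A) (t : T), x.1 (βA a t) = x.1 t := by
    intro a t
    have h1 := hb₀app a⁻¹ x t
    rw [hx a⁻¹, map_inv, inv_inv] at h1
    exact h1.symm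
  obtain ⟨c, hc, hxres⟩ := hres x
  refine ⟨indFun T x.1, (ind_irr_inj M T hMT ψ hψ hT).1 x.1 x.2.1 ((hpiff _).1 x.2.2), ?_, ?_⟩
  · rw [inner_ind_res M T hMT ψ hψ hT x.1 c hxres]
    exact hc
  · intro a g
    rw [indFun_apply, indFun_apply]
    congr 1
    have hext : ∀ z : G, extendByZero T x.1 (α a z) = extendByZero T x.1 z := by
      intro z
      by_cases hz : z ∈ T
      · rw [extendByZero_apply_of_mem T x.1 (hαT a z hz), extendByZero_apply_of_mem T x.1 hz,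
          ← hxinv a ⟨z, hz⟩]
        refine congrArg x.1 ?_
        apply Subtype.ext
        rw [hβAapp]
      · have hz' : α a z ∉ T := by
          intro h
          apply hz
          have h4 := hαT a⁻¹ _ h
          simpa using h4
        rw [extendByZero_apply_of_not_mem T x.1 hz', extendByZero_apply_of_not_mem T x.1 hz]
    have h5 := Equiv.sum_comp (α a).toEquiv
      (fun y : G => extendByZero T x.1 (y⁻¹ * α a g * y))
    rw [← h5]
    apply Finset.sum_congr rfl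
    intro y _
    rw [← hext (y⁻¹ * g * y)]
    refine congrArg (extendByZero T x.1) ?_
    simp

end Cfsg.Agent.Lib.Helper74.CoprimeExt
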