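import Mathlib
import Cfsg.Agent.Lib.Helper74.CoprimeExt
import Cfsg.Agent.Lib.CT.NormOne

/-!
Coprime action and characters lying over an invariant character of a normal subgroup with
solvable quotient (Isaacs 13.28/13.31), for a group `A` acting on `G` through a homomorphism
into `MulAut G`.
-/

set_option autoImplicit false

namespace Cfsg.Agent.Lib.Helper74.CoprimeLift

open Cfsg Cfsg.Agent.Lib.Helper74.AutAct Cfsg.Agent.Lib.Helper74.CoprimeExt
open Cfsg.Agent.Lib.Helper3.Irr Cfsg.Agent.Lib.CT Cfsg.Agent.Lib.CT.FrobRec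
open Cfsg.Agent.Lib.Helper25.CliffordCorr Cfsg.Agent.Lib.Helper25.CliffordCorr2
open scoped ComplexConjugate

universe u v

/-- "Lying over" is transitive: if `ξ` is a constituent of `χ` restricted to `T` and `θ` is a
constituent of `ξ` restricted to `H ≤ T`, then `θ` is a constituent of `χ` restricted to `H`. -/
theorem classInner_restrict_trans {G : Type u} [Group G] [Fintype G] (H T : Subgroup G)
    [Fintype H] [Fintype T] (hHT : H ≤ T) (χ : G → ℂ) (hχ : IsCharacter G χ)
    (ξ : T → ℂ) (hξ : IsIrrCharacter T ξ) (θ : H → ℂ) (hθ : IsCharacter H θ)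
    (h1 : classInner (fun t : T => χ t) ξ ≠ 0)
    (h2 : classInner (fun h : H => ξ ⟨h, hHT h.2⟩) θ ≠ 0) :
    classInner (fun h : H => χ h) θ ≠ 0 := by
  classical
  have hfi : Finite (IrrCharacter T) := finite_irrCharacter
  have hFi : Fintype (IrrCharacter T) := Fintype.ofFinite _
  have hχT : IsCharacter T (fun t : T => χ t) := Ops.isCharacter_restrict T hχ
  obtain ⟨m, hm, hmexp⟩ := NormOne.exists_mult_sum hχT
  have hresc : ∀ ξ' : IrrCharacter T, IsCharacter H (fun h : H => (ξ' : T → ℂ) ⟨h, hHT h.2⟩) :=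
    fun ξ' => Ops.isCharacter_comp_hom (Subgroup.inclusion hHT)
      (Ops.IsIrrCharacter.isCharacter ξ'.2)
  choose k hk using fun ξ' : IrrCharacter T => Clifford.classInner_char_nat (hresc ξ') hθ
  have h3 : (fun h : H => χ h) =
      ∑ ξ' : IrrCharacter T, (m ξ' : ℂ) • (fun h : H => (ξ' : T → ℂ) ⟨h, hHT h.2⟩) := by
    funext h
    have h4 := congrFun hmexp ⟨h, hHT h.2⟩
    simp only [Finset.sum_apply, Pi.smul_apply, smul_eq_mul] at h4 ⊢
    exact h4
  have h5 : classInner (fun h : H => χ h) θ =
      ((∑ ξ' : IrrCharacter T, m ξ' * k ξ' : ℕ) : ℂ) := by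
    rw [h3, classInner_sum_left, Nat.cast_sum]
    apply Finset.sum_congr rfl
    intro ξ' _
    rw [classInner_smul_left, hk ξ', Nat.cast_mul]
  rw [h5]
  have hmξ : m ⟨ξ, hξ⟩ ≠ 0 := by
    intro h0
    apply h1
    rw [hm ⟨ξ, hξ⟩, h0, Nat.cast_zero]
  have hkξ : k ⟨ξ, hξ⟩ ≠ 0 := by
    intro h0
    apply h2
    rw [hk ⟨ξ, hξ⟩, h0, Nat.cast_zero]
  have hpos : 0 < ∑ ξ' : IrrCharacter T, m ξ' * k ξ' := by
    apply Nat.lt_of_lt_of_le (Nat.mul_pos (Nat.pos_of_ne_zero hmξ) (Nat.pos_of_ne_zero hkξ))
    exact Finset.single_le_sum (f := fun ξ' : IrrCharacter T => m ξ' * k ξ')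
      (fun _ _ => Nat.zero_le _) (Finset.mem_univ (⟨ξ, hξ⟩ : IrrCharacter T))
  exact Nat.cast_ne_zero.mpr hpos.ne'

/-- Solvability of `G/N` passes to `M/(N ∩ M)` for every subgroup `M`. -/
theorem isSolvable_subgroupOf_quotient {G : Type u} [Group G] (N M : Subgroup G) [N.Normal]
    [h : Group.IsSolvable (G ⧸ N)] : Group.IsSolvable (↥M ⧸ N.subgroupOf M) := by
  obtain ⟨φ, hφ⟩ : ∃ φ : ↥M →* G ⧸ N, φ = (QuotientGroup.mk' N).comp M.subtype := ⟨_, rfl⟩
  have hker : ∀ x : M, φ x = 1 ↔ x ∈ N.subgroupOf M := by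
    intro x
    rw [Subgroup.mem_subgroupOf, hφ]
    show ((x : G) : G ⧸ N) = 1 ↔ (x : G) ∈ N
    rw [QuotientGroup.eq_one_iff]
  have hle : N.subgroupOf M ≤ φ.ker := fun x hx => (hker x).2 hx
  have hinj : Function.Injective (QuotientGroup.lift (N.subgroupOf M) φ hle) := by
    intro a b
    induction a using QuotientGroup.induction_on with
    | H x =>
      induction b using QuotientGroup.induction_on with
      | H y =>
        intro hxy
        rw [QuotientGroup.lift_mk, QuotientGroup.lift_mk] at hxy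
        rw [QuotientGroup.eq]
        apply (hker _).1
        rw [map_mul, map_inv, hxy, inv_mul_cancel]
  exact Group.isSolvable_of_isSolvable_injective hinj

/-- Auxiliary form of `exists_invariant_over`, by strong induction on the index. -/
theorem exists_invariant_over_aux (n : ℕ) : ∀ (G : Type u) [Group G] [Fintype G]
    (N : Subgroup G) [hN : N.Normal] [Fintype N] (A : Type v) [Group A] [Finite A]
    (α : A →* MulAut G) (hαN : ∀ a, ∀ x ∈ N, α a x ∈ N)
    (_ : (N.index).Coprime (Nat.card A)) (_ : Group.IsSolvable (G ⧸ N))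
    (θ : N → ℂ) (_ : IsIrrCharacter N θ)
    (_ : ∀ a (x : N), θ ⟨α a x, hαN a x x.2⟩ = θ x),
    N.index = n → ∃ χ : G → ℂ, IsIrrCharacter G χ ∧ classInner (fun x : N => χ x) θ ≠ 0 ∧
      ∀ a g, χ (α a g) = χ g := by
  induction n using Nat.strong_induction_on with
  | _ n ih =>
    intro G _ _ N hN _ A _ _ α hαN hcop hsolv θ hθ hinv hn
    classical
    by_cases htop : N = ⊤
    · subst htop
      refine ⟨fun g => θ ⟨g, Subgroup.mem_top g⟩, ?_, ?_, ?_⟩
      · exact Ops.isIrrCharacter_comp_mulEquiv (Subgroup.topEquiv).symm hθ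
      · have h1 : (fun x : (⊤ : Subgroup G) => θ ⟨(x : G), Subgroup.mem_top _⟩) = θ := rfl
        rw [h1, irr_inner_self ⟨θ, hθ⟩]
        exact one_ne_zero
      · intro a g
        exact hinv a ⟨g, Subgroup.mem_top g⟩
    · obtain ⟨M, hMdef⟩ : ∃ M : Subgroup G, M = N ⊔ commutator G := ⟨_, rfl⟩
      have hMn : M.Normal := by rw [hMdef]; infer_instance
      have hNM : N ≤ M := by rw [hMdef]; exact le_sup_left
      have hab : ∀ x y : G, x * y * x⁻¹ * y⁻¹ ∈ M := by
        intro x y
        rw [hMdef]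
        apply Subgroup.mem_sup_right
        rw [_root_.commutator_def, ← commutatorElement_def]
        exact Subgroup.commutator_mem_commutator (Subgroup.mem_top x) (Subgroup.mem_top y)
      have hMtop : M ≠ ⊤ := by
        intro hM
        have hnt : Nontrivial (G ⧸ N) := QuotientGroup.nontrivial_iff.mpr htop
        have hlt := Group.IsSolvable.commutator_lt_top_of_nontrivial (G ⧸ N)
        apply hlt.ne
        have h1 : (N ⊔ commutator G).map (QuotientGroup.mk' N) = ⊤ := by
          rw [← hMdef, hM]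
          exact Subgroup.map_top_of_surjective _ (QuotientGroup.mk'_surjective N)
        rw [Subgroup.map_sup, QuotientGroup.map_mk'_self, bot_sup_eq, _root_.commutator_def,
          Subgroup.map_commutator,
          Subgroup.map_top_of_surjective _ (QuotientGroup.mk'_surjective N)] at h1
        rw [_root_.commutator_def]
        exact h1
      have hαM : ∀ a, ∀ x ∈ M, α a x ∈ M := by
        intro a x hx
        have hchar : (commutator G).Characteristic := inferInstance
        have h1 : M.map (α a).toMonoidHom ≤ M := by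
          rw [hMdef, Subgroup.map_sup]
          apply sup_le_sup
          · rintro _ ⟨y, hy, rfl⟩
            exact hαN a y hy
          · exact (Subgroup.characteristic_iff_map_le.mp hchar) (α a)
        exact h1 ⟨x, hx, rfl⟩
      have hfinM : Fintype M := Fintype.ofFinite _
      have hfinN' : Fintype (N.subgroupOf M) := Fintype.ofFinite _
      have hidx : (N.subgroupOf M).index * M.index = N.index := Subgroup.relIndex_mul_index hNM
      have hMidx : 1 < M.index := Subgroup.one_lt_index_of_ne_top hMtop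
      have hlt : (N.subgroupOf M).index < n := by
        rw [← hn, ← hidx]
        have h0 : (N.subgroupOf M).index ≠ 0 := Subgroup.index_ne_zero_of_finite
        have h0' : 0 < (N.subgroupOf M).index := Nat.pos_of_ne_zero h0
        nlinarith
      obtain ⟨e, he⟩ : ∃ e : (N.subgroupOf M) ≃* N, e = Subgroup.subgroupOfEquivOfLe hNM :=
        ⟨_, rfl⟩
      have hecoe : ∀ x : N.subgroupOf M, ((e x : N) : G) = ((x : M) : G) := by
        intro x
        rw [he]
        simp
      obtain ⟨αM, hαMdef⟩ : ∃ αM : A →* MulAut M, αM = restrictAut α M hαM := ⟨_, rfl⟩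
      have hαMapp : ∀ a (m : M), ((αM a m : M) : G) = α a m := by
        intro a m
        rw [hαMdef]; rfl
      have hαMN : ∀ a, ∀ x ∈ N.subgroupOf M, αM a x ∈ N.subgroupOf M := by
        intro a x hx
        rw [Subgroup.mem_subgroupOf] at hx ⊢
        rw [hαMapp]
        exact hαN a _ hx
      have hsolvM : Group.IsSolvable (↥M ⧸ N.subgroupOf M) := isSolvable_subgroupOf_quotient N M
      have hθ'inv : ∀ a (x : N.subgroupOf M),
          (fun y : N.subgroupOf M => θ (e y)) ⟨αM a x, hαMN a x x.2⟩ =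
            (fun y : N.subgroupOf M => θ (e y)) x := by
        intro a x
        show θ (e ⟨αM a x, hαMN a x x.2⟩) = θ (e x)
        rw [← hinv a (e x)]
        refine congrArg θ ?_
        apply Subtype.ext
        rw [hecoe]
        show ((αM a x : M) : G) = α a (e x)
        rw [hαMapp, hecoe]
      obtain ⟨ψ, hψ, hψθ, hψinv⟩ := ih (N.subgroupOf M).index hlt M (N.subgroupOf M) A αM hαMN
        (Nat.Coprime.coprime_dvd_left (Dvd.intro _ hidx) hcop) hsolvM (fun x => θ (e x))
        (Ops.isIrrCharacter_comp_mulEquiv e hθ) hθ'inv rfl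
      have hψinv' : ∀ a (m : M), ψ ⟨α a m, hαM a m m.2⟩ = ψ m := by
        intro a m
        rw [← hψinv a m]
        refine congrArg ψ ?_
        apply Subtype.ext
        rw [hαMapp]
      obtain ⟨χ, hχ, hχψ, hχinv⟩ := exists_invariant_over_abelian M hab α hαM
        (Nat.Coprime.coprime_dvd_left (Dvd.intro_left _ hidx) hcop) ψ hψ hψinv'
      refine ⟨χ, hχ, ?_, hχinv⟩
      apply classInner_restrict_trans N M hNM χ (Ops.IsIrrCharacter.isCharacter hχ) ψ hψ θ
        (Ops.IsIrrCharacter.isCharacter hθ) hχψ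
      have h1 := classInner_comp_equiv e (fun h : N => ψ ⟨h, hNM h.2⟩) θ
      rw [← h1]
      have h2 : (fun x : N.subgroupOf M => (fun h : N => ψ ⟨h, hNM h.2⟩) (e x)) =
          fun x : N.subgroupOf M => ψ x := by
        funext x
        refine congrArg ψ ?_
        apply Subtype.ext
        exact hecoe x
      rw [h2]
      exact hψθ

/-- If `A` acts on `G` fixing the normal subgroup `N`, with `G/N` solvable and `|G : N|` prime
to `|A|`, then every `A`-invariant irreducible character of `N` lies under an `A`-invariant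
irreducible character of `G`. -/
theorem exists_invariant_over {G : Type u} [Group G] [Fintype G] (N : Subgroup G)
    [hN : N.Normal] [Fintype N] {A : Type v} [Group A] [Finite A] (α : A →* MulAut G)
    (hαN : ∀ a, ∀ x ∈ N, α a x ∈ N) (hcop : (N.index).Coprime (Nat.card A))
    (hsolv : Group.IsSolvable (G ⧸ N)) (θ : N → ℂ) (hθ : IsIrrCharacter N θ)
    (hinv : ∀ a (x : N), θ ⟨α a x, hαN a x x.2⟩ = θ x) :
    ∃ χ : G → ℂ, IsIrrCharacter G χ ∧ classInner (fun x : N => χ x) θ ≠ 0 ∧
      ∀ a g, χ (α a g) = χ g :=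
  exists_invariant_over_aux N.index G N A α hαN hcop hsolv θ hθ hinv rfl

end Cfsg.Agent.Lib.Helper74.CoprimeLift
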