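import Mathlib
import Cfsg.Agent.S0252
import Cfsg.Agent.S0253
import Cfsg.Agent.Lib.Helper89.DSStmt

set_option autoImplicit false

namespace Cfsg.Agent.Lib.Helper74.DSISO45

theorem main : Cfsg.Agent.Lib.Helper89.DSStmt.Iso45 := by
  intro F F' _ _ _ _ h4 h5
  obtain ⟨e1⟩ := Cfsg.Agent.S0252.result h4
  obtain ⟨e2⟩ := Cfsg.Agent.S0253.result h5
  exact ⟨e1.trans e2.symm⟩

end Cfsg.Agent.Lib.Helper74.DSISO45
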