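import Mathlib
import Cfsg.Agent.Lib.Helper89.DSStmt
import Cfsg.Agent.Lib.Helper76.NCONECLASS
import Cfsg.Agent.Lib.Helper76.NCINV2
import Cfsg.Agent.Lib.Helper20.NCCASE4

set_option autoImplicit false

namespace Cfsg.Agent.Lib.Helper74.DSV4ODD

open Cfsg.Agent.Lib.Helper89

universe u

theorem main : Cfsg.Agent.Lib.Helper89.DSStmt.V4Odd.{u} := by
  intro hIso G _ _ _ hna t S ht hS4 hSC
  haveI : Fact (Nat.Prime 2) := ⟨Nat.prime_two⟩
  have htS : t ∈ (S : Subgroup G) := by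
    rw [hSC, Subgroup.mem_centralizer_iff]
    intro y hy
    rw [Set.mem_singleton_iff] at hy
    rw [hy]
  have hK : Subgroup.zpowers t ≤ (S : Subgroup G) := by
    rw [Subgroup.zpowers_le]; exact htS
  have hKcard : Nat.card (Subgroup.zpowers t) = 2 := by rw [Nat.card_zpowers, ht]
  have hKi : (Subgroup.zpowers t).relIndex (S : Subgroup G) = 2 := by
    have h1 := Subgroup.relIndex_mul_relIndex ⊥ (Subgroup.zpowers t) (S : Subgroup G) bot_le hK
    rw [Subgroup.relIndex_bot_left, Subgroup.relIndex_bot_left, hKcard, hS4] at h1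
    omega
  have hKc : IsCyclic ↥(Subgroup.zpowers t) := inferInstance
  have hone := Cfsg.Agent.Lib.Helper76.NCONECLASS.main G hna S (Subgroup.zpowers t) hK hKi hKc
  have hCIT : NCStmt.CITOn G := by
    intro u hu
    obtain ⟨c, hc⟩ := isConj_iff.mp (hone t u ht hu)
    have hSp : IsPGroup 2 ↥(S : Subgroup G) := S.isPGroup'
    intro x
    have hxu : u * (x : G) = (x : G) * u :=
      Subgroup.mem_centralizer_iff.mp x.2 u (Set.mem_singleton u)
    have hxu' : (c * t * c⁻¹) * (x : G) = (x : G) * (c * t * c⁻¹) := by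
      rw [hc]; exact hxu
    have hx : c⁻¹ * (x : G) * c ∈ (S : Subgroup G) := by
      rw [hSC, Subgroup.mem_centralizer_iff]
      intro y hy
      rw [Set.mem_singleton_iff] at hy
      rw [hy]
      calc t * (c⁻¹ * (x : G) * c) = c⁻¹ * ((c * t * c⁻¹) * (x : G)) * c := by group
        _ = c⁻¹ * ((x : G) * (c * t * c⁻¹)) * c := by rw [hxu']
        _ = c⁻¹ * (x : G) * c * t := by group
    obtain ⟨k, hk⟩ := hSp ⟨_, hx⟩
    refine ⟨k, ?_⟩
    have h1 : (c⁻¹ * (x : G) * c) ^ 2 ^ k = 1 := congrArg Subtype.val hk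
    apply Subtype.ext
    rw [Subgroup.coe_pow, Subgroup.coe_one]
    have h2 : (c⁻¹ * (x : G) * c) ^ 2 ^ k = c⁻¹ * (x : G) ^ 2 ^ k * c := by
      have := conj_pow (a := c⁻¹) (b := (x : G)) (i := 2 ^ k)
      simpa using this
    rw [h2] at h1
    have e : (x : G) ^ 2 ^ k = c * (c⁻¹ * (x : G) ^ 2 ^ k * c) * c⁻¹ := by group
    rw [e, h1]; group
  have hInv : NCStmt.Inv2On G := Cfsg.Agent.Lib.Helper76.NCINV2.main G hna
  obtain ⟨F, hF1, hF2, hcard, ⟨e⟩⟩ := Cfsg.Agent.Lib.Helper20.NCCASE4.main G hna hInv hCIT S hS4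
  haveI : Fact (Nat.Prime 5) := ⟨by norm_num⟩
  obtain ⟨e2⟩ := @hIso F (ZMod 5) hF1 hF2 _ _ hcard (by rw [ZMod.card])
  refine ⟨ZMod 5, inferInstance, inferInstance, ?_, ⟨e.trans e2⟩⟩
  rw [ZMod.card]
  decide

end Cfsg.Agent.Lib.Helper74.DSV4ODD
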