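import Mathlib
import Cfsg.Agent.Lib.CT.Kernel
import Cfsg.Agent.Lib.CT.LinChar
import Cfsg.Agent.Lib.CT.FrobRec
import Cfsg.Agent.Lib.CT.IndChar
import Cfsg.Agent.Lib.CT.Wedderburn
import Cfsg.Agent.Lib.Helper80.Restrict
import Cfsg.Agent.Lib.Helper80.IndDeg
import Cfsg.Agent.Lib.Helper81.Irr
import Cfsg.Agent.S0178

/-!
Faithful irreducible characters of degree two: centralizers of noncentral elements are abelian,
their normalizers have index at most two, and an abelian subgroup of index two induces the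
character.
-/

set_option autoImplicit false

namespace Cfsg.Agent.Lib.Helper74.Deg2

open Cfsg Cfsg.Agent.Lib.CT.Wedderburn
open scoped ComplexConjugate

universe u

theorem sum_zero_aux {ι : Type*} (s : Finset ι) (m d : ι → ℕ) (f : ι → ℂ) (hd : ∀ i, 0 < d i)
    (h : ∑ i ∈ s, m i * d i = 0) : ∑ i ∈ s, (m i : ℂ) * f i = 0 := by
  apply Finset.sum_eq_zero
  intro i hi
  have h1 := (Finset.sum_eq_zero_iff.1 h) i hi
  have h2 : m i = 0 := by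
    rcases Nat.mul_eq_zero.1 h1 with h3 | h3
    · exact h3
    · exact absurd h3 (hd i).ne'
  rw [h2, Nat.cast_zero, zero_mul]

/-- A character of degree two is irreducible or a sum of two linear characters. -/
theorem deg_two_cases {C : Type u} [Group C] [Finite C] {θ : C → ℂ} (hθ : IsCharacter C θ)
    (h2 : charDegree θ = 2) :
    IsIrrCharacter C θ ∨
      ∃ μ₁ μ₂ : C →* ℂˣ, ∀ c, θ c = ((μ₁ c : ℂˣ) : ℂ) + ((μ₂ c : ℂˣ) : ℂ) := by
  classical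
  haveI := Fintype.ofFinite C
  haveI := finite_irrCharacter C
  haveI := Fintype.ofFinite (IrrCharacter C)
  obtain ⟨m, -, hm2, hm3, -⟩ := Cfsg.Agent.Lib.Helper80.Restrict.exists_mult hθ
  rw [h2] at hm3
  have hpos : ∀ ψ : IrrCharacter C, 0 < charDegree ψ.1 := fun ψ => irr_charDegree_pos ψ.2
  have hlin : ∀ ψ : IrrCharacter C, charDegree ψ.1 = 1 →
      ∃ μ : C →* ℂˣ, ∀ c, ψ.1 c = ((μ c : ℂˣ) : ℂ) := by
    intro ψ hd
    apply Cfsg.Agent.Lib.CT.LinChar.exists_hom_of_isCharacter ψ.1 (isCharacter_of_irr ψ.2)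
    rw [Cfsg.Agent.Lib.Helper80.Integrality.apply_one_eq_charDegree (isCharacter_of_irr ψ.2), hd,
      Nat.cast_one]
  have hex : ∃ ψ₀, m ψ₀ ≠ 0 := by
    by_contra hcon
    push Not at hcon
    simp [hcon] at hm3
  obtain ⟨ψ₀, hψ₀⟩ := hex
  have hs1 := Finset.add_sum_erase Finset.univ
    (fun ψ : IrrCharacter C => m ψ * charDegree ψ.1) (Finset.mem_univ ψ₀)
  have hs2 : ∀ c, θ c = (m ψ₀ : ℂ) * ψ₀.1 c +
      ∑ ψ ∈ Finset.univ.erase ψ₀, (m ψ : ℂ) * ψ.1 c := by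
    intro c
    rw [hm2 c]
    exact (Finset.add_sum_erase Finset.univ (fun ψ : IrrCharacter C => (m ψ : ℂ) * ψ.1 c)
      (Finset.mem_univ ψ₀)).symm
  rw [← hs1] at hm3
  obtain ⟨R, hR⟩ : ∃ R, R = ∑ ψ ∈ Finset.univ.erase ψ₀, m ψ * charDegree ψ.1 := ⟨_, rfl⟩
  obtain ⟨k, hk⟩ : ∃ k, k = m ψ₀ := ⟨_, rfl⟩
  obtain ⟨d, hd⟩ : ∃ d, d = charDegree ψ₀.1 := ⟨_, rfl⟩
  have hd0 : 0 < d := hd ▸ hpos ψ₀
  have hk0 : 0 < k := hk ▸ Nat.pos_of_ne_zero hψ₀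
  have hm3' : 2 = k * d + R := by
    rw [hk, hd, hR]
    exact hm3
  have hcases : (k = 1 ∧ d = 2 ∧ R = 0) ∨ (k = 2 ∧ d = 1 ∧ R = 0) ∨ (k = 1 ∧ d = 1 ∧ R = 1) := by
    have h1 : k * d ≤ 2 := by omega
    have h3 : k ≤ 2 := by nlinarith
    have h4 : d ≤ 2 := by nlinarith
    interval_cases k <;> interval_cases d <;> omega
  rcases hcases with ⟨hk1, hd2, hR0⟩ | ⟨hk2, hd1, hR0⟩ | ⟨hk1, hd1, hR1⟩
  · left
    have h5 : θ = ψ₀.1 := by
      funext c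
      rw [hs2 c, sum_zero_aux _ m (fun ψ => charDegree ψ.1) (fun ψ => ψ.1 c) hpos (hR ▸ hR0),
        ← hk, hk1]
      simp
    rw [h5]
    exact ψ₀.2
  · right
    obtain ⟨μ, hμ⟩ := hlin ψ₀ (hd ▸ hd1)
    refine ⟨μ, μ, fun c => ?_⟩
    rw [hs2 c, sum_zero_aux _ m (fun ψ => charDegree ψ.1) (fun ψ => ψ.1 c) hpos (hR ▸ hR0),
      ← hk, hk2, hμ c]
    push_cast
    ring
  · right
    obtain ⟨μ, hμ⟩ := hlin ψ₀ (hd ▸ hd1)
    have hex1 : ∃ ψ₁ ∈ Finset.univ.erase ψ₀, m ψ₁ * charDegree ψ₁.1 ≠ 0 := by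
      by_contra hcon
      push Not at hcon
      rw [Finset.sum_eq_zero hcon] at hR
      omega
    obtain ⟨ψ₁, hψ₁mem, hψ₁⟩ := hex1
    have hs3 := Finset.add_sum_erase (Finset.univ.erase ψ₀)
      (fun ψ : IrrCharacter C => m ψ * charDegree ψ.1) hψ₁mem
    have hs4 : ∀ c, ∑ ψ ∈ Finset.univ.erase ψ₀, (m ψ : ℂ) * ψ.1 c = (m ψ₁ : ℂ) * ψ₁.1 c +
        ∑ ψ ∈ (Finset.univ.erase ψ₀).erase ψ₁, (m ψ : ℂ) * ψ.1 c := by
      intro c
      exact (Finset.add_sum_erase (Finset.univ.erase ψ₀)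
        (fun ψ : IrrCharacter C => (m ψ : ℂ) * ψ.1 c) hψ₁mem).symm
    rw [← hR, hR1] at hs3
    have h6 : m ψ₁ * charDegree ψ₁.1 = 1 ∧
        ∑ ψ ∈ (Finset.univ.erase ψ₀).erase ψ₁, m ψ * charDegree ψ.1 = 0 := by
      constructor <;> omega
    have h7 : m ψ₁ = 1 ∧ charDegree ψ₁.1 = 1 := by
      have h8 := h6.1
      have h9 := hpos ψ₁
      have h10 : m ψ₁ ≤ 1 := by nlinarith
      have h11 : charDegree ψ₁.1 ≤ 1 := by nlinarith [Nat.pos_of_ne_zero (left_ne_zero_of_mul hψ₁)]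
      have h12 : 0 < m ψ₁ := Nat.pos_of_ne_zero (left_ne_zero_of_mul hψ₁)
      constructor <;> omega
    obtain ⟨μ', hμ'⟩ := hlin ψ₁ h7.2
    refine ⟨μ, μ', fun c => ?_⟩
    rw [hs2 c, hs4 c, sum_zero_aux _ m (fun ψ => charDegree ψ.1) (fun ψ => ψ.1 c) hpos h6.2,
      ← hk, hk1, h7.1, hμ c, hμ' c]
    push_cast
    ring

variable {G : Type u} [Group G]

theorem apply_one_eq_two (χ : IrrCharacter G) (h2 : charDegree χ.1 = 2) : χ.1 1 = 2 := by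
  rw [Cfsg.Agent.Lib.Helper80.Integrality.apply_one_eq_charDegree (isCharacter_of_irr χ.2), h2]
  norm_num

/-- The restriction to the centralizer of a noncentral element is a sum of two linear
characters. -/
theorem centralizer_split [Finite G] (χ : IrrCharacter G)
    (hfaith : ∀ g : G, χ.1 g = χ.1 1 → g = 1) (h2 : charDegree χ.1 = 2) (x : G)
    (hx : x ∉ Subgroup.center G) :
    ∃ μ₁ μ₂ : Subgroup.centralizer ({x} : Set G) →* ℂˣ,
      ∀ c : Subgroup.centralizer ({x} : Set G),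
        χ.1 (c : G) = ((μ₁ c : ℂˣ) : ℂ) + ((μ₂ c : ℂˣ) : ℂ) := by
  have hχc : IsCharacter G χ.1 := isCharacter_of_irr χ.2
  have hres : IsCharacter (Subgroup.centralizer ({x} : Set G))
      (fun c : Subgroup.centralizer ({x} : Set G) => χ.1 (c : G)) :=
    Cfsg.Agent.Lib.CT.Ops.isCharacter_restrict _ hχc
  have hdeg : charDegree (fun c : Subgroup.centralizer ({x} : Set G) => χ.1 (c : G)) = 2 := h2
  rcases deg_two_cases hres hdeg with hirr | h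
  · exfalso
    apply hx
    have hxC : x ∈ Subgroup.centralizer ({x} : Set G) := by
      rw [Subgroup.mem_centralizer_iff]
      intro y hy
      rw [Set.mem_singleton_iff] at hy
      rw [hy]
    have hz : (⟨x, hxC⟩ : Subgroup.centralizer ({x} : Set G)) ∈
        Subgroup.center (Subgroup.centralizer ({x} : Set G)) := by
      rw [Subgroup.mem_center_iff]
      intro c
      apply Subtype.ext
      have h1 := Subgroup.mem_centralizer_iff.1 c.2 x (Set.mem_singleton x)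
      exact h1.symm
    have h3 := Cfsg.Agent.Lib.CT.Kernel.norm_eq_of_mem_center hirr hz
    exact Cfsg.Agent.Lib.CT.Kernel.mem_center_of_norm_eq hχc hfaith h3
  · exact h

/-- The centralizer of a noncentral element is abelian. -/
theorem centralizer_comm [Finite G] (χ : IrrCharacter G)
    (hfaith : ∀ g : G, χ.1 g = χ.1 1 → g = 1) (h2 : charDegree χ.1 = 2) (x : G)
    (hx : x ∉ Subgroup.center G) :
    ∀ a ∈ Subgroup.centralizer ({x} : Set G), ∀ b ∈ Subgroup.centralizer ({x} : Set G),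
      a * b = b * a := by
  obtain ⟨μ₁, μ₂, hμ⟩ := centralizer_split χ hfaith h2 x hx
  intro a ha b hb
  have h1 := hμ (⟨a, ha⟩ * ⟨b, hb⟩ * ⟨a, ha⟩⁻¹ * ⟨b, hb⟩⁻¹)
  have h3 : a * b * a⁻¹ * b⁻¹ = 1 := by
    apply hfaith
    rw [apply_one_eq_two χ h2]
    have h4 : χ.1 (a * b * a⁻¹ * b⁻¹) = ((μ₁ (⟨a, ha⟩ * ⟨b, hb⟩ * ⟨a, ha⟩⁻¹ * ⟨b, hb⟩⁻¹) : ℂˣ) : ℂ) +
        ((μ₂ (⟨a, ha⟩ * ⟨b, hb⟩ * ⟨a, ha⟩⁻¹ * ⟨b, hb⟩⁻¹) : ℂˣ) : ℂ) := h1
    rw [h4]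
    have h5 : ∀ μ : Subgroup.centralizer ({x} : Set G) →* ℂˣ,
        μ (⟨a, ha⟩ * ⟨b, hb⟩ * ⟨a, ha⟩⁻¹ * ⟨b, hb⟩⁻¹) = 1 := by
      intro μ
      rw [map_mul, map_mul, map_mul, map_inv, map_inv]
      exact mul_inv_eq_one.2 (by rw [mul_comm (μ ⟨a, ha⟩), mul_inv_cancel_right])
    rw [h5 μ₁, h5 μ₂]
    norm_num
  calc a * b = (a * b * a⁻¹ * b⁻¹) * (b * a) := by group
    _ = b * a := by rw [h3, one_mul]


theorem self_mem_centralizer (x : G) : x ∈ Subgroup.centralizer ({x} : Set G) :=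
  Subgroup.mem_centralizer_singleton_iff.2 rfl

/-- Two elements of the centralizer with the same eigenvalue pair are equal. -/
theorem eq_of_split [Finite G] (χ : IrrCharacter G)
    (hfaith : ∀ g : G, χ.1 g = χ.1 1 → g = 1) (h2 : charDegree χ.1 = 2) {C : Subgroup G}
    (μ₁ μ₂ : C →* ℂˣ) (hμ : ∀ c : C, χ.1 (c : G) = ((μ₁ c : ℂˣ) : ℂ) + ((μ₂ c : ℂˣ) : ℂ))
    (Y Y' : C) (h1 : μ₁ Y = μ₁ Y') (h2' : μ₂ Y = μ₂ Y') : (Y : G) = (Y' : G) := by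
  have h3 : ((Y * Y'⁻¹ : C) : G) = 1 := by
    apply hfaith
    rw [apply_one_eq_two χ h2, hμ (Y * Y'⁻¹), map_mul, map_mul, map_inv, map_inv, h1, h2',
      mul_inv_cancel, mul_inv_cancel]
    norm_num
  have h4 : (Y : G) * (Y' : G)⁻¹ = 1 := h3
  exact mul_inv_eq_one.1 h4

/-- Elements conjugating `x` into its centralizer, but outside the centralizer, lie in one
coset. -/
theorem normalizer_coset [Finite G] (χ : IrrCharacter G)
    (hfaith : ∀ g : G, χ.1 g = χ.1 1 → g = 1) (h2 : charDegree χ.1 = 2) (x : G)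
    (hx : x ∉ Subgroup.center G) (n n' : G)
    (hn : n * x * n⁻¹ ∈ Subgroup.centralizer ({x} : Set G))
    (hn' : n' * x * n'⁻¹ ∈ Subgroup.centralizer ({x} : Set G))
    (hnC : n ∉ Subgroup.centralizer ({x} : Set G))
    (hnC' : n' ∉ Subgroup.centralizer ({x} : Set G)) :
    n'⁻¹ * n ∈ Subgroup.centralizer ({x} : Set G) := by
  obtain ⟨μ₁, μ₂, hμ⟩ := centralizer_split χ hfaith h2 x hx
  have hxC := self_mem_centralizer x
  have key : ∀ k : G, ∀ hk : k * x * k⁻¹ ∈ Subgroup.centralizer ({x} : Set G),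
      k ∉ Subgroup.centralizer ({x} : Set G) →
      μ₁ ⟨k * x * k⁻¹, hk⟩ = μ₂ ⟨x, hxC⟩ ∧ μ₂ ⟨k * x * k⁻¹, hk⟩ = μ₁ ⟨x, hxC⟩ := by
    intro k hk hkC
    have e1 : ((μ₁ ⟨k * x * k⁻¹, hk⟩ : ℂˣ) : ℂ) + ((μ₂ ⟨k * x * k⁻¹, hk⟩ : ℂˣ) : ℂ) =
        ((μ₁ ⟨x, hxC⟩ : ℂˣ) : ℂ) + ((μ₂ ⟨x, hxC⟩ : ℂˣ) : ℂ) := by
      rw [← hμ ⟨k * x * k⁻¹, hk⟩, ← hμ ⟨x, hxC⟩]
      exact Cfsg.Agent.Lib.Helper81.Irr.irr_conj χ x k
    have e2 : ((μ₁ ⟨k * x * k⁻¹, hk⟩ : ℂˣ) : ℂ) ^ 2 + ((μ₂ ⟨k * x * k⁻¹, hk⟩ : ℂˣ) : ℂ) ^ 2 =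
        ((μ₁ ⟨x, hxC⟩ : ℂˣ) : ℂ) ^ 2 + ((μ₂ ⟨x, hxC⟩ : ℂˣ) : ℂ) ^ 2 := by
      have h3 := hμ (⟨k * x * k⁻¹, hk⟩ * ⟨k * x * k⁻¹, hk⟩)
      have h4 := hμ (⟨x, hxC⟩ * ⟨x, hxC⟩)
      rw [map_mul, map_mul] at h3 h4
      have h5 : χ.1 ((⟨k * x * k⁻¹, hk⟩ * ⟨k * x * k⁻¹, hk⟩ :
          Subgroup.centralizer ({x} : Set G)) : G) =
          χ.1 ((⟨x, hxC⟩ * ⟨x, hxC⟩ : Subgroup.centralizer ({x} : Set G)) : G) := by
        have h6 : ((⟨k * x * k⁻¹, hk⟩ * ⟨k * x * k⁻¹, hk⟩ :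
            Subgroup.centralizer ({x} : Set G)) : G) = k * (x * x) * k⁻¹ := by
          show k * x * k⁻¹ * (k * x * k⁻¹) = k * (x * x) * k⁻¹
          group
        rw [h6]
        exact Cfsg.Agent.Lib.Helper81.Irr.irr_conj χ (x * x) k
      rw [h3, h4] at h5
      rw [pow_two, pow_two, pow_two, pow_two]
      exact_mod_cast h5
    have e3 : (((μ₁ ⟨k * x * k⁻¹, hk⟩ : ℂˣ) : ℂ) - ((μ₁ ⟨x, hxC⟩ : ℂˣ) : ℂ)) *
        (((μ₁ ⟨k * x * k⁻¹, hk⟩ : ℂˣ) : ℂ) - ((μ₂ ⟨x, hxC⟩ : ℂˣ) : ℂ)) = 0 := by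
      linear_combination (((μ₁ ⟨k * x * k⁻¹, hk⟩ : ℂˣ) : ℂ) -
        (((μ₁ ⟨k * x * k⁻¹, hk⟩ : ℂˣ) : ℂ) + ((μ₂ ⟨k * x * k⁻¹, hk⟩ : ℂˣ) : ℂ) +
          ((μ₁ ⟨x, hxC⟩ : ℂˣ) : ℂ) + ((μ₂ ⟨x, hxC⟩ : ℂˣ) : ℂ)) / 2) * e1 + (1 / 2) * e2
    rcases mul_eq_zero.1 e3 with h3 | h3
    · exfalso
      apply hkC
      have h4 : μ₁ ⟨k * x * k⁻¹, hk⟩ = μ₁ ⟨x, hxC⟩ := Units.ext (sub_eq_zero.1 h3)
      have h5 : μ₂ ⟨k * x * k⁻¹, hk⟩ = μ₂ ⟨x, hxC⟩ := by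
        apply Units.ext
        rw [h4] at e1
        exact add_left_cancel e1
      have h6 := eq_of_split χ hfaith h2 μ₁ μ₂ hμ ⟨k * x * k⁻¹, hk⟩ ⟨x, hxC⟩ h4 h5
      have h7 : k * x * k⁻¹ = x := h6
      rw [Subgroup.mem_centralizer_singleton_iff]
      calc k * x = (k * x * k⁻¹) * k := by group
        _ = x * k := by rw [h7]
    · have h4 : μ₁ ⟨k * x * k⁻¹, hk⟩ = μ₂ ⟨x, hxC⟩ := Units.ext (sub_eq_zero.1 h3)
      refine ⟨h4, ?_⟩
      apply Units.ext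
      rw [h4, add_comm] at e1
      exact add_right_cancel e1
  obtain ⟨a1, a2⟩ := key n hn hnC
  obtain ⟨b1, b2⟩ := key n' hn' hnC'
  have h6 := eq_of_split χ hfaith h2 μ₁ μ₂ hμ ⟨n * x * n⁻¹, hn⟩ ⟨n' * x * n'⁻¹, hn'⟩
    (a1.trans b1.symm) (a2.trans b2.symm)
  have h7 : n * x * n⁻¹ = n' * x * n'⁻¹ := h6
  rw [Subgroup.mem_centralizer_singleton_iff]
  calc n'⁻¹ * n * x = n'⁻¹ * (n * x * n⁻¹) * n := by group
    _ = n'⁻¹ * (n' * x * n'⁻¹) * n := by rw [h7]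
    _ = x * (n'⁻¹ * n) := by group

/-- If the centralizer of a noncentral element has index two, the character is induced from
it. -/
theorem induced_of_index_two [Fintype G] (χ : IrrCharacter G)
    (hfaith : ∀ g : G, χ.1 g = χ.1 1 → g = 1) (h2 : charDegree χ.1 = 2) (x : G)
    (hx : x ∉ Subgroup.center G)
    (hidx : (Subgroup.centralizer ({x} : Set G)).index = 2) :
    ∃ θ : Subgroup.centralizer ({x} : Set G) → ℂ,
      IsCharacter (Subgroup.centralizer ({x} : Set G)) θ ∧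
        χ.1 = indFun (Subgroup.centralizer ({x} : Set G)) θ := by
  classical
  obtain ⟨μ₁, μ₂, hμ⟩ := centralizer_split χ hfaith h2 x hx
  haveI := finite_irrCharacter G
  haveI := Fintype.ofFinite (IrrCharacter G)
  haveI := finite_irrCharacter (Subgroup.centralizer ({x} : Set G))
  haveI := Fintype.ofFinite (IrrCharacter (Subgroup.centralizer ({x} : Set G)))
  obtain ⟨θ, hθ⟩ : ∃ θ : Subgroup.centralizer ({x} : Set G) → ℂ,
      θ = fun c => ((μ₁ c : ℂˣ) : ℂ) := ⟨_, rfl⟩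
  have hθc : IsCharacter (Subgroup.centralizer ({x} : Set G)) θ := by
    rw [hθ]
    exact Cfsg.Agent.Lib.CT.LinChar.isCharacter_of_hom μ₁
  have hθi : IsIrrCharacter (Subgroup.centralizer ({x} : Set G)) θ := by
    rw [hθ]
    exact Cfsg.Agent.Lib.CT.LinChar.isIrrCharacter_of_hom μ₁
  refine ⟨θ, hθc, ?_⟩
  have hind : IsCharacter G (indFun (Subgroup.centralizer ({x} : Set G)) θ) :=
    Cfsg.Agent.Lib.CT.IndChar.isCharacter_indFun _ θ hθc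
  have hdeg : charDegree (indFun (Subgroup.centralizer ({x} : Set G)) θ) = 2 := by
    rw [Cfsg.Agent.Lib.Helper80.IndDeg.charDegree_indFun _ θ hθc, hidx]
    have h1 : θ 1 = 1 := by
      rw [hθ]
      simp
    have h3 := Cfsg.Agent.Lib.Helper80.Integrality.apply_one_eq_charDegree hθc
    rw [h1] at h3
    have h4 : charDegree θ = 1 := by exact_mod_cast h3.symm
    rw [h4]
  obtain ⟨m, hm1, hm2, hm3, -⟩ := Cfsg.Agent.Lib.Helper80.Restrict.exists_mult hind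
  have hres : (fun c : Subgroup.centralizer ({x} : Set G) => χ.1 (c : G)) =
      θ + (fun c => ((μ₂ c : ℂˣ) : ℂ)) := by
    funext c
    rw [hθ]
    exact hμ c
  have hfr := Cfsg.Agent.Lib.CT.FrobRec.frobenius_reciprocity'
    (Subgroup.centralizer ({x} : Set G)) θ χ.1 (char_isClassFunction (isCharacter_of_irr χ.2))
  obtain ⟨k, hk⟩ := Cfsg.Agent.Lib.CT.Clifford.classInner_char_nat
    (Cfsg.Agent.Lib.CT.LinChar.isCharacter_of_hom μ₂) hθc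
  have h5 : classInner θ θ = 1 := by
    have h := irr_orthonormal (⟨θ, hθi⟩ : IrrCharacter (Subgroup.centralizer ({x} : Set G)))
      ⟨θ, hθi⟩
    simpa using h
  have h6 : classInner χ.1 (indFun (Subgroup.centralizer ({x} : Set G)) θ) =
      ((1 + k : ℕ) : ℂ) := by
    rw [hfr, hres, Cfsg.Agent.Lib.CT.Orth.classInner_add_left, h5, hk]
    push_cast
    ring
  have h7 : (m χ : ℂ) = ((1 + k : ℕ) : ℂ) := by
    rw [← hm1 χ, Cfsg.Agent.Lib.CT.Clifford.classInner_conj_symm, h6, Complex.conj_natCast]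
  have h8 : m χ = 1 + k := by exact_mod_cast h7
  rw [hdeg] at hm3
  have hs1 := Finset.add_sum_erase Finset.univ
    (fun ψ : IrrCharacter G => m ψ * charDegree ψ.1) (Finset.mem_univ χ)
  rw [← hs1] at hm3
  have hm3' : 2 = m χ * charDegree χ.1 +
      ∑ ψ ∈ Finset.univ.erase χ, m ψ * charDegree ψ.1 := hm3
  rw [h2, h8] at hm3'
  have hk0 : k = 0 := by omega
  have hR : ∑ ψ ∈ Finset.univ.erase χ, m ψ * charDegree ψ.1 = 0 := by omega
  have hpos : ∀ ψ : IrrCharacter G, 0 < charDegree ψ.1 := fun ψ => irr_charDegree_pos ψ.2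
  funext g
  rw [hm2 g, ← Finset.add_sum_erase Finset.univ (fun ψ : IrrCharacter G => (m ψ : ℂ) * ψ.1 g)
    (Finset.mem_univ χ), sum_zero_aux _ m (fun ψ => charDegree ψ.1) (fun ψ => ψ.1 g) hpos hR,
    h8, hk0]
  simp

end Cfsg.Agent.Lib.Helper74.Deg2
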