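import Mathlib
import Cfsg.Agent.Lib.Helper75.SelfCent

/-!
Counting argument for groups in which centralizers of noncentral elements are abelian, are of
index at most two in their normalizers (in a strong form), and never have index two: the index of
the centre is 12, 24 or 60.
-/

set_option autoImplicit false

namespace Cfsg.Agent.Lib.Helper74.Deg2Count

/-! ### Arithmetic -/

/-- Numerical data of one class: `g = n * (m * a)`, class size `u = m * (a - 1)`. -/
def Dat (g u : ℕ) : Prop :=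
  ∃ a n m : ℕ, 2 ≤ a ∧ (n = 1 ∨ n = 2) ∧ 2 ≤ m ∧ g = n * (m * a) ∧ u = m * a - m

theorem dat_quarter {g u : ℕ} (h : Dat g u) : g ≤ 4 * u ∧ 1 ≤ g ∧ u ≠ g - 1 := by
  obtain ⟨a, n, m, ha, hn, hm, hg, hu⟩ := h
  have h1 : m * 2 ≤ m * a := Nat.mul_le_mul_left m ha
  rcases hn with rfl | rfl <;> omega

theorem arith_mixed {g m1 a1 m2 a2 : ℕ} (hg1 : g = m1 * a1) (hg2 : g = 2 * (m2 * a2))
    (hm1 : 2 ≤ m1) (hm2 : 2 ≤ m2) (ha1 : 2 ≤ a1) (ha2 : 2 ≤ a2)
    (hs : m1 + m2 = m2 * a2 + 1) : g = 12 := by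
  have k2 : m2 * 2 ≤ m2 * a2 := Nat.mul_le_mul_left m2 ha2
  by_cases c1 : a1 = 2
  · subst c1
    omega
  by_cases c2 : a1 = 3
  · subst c2
    have h3 : 3 * m2 = m2 * a2 + 3 := by omega
    have h4 : a2 = 2 := by
      by_contra hcon
      have h5 : m2 * 3 ≤ m2 * a2 := Nat.mul_le_mul_left m2 (by omega)
      omega
    subst h4
    omega
  · have h5 : m1 * 4 ≤ m1 * a1 := Nat.mul_le_mul_left m1 (by omega)
    omega

theorem dat_two {g u1 u2 : ℕ} (h1 : Dat g u1) (h2 : Dat g u2) (hs : u1 + u2 = g - 1) :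
    g = 12 := by
  obtain ⟨a1, n1, m1, ha1, hn1, hm1, hg1, hu1⟩ := h1
  obtain ⟨a2, n2, m2, ha2, hn2, hm2, hg2, hu2⟩ := h2
  have k1 : m1 * 2 ≤ m1 * a1 := Nat.mul_le_mul_left m1 ha1
  have k2 : m2 * 2 ≤ m2 * a2 := Nat.mul_le_mul_left m2 ha2
  rcases hn1 with rfl | rfl <;> rcases hn2 with rfl | rfl
  · exfalso
    omega
  · exact arith_mixed (by omega) hg2 hm1 hm2 ha1 ha2 (by omega)
  · exact arith_mixed (by omega) hg1 hm2 hm1 ha2 ha1 (by omega)
  · exfalso
    omega

theorem arith_core {h m1 m2 m3 a2 a3 : ℕ} (h1 : h = m1 * 2) (h2 : h = m2 * a2)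
    (h3 : h = m3 * a3) (hm2 : 2 ≤ m2) (hm3 : 2 ≤ m3) (ha2 : 2 ≤ a2) (ha3 : 2 ≤ a3)
    (hs : m1 + m2 + m3 = h + 1) (ha2' : a2 ≤ 3) : h = 6 ∨ h = 12 ∨ h = 30 := by
  interval_cases a2
  · omega
  · have h4 : 6 * m3 = h + 6 := by omega
    have h5 : a3 ≤ 5 := by
      by_contra hcon
      have h6 : m3 * 6 ≤ m3 * a3 := Nat.mul_le_mul_left m3 (by omega)
      omega
    interval_cases a3 <;> omega

theorem arith_first {h m1 m2 m3 a2 a3 : ℕ} (h1 : h = m1 * 2) (h2 : h = m2 * a2)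
    (h3 : h = m3 * a3) (hm2 : 2 ≤ m2) (hm3 : 2 ≤ m3) (ha2 : 2 ≤ a2) (ha3 : 2 ≤ a3)
    (hs : m1 + m2 + m3 = h + 1) : h = 6 ∨ h = 12 ∨ h = 30 := by
  by_cases c2 : a2 ≤ 3
  · exact arith_core h1 h2 h3 hm2 hm3 ha2 ha3 hs c2
  · by_cases c3 : a3 ≤ 3
    · exact arith_core h1 h3 h2 hm3 hm2 ha3 ha2 (by omega) c3
    · exfalso
      have h5 : m2 * 4 ≤ m2 * a2 := Nat.mul_le_mul_left m2 (by omega)
      have h6 : m3 * 4 ≤ m3 * a3 := Nat.mul_le_mul_left m3 (by omega)
      omega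

theorem arith_three {h m1 m2 m3 a1 a2 a3 : ℕ} (h1 : h = m1 * a1) (h2 : h = m2 * a2)
    (h3 : h = m3 * a3) (hm1 : 2 ≤ m1) (hm2 : 2 ≤ m2) (hm3 : 2 ≤ m3) (ha1 : 2 ≤ a1)
    (ha2 : 2 ≤ a2) (ha3 : 2 ≤ a3) (hs : m1 + m2 + m3 = h + 1) :
    h = 6 ∨ h = 12 ∨ h = 30 := by
  by_cases c1 : a1 = 2
  · subst c1
    exact arith_first h1 h2 h3 hm2 hm3 ha2 ha3 hs
  by_cases c2 : a2 = 2
  · subst c2
    exact arith_first h2 h1 h3 hm1 hm3 ha1 ha3 (by omega)
  by_cases c3 : a3 = 2
  · subst c3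
    exact arith_first h3 h1 h2 hm1 hm2 ha1 ha2 (by omega)
  exfalso
  have h5 : m1 * 3 ≤ m1 * a1 := Nat.mul_le_mul_left m1 (by omega)
  have h6 : m2 * 3 ≤ m2 * a2 := Nat.mul_le_mul_left m2 (by omega)
  have h7 : m3 * 3 ≤ m3 * a3 := Nat.mul_le_mul_left m3 (by omega)
  omega

theorem dat_three {g u1 u2 u3 : ℕ} (h1 : Dat g u1) (h2 : Dat g u2) (h3 : Dat g u3)
    (hs : u1 + u2 + u3 = g - 1) : g = 12 ∨ g = 24 ∨ g = 60 := by
  obtain ⟨a1, n1, m1, ha1, hn1, hm1, hg1, hu1⟩ := h1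
  obtain ⟨a2, n2, m2, ha2, hn2, hm2, hg2, hu2⟩ := h2
  obtain ⟨a3, n3, m3, ha3, hn3, hm3, hg3, hu3⟩ := h3
  have k1 : m1 * 2 ≤ m1 * a1 := Nat.mul_le_mul_left m1 ha1
  have k2 : m2 * 2 ≤ m2 * a2 := Nat.mul_le_mul_left m2 ha2
  have k3 : m3 * 2 ≤ m3 * a3 := Nat.mul_le_mul_left m3 ha3
  rcases hn1 with rfl | rfl <;> rcases hn2 with rfl | rfl <;> rcases hn3 with rfl | rfl
  · exfalso; omega
  · exfalso; omega
  · exfalso; omega
  · exfalso; omega
  · exfalso; omega
  · exfalso; omega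
  · exfalso; omega
  · have h4 := arith_three (h := m1 * a1) rfl (by omega) (by omega) hm1 hm2 hm3 ha1 ha2 ha3
      (by omega)
    omega


/-! ### Group theory -/

section Grp

variable {G : Type*} [Group G]

/-- The abstract hypotheses of the counting argument. -/
structure Hyp (G : Type*) [Group G] : Prop where
  comm : ∀ x : G, x ∉ Subgroup.center G → ∀ a ∈ Subgroup.centralizer ({x} : Set G),
    ∀ b ∈ Subgroup.centralizer ({x} : Set G), a * b = b * a
  coset : ∀ x : G, x ∉ Subgroup.center G → ∀ n n' : G,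
    n * x * n⁻¹ ∈ Subgroup.centralizer ({x} : Set G) →
    n' * x * n'⁻¹ ∈ Subgroup.centralizer ({x} : Set G) →
    n ∉ Subgroup.centralizer ({x} : Set G) → n' ∉ Subgroup.centralizer ({x} : Set G) →
    n'⁻¹ * n ∈ Subgroup.centralizer ({x} : Set G)
  idx : ∀ x : G, x ∉ Subgroup.center G → (Subgroup.centralizer ({x} : Set G)).index ≠ 2

/-- Shorthand for the centralizer of an element. -/
abbrev cen (x : G) : Subgroup G := Subgroup.centralizer ({x} : Set G)

theorem mem_cen {x c : G} : c ∈ cen x ↔ c * x = x * c :=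
  Subgroup.mem_centralizer_singleton_iff

theorem self_mem_cen (x : G) : x ∈ cen x := mem_cen.2 rfl

theorem mem_cen_comm {x y : G} : y ∈ cen x ↔ x ∈ cen y := by
  rw [mem_cen, mem_cen]
  exact eq_comm

theorem mem_cen_conj {x c k : G} : c ∈ cen (k * x * k⁻¹) ↔ k⁻¹ * c * k ∈ cen x := by
  rw [mem_cen, mem_cen]
  constructor
  · intro h
    calc k⁻¹ * c * k * x = k⁻¹ * (c * (k * x * k⁻¹)) * k := by group
      _ = k⁻¹ * ((k * x * k⁻¹) * c) * k := by rw [h]
      _ = x * (k⁻¹ * c * k) := by group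
  · intro h
    calc c * (k * x * k⁻¹) = k * ((k⁻¹ * c * k) * x) * k⁻¹ := by group
      _ = k * (x * (k⁻¹ * c * k)) * k⁻¹ := by rw [h]
      _ = k * x * k⁻¹ * c := by group

theorem mem_cen_conj' {x c k : G} : c ∈ cen (k⁻¹ * x * k) ↔ k * c * k⁻¹ ∈ cen x := by
  have h := @mem_cen_conj G _ x c k⁻¹
  rwa [inv_inv] at h

theorem cen_conj_congr {z w : G} (h : cen z = cen w) (k : G) :
    cen (k * z * k⁻¹) = cen (k * w * k⁻¹) := by
  ext c
  rw [mem_cen_conj, mem_cen_conj, h]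

theorem center_le_cen (x : G) : Subgroup.center G ≤ cen x := fun z hz =>
  mem_cen.2 (Subgroup.mem_center_iff.1 hz x).symm

theorem not_mem_center_conj {x : G} (hx : x ∉ Subgroup.center G) (k : G) :
    k * x * k⁻¹ ∉ Subgroup.center G := by
  intro h
  apply hx
  have h1 := (inferInstance : (Subgroup.center G).Normal).conj_mem _ h k⁻¹
  have h2 : k⁻¹ * (k * x * k⁻¹) * k⁻¹⁻¹ = x := by group
  rwa [h2] at h1

theorem not_mem_center_of_cen_eq {x y : G} (hx : x ∉ Subgroup.center G) (h : cen y = cen x) :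
    y ∉ Subgroup.center G := by
  intro hy
  apply hx
  rw [Subgroup.mem_center_iff]
  intro g
  have h1 : g ∈ cen y := mem_cen.2 (Subgroup.mem_center_iff.1 hy g)
  rw [h] at h1
  exact mem_cen.1 h1

theorem cen_eq_of_mem (hyp : Hyp G) {x y : G} (hx : x ∉ Subgroup.center G)
    (hy : y ∉ Subgroup.center G) (hyx : y ∈ cen x) : cen y = cen x := by
  ext c
  constructor
  · intro hc
    exact mem_cen.2 (hyp.comm y hy c hc x (mem_cen_comm.1 hyx))
  · intro hc
    exact mem_cen.2 (hyp.comm x hx c hc y hyx)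

theorem mem_normalizer_cen (hyp : Hyp G) {x : G} (hx : x ∉ Subgroup.center G) (n : G) :
    n ∈ Subgroup.normalizer (cen x : Set G) ↔ n * x * n⁻¹ ∈ cen x := by
  constructor
  · intro hn
    exact (Subgroup.mem_normalizer_iff.1 hn x).1 (self_mem_cen x)
  · intro hn
    have h1 : cen (n * x * n⁻¹) = cen x :=
      cen_eq_of_mem hyp hx (not_mem_center_conj hx n) hn
    rw [Subgroup.mem_normalizer_iff]
    intro h
    have h2 : n * h * n⁻¹ ∈ cen (n * x * n⁻¹) ↔ h ∈ cen x := by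
      rw [mem_cen_conj]
      have h3 : n⁻¹ * (n * h * n⁻¹) * n = h := by group
      rw [h3]
    rw [h1] at h2
    exact h2.symm

theorem relIndex_normalizer (hyp : Hyp G) {x : G} (hx : x ∉ Subgroup.center G) :
    (cen x).relIndex (Subgroup.normalizer (cen x : Set G)) = 1 ∨
      (cen x).relIndex (Subgroup.normalizer (cen x : Set G)) = 2 := by
  by_cases h : Subgroup.normalizer (cen x : Set G) ≤ cen x
  · left
    exact Subgroup.relIndex_eq_one.2 h
  · right
    obtain ⟨n₀, hn₀, hn₀'⟩ := SetLike.not_le_iff_exists.1 h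
    rw [Subgroup.relIndex, Subgroup.index_eq_two_iff]
    refine ⟨⟨n₀, hn₀⟩, fun b => ?_⟩
    rw [Subgroup.mem_subgroupOf, Subgroup.mem_subgroupOf]
    unfold Xor
    by_cases hb : (b : G) ∈ cen x
    · right
      refine ⟨hb, fun hcon => hn₀' ?_⟩
      have hcon' : (b : G) * n₀ ∈ cen x := hcon
      have h1 : n₀ = (b : G)⁻¹ * ((b : G) * n₀) := by group
      rw [h1]
      exact (cen x).mul_mem ((cen x).inv_mem hb) hcon'
    · left
      refine ⟨?_, hb⟩
      have h1 := hyp.coset x hx n₀ (b : G)⁻¹ ((mem_normalizer_cen hyp hx n₀).1 hn₀)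
        ((mem_normalizer_cen hyp hx _).1 (inv_mem b.2)) hn₀'
        (fun hcon => hb (by simpa using (cen x).inv_mem hcon))
      rw [inv_inv] at h1
      exact h1

theorem index_data (hyp : Hyp G) [Finite G] {x : G} (hx : x ∉ Subgroup.center G) :
    ∃ a n m : ℕ, 2 ≤ a ∧ (n = 1 ∨ n = 2) ∧ 2 ≤ m ∧
      (Subgroup.center G).index = n * (m * a) ∧
      a = (Subgroup.center G).relIndex (cen x) ∧
      m = (Subgroup.normalizer (cen x : Set G)).index := by
  refine ⟨(Subgroup.center G).relIndex (cen x),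
    (cen x).relIndex (Subgroup.normalizer (cen x : Set G)),
    (Subgroup.normalizer (cen x : Set G)).index, ?_, relIndex_normalizer hyp hx, ?_, ?_, rfl, rfl⟩
  · have h0 : (Subgroup.center G).relIndex (cen x) ≠ 0 := Subgroup.index_ne_zero_of_finite
    have h1 : (Subgroup.center G).relIndex (cen x) ≠ 1 := by
      intro h
      exact hx (Subgroup.relIndex_eq_one.1 h (self_mem_cen x))
    omega
  · have h0 : (Subgroup.normalizer (cen x : Set G)).index ≠ 0 := Subgroup.index_ne_zero_of_finite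
    have h1 : (Subgroup.normalizer (cen x : Set G)).index ≠ 1 := by
      intro h
      have h2 := Subgroup.relIndex_mul_index (Subgroup.le_normalizer (H := cen x))
      rw [h, mul_one] at h2
      rcases relIndex_normalizer hyp hx with h3 | h3
      · rw [h3] at h2
        have h4 := Subgroup.index_eq_one.1 h2.symm
        apply hx
        rw [Subgroup.mem_center_iff]
        intro g
        have h5 : g ∈ cen x := by
          rw [h4]
          exact Subgroup.mem_top g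
        exact mem_cen.1 h5
      · rw [h3] at h2
        exact hyp.idx x hx h2.symm
    omega
  · rw [← Subgroup.relIndex_mul_index (center_le_cen x),
      ← Subgroup.relIndex_mul_index (Subgroup.le_normalizer (H := cen x))]
    ring

/-- The class of a noncentral element: elements whose centralizer is conjugate to that of `x`. -/
def cls (x : G) : Set G := {y | ∃ g : G, cen y = cen (g * x * g⁻¹)}

theorem self_mem_cls (x : G) : x ∈ cls x := ⟨1, by simp⟩

theorem not_mem_center_of_mem_cls {x y : G} (hx : x ∉ Subgroup.center G) (hy : y ∈ cls x) :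
    y ∉ Subgroup.center G := by
  obtain ⟨g, hg⟩ := hy
  exact not_mem_center_of_cen_eq (not_mem_center_conj hx g) hg

theorem cls_disjoint {x x' : G} (h : x' ∉ cls x) : Disjoint (cls x) (cls x') := by
  rw [Set.disjoint_left]
  intro y hy hy'
  apply h
  obtain ⟨g, hg⟩ := hy
  obtain ⟨g', hg'⟩ := hy'
  have h1 := cen_conj_congr (hg'.symm.trans hg) g'⁻¹
  have h2 : g'⁻¹ * (g' * x' * g'⁻¹) * g'⁻¹⁻¹ = x' := by group
  have h3 : g'⁻¹ * (g * x * g⁻¹) * g'⁻¹⁻¹ = (g'⁻¹ * g) * x * (g'⁻¹ * g)⁻¹ := by group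
  rw [h2, h3] at h1
  exact ⟨g'⁻¹ * g, h1⟩

theorem card_cls (hyp : Hyp G) [Finite G] {x : G} (hx : x ∉ Subgroup.center G) :
    (cls x).ncard * Nat.card (Subgroup.normalizer (cen x : Set G)) =
      Nat.card G * (Nat.card (cen x) - Nat.card (Subgroup.center G)) := by
  obtain ⟨f, hf⟩ : ∃ f : G × {y : G // y ∈ cen x ∧ y ∉ Subgroup.center G} → cls x,
      ∀ p, (f p : G) = p.1 * p.2.1 * p.1⁻¹ :=
    ⟨fun p => ⟨p.1 * p.2.1 * p.1⁻¹, ⟨p.1, cen_conj_congr
      (cen_eq_of_mem hyp hx p.2.2.2 p.2.2.1) p.1⟩⟩, fun p => rfl⟩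
  have hfib : ∀ b : cls x, Nat.card {p // f p = b} =
      Nat.card (Subgroup.normalizer (cen x : Set G)) := by
    intro b
    obtain ⟨y', g₀, hg₀⟩ := b
    have hy' : y' ∉ Subgroup.center G :=
      not_mem_center_of_cen_eq (not_mem_center_conj hx g₀) hg₀
    have key : ∀ g : G, g⁻¹ * y' * g ∈ cen x ↔
        g₀⁻¹ * g ∈ Subgroup.normalizer (cen x : Set G) := by
      intro g
      rw [mem_cen_comm, mem_cen_conj', hg₀, mem_cen_conj, mem_normalizer_cen hyp hx]
      have h3 : g₀⁻¹ * (g * x * g⁻¹) * g₀ = (g₀⁻¹ * g) * x * (g₀⁻¹ * g)⁻¹ := by group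
      rw [h3]
    have hval : ∀ p : {p // f p = (⟨y', g₀, hg₀⟩ : cls x)},
        p.1.1 * p.1.2.1 * p.1.1⁻¹ = y' := by
      intro p
      rw [← hf p.1, p.2]
    have hval' : ∀ p : {p // f p = (⟨y', g₀, hg₀⟩ : cls x)},
        p.1.2.1 = p.1.1⁻¹ * y' * p.1.1 := by
      intro p
      calc p.1.2.1 = p.1.1⁻¹ * (p.1.1 * p.1.2.1 * p.1.1⁻¹) * p.1.1 := by group
        _ = p.1.1⁻¹ * y' * p.1.1 := by rw [hval p]
    obtain ⟨φ, hφ⟩ : ∃ φ : {p // f p = (⟨y', g₀, hg₀⟩ : cls x)} →
        Subgroup.normalizer (cen x : Set G), ∀ p, (φ p : G) = g₀⁻¹ * p.1.1 :=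
      ⟨fun p => ⟨g₀⁻¹ * p.1.1, (key p.1.1).1 (by
        rw [← hval' p]
        exact p.1.2.2.1)⟩, fun p => rfl⟩
    have hbij : Function.Bijective φ := by
      constructor
      · intro p q hpq
        have h1 : g₀⁻¹ * p.1.1 = g₀⁻¹ * q.1.1 := by
          rw [← hφ p, ← hφ q, hpq]
        have h2 : p.1.1 = q.1.1 := mul_left_cancel h1
        have h3 : p.1.2.1 = q.1.2.1 := by
          rw [hval' p, hval' q, h2]
        exact Subtype.ext (Prod.ext h2 (Subtype.ext h3))
      · intro n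
        have h1 : (g₀ * (n : G))⁻¹ * y' * (g₀ * (n : G)) ∈ cen x := by
          rw [key]
          have h2 : g₀⁻¹ * (g₀ * (n : G)) = n := by group
          rw [h2]
          exact n.2
        have h2 : (g₀ * (n : G))⁻¹ * y' * (g₀ * (n : G)) ∉ Subgroup.center G := by
          have h3 := not_mem_center_conj hy' (g₀ * (n : G))⁻¹
          rwa [inv_inv] at h3
        have h3 : f (g₀ * (n : G), ⟨(g₀ * (n : G))⁻¹ * y' * (g₀ * (n : G)), h1, h2⟩) =
            (⟨y', g₀, hg₀⟩ : cls x) := by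
          apply Subtype.ext
          rw [hf]
          show g₀ * (n : G) * ((g₀ * (n : G))⁻¹ * y' * (g₀ * (n : G))) * (g₀ * (n : G))⁻¹ = y'
          group
        refine ⟨⟨(g₀ * (n : G), ⟨(g₀ * (n : G))⁻¹ * y' * (g₀ * (n : G)), h1, h2⟩), h3⟩, ?_⟩
        apply Subtype.ext
        rw [hφ]
        show g₀⁻¹ * (g₀ * (n : G)) = n
        group
    exact Nat.card_congr (Equiv.ofBijective φ hbij)
  have h1 := Cfsg.Agent.Lib.Helper75.SelfCent.card_eq_mul_of_fiber f _ hfib
  rw [Nat.card_prod] at h1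
  have h2 : Nat.card {y : G // y ∈ cen x ∧ y ∉ Subgroup.center G} =
      Nat.card (cen x) - Nat.card (Subgroup.center G) := by
    have h3 : Nat.card {y : G // y ∈ cen x ∧ y ∉ Subgroup.center G} =
        ((cen x : Set G) \ (Subgroup.center G : Set G)).ncard :=
      Nat.card_coe_set_eq ((cen x : Set G) \ (Subgroup.center G : Set G))
    rw [h3, Set.ncard_sdiff (center_le_cen x)]
    rfl
  rw [h2] at h1
  rw [← Nat.card_coe_set_eq]
  exact h1.symm

theorem class_dat (hyp : Hyp G) [Finite G] {x : G} (hx : x ∉ Subgroup.center G) :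
    ∃ u, Dat (Subgroup.center G).index u ∧
      (cls x).ncard = Nat.card (Subgroup.center G) * u := by
  obtain ⟨a, n, m, ha, hn, hm, hg, hadef, hmdef⟩ := index_data hyp hx
  refine ⟨m * a - m, ⟨a, n, m, ha, hn, hm, hg, rfl⟩, ?_⟩
  have h1 := card_cls hyp hx
  have h2 : Nat.card (Subgroup.normalizer (cen x : Set G)) * m = Nat.card G := by
    rw [hmdef]
    exact Subgroup.card_mul_index _
  have h3 : Nat.card (cen x) = a * Nat.card (Subgroup.center G) := by
    have h4 := Subgroup.card_mul_index (Subgroup.center G)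
    have h5 := Subgroup.card_mul_index (cen x)
    have h6 := Subgroup.relIndex_mul_index (center_le_cen x)
    rw [← hadef] at h6
    have h7 : (cen x).index ≠ 0 := Subgroup.index_ne_zero_of_finite
    rw [← h6] at h4
    have h8 : (a * Nat.card (Subgroup.center G)) * (cen x).index =
        Nat.card (cen x) * (cen x).index := by
      rw [h5, ← h4]
      ring
    exact (Nat.eq_of_mul_eq_mul_right (Nat.pos_of_ne_zero h7) h8).symm
  have h9 : 0 < Nat.card (Subgroup.normalizer (cen x : Set G)) := Nat.card_pos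
  rw [← h2, h3] at h1
  apply Nat.eq_of_mul_eq_mul_right h9
  rw [h1, ← Nat.sub_one_mul, ← Nat.mul_sub_one]
  ring

theorem index_center (hyp : Hyp G) [Finite G] (hne : ∃ x : G, x ∉ Subgroup.center G) :
    (Subgroup.center G).index = 12 ∨ (Subgroup.center G).index = 24 ∨
      (Subgroup.center G).index = 60 := by
  obtain ⟨z, hz⟩ : ∃ z, z = Nat.card (Subgroup.center G) := ⟨_, rfl⟩
  obtain ⟨g, hg⟩ : ∃ g, g = (Subgroup.center G).index := ⟨_, rfl⟩
  have hz0 : 0 < z := hz ▸ Nat.card_pos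
  have hS : ((Subgroup.center G : Set G)ᶜ).ncard = z * (g - 1) := by
    rw [Set.ncard_compl, ← Subgroup.card_mul_index (Subgroup.center G), ← hg, Nat.mul_sub_one]
    have h1 : (Subgroup.center G : Set G).ncard = z := by
      rw [hz]
      rfl
    rw [h1, ← hz]
  have hsub : ∀ x : G, x ∉ Subgroup.center G → cls x ⊆ (Subgroup.center G : Set G)ᶜ :=
    fun x hx y hy => not_mem_center_of_mem_cls hx hy
  rw [← hg]
  obtain ⟨x₁, hx₁⟩ := hne
  obtain ⟨u₁, d₁, c₁⟩ := class_dat hyp hx₁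
  rw [← hg] at d₁
  rw [← hz] at c₁
  have q₁ := dat_quarter d₁
  by_cases e₁ : ∃ x₂, x₂ ∉ Subgroup.center G ∧ x₂ ∉ cls x₁
  · obtain ⟨x₂, hx₂, h21⟩ := e₁
    obtain ⟨u₂, d₂, c₂⟩ := class_dat hyp hx₂
    rw [← hg] at d₂
    rw [← hz] at c₂
    have q₂ := dat_quarter d₂
    have dj12 := cls_disjoint h21
    by_cases e₂ : ∃ x₃, x₃ ∉ Subgroup.center G ∧ x₃ ∉ cls x₁ ∧ x₃ ∉ cls x₂
    · obtain ⟨x₃, hx₃, h31, h32⟩ := e₂
      obtain ⟨u₃, d₃, c₃⟩ := class_dat hyp hx₃
      rw [← hg] at d₃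
      rw [← hz] at c₃
      have q₃ := dat_quarter d₃
      have dj13 := cls_disjoint h31
      have dj23 := cls_disjoint h32
      by_cases e₃ : ∃ x₄, x₄ ∉ Subgroup.center G ∧ x₄ ∉ cls x₁ ∧ x₄ ∉ cls x₂ ∧ x₄ ∉ cls x₃
      · exfalso
        obtain ⟨x₄, hx₄, h41, h42, h43⟩ := e₃
        obtain ⟨u₄, d₄, c₄⟩ := class_dat hyp hx₄
        rw [← hg] at d₄
        rw [← hz] at c₄
        have q₄ := dat_quarter d₄
        have dj14 := cls_disjoint h41
        have dj24 := cls_disjoint h42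
        have dj34 := cls_disjoint h43
        have hle : (cls x₁ ∪ cls x₂ ∪ cls x₃ ∪ cls x₄).ncard ≤
            ((Subgroup.center G : Set G)ᶜ).ncard :=
          Set.ncard_le_ncard (Set.union_subset (Set.union_subset (Set.union_subset
            (hsub x₁ hx₁) (hsub x₂ hx₂)) (hsub x₃ hx₃)) (hsub x₄ hx₄))
        rw [Set.ncard_union_eq (Set.disjoint_union_left.2
            ⟨Set.disjoint_union_left.2 ⟨dj14, dj24⟩, dj34⟩),
          Set.ncard_union_eq (Set.disjoint_union_left.2 ⟨dj13, dj23⟩),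
          Set.ncard_union_eq dj12, c₁, c₂, c₃, c₄, hS] at hle
        have h5 : u₁ + u₂ + u₃ + u₄ ≤ g - 1 := by
          apply Nat.le_of_mul_le_mul_left _ hz0
          calc z * (u₁ + u₂ + u₃ + u₄) = z * u₁ + z * u₂ + z * u₃ + z * u₄ := by ring
            _ ≤ z * (g - 1) := hle
        omega
      · push Not at e₃
        have heq : (Subgroup.center G : Set G)ᶜ = cls x₁ ∪ cls x₂ ∪ cls x₃ := by
          apply Set.Subset.antisymm
          · intro y hy
            by_cases h1 : y ∈ cls x₁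
            · exact Or.inl (Or.inl h1)
            by_cases h2 : y ∈ cls x₂
            · exact Or.inl (Or.inr h2)
            exact Or.inr (e₃ y hy h1 h2)
          · exact Set.union_subset (Set.union_subset (hsub x₁ hx₁) (hsub x₂ hx₂)) (hsub x₃ hx₃)
        rw [heq, Set.ncard_union_eq (Set.disjoint_union_left.2 ⟨dj13, dj23⟩),
          Set.ncard_union_eq dj12, c₁, c₂, c₃] at hS
        have h5 : u₁ + u₂ + u₃ = g - 1 := by
          apply Nat.eq_of_mul_eq_mul_left hz0
          rw [← hS]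
          ring
        exact dat_three d₁ d₂ d₃ h5
    · push Not at e₂
      have heq : (Subgroup.center G : Set G)ᶜ = cls x₁ ∪ cls x₂ := by
        apply Set.Subset.antisymm
        · intro y hy
          by_cases h1 : y ∈ cls x₁
          · exact Or.inl h1
          exact Or.inr (e₂ y hy h1)
        · exact Set.union_subset (hsub x₁ hx₁) (hsub x₂ hx₂)
      rw [heq, Set.ncard_union_eq dj12, c₁, c₂] at hS
      have h5 : u₁ + u₂ = g - 1 := by
        apply Nat.eq_of_mul_eq_mul_left hz0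
        rw [← hS]
        ring
      left
      exact dat_two d₁ d₂ h5
  · exfalso
    push Not at e₁
    have heq : (Subgroup.center G : Set G)ᶜ = cls x₁ := by
      apply Set.Subset.antisymm
      · intro y hy
        exact e₁ y hy
      · exact hsub x₁ hx₁
    rw [heq, c₁] at hS
    exact q₁.2.2 (Nat.eq_of_mul_eq_mul_left hz0 hS)

end Grp

end Cfsg.Agent.Lib.Helper74.Deg2Count
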