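import Mathlib
import Cfsg.Agent.Lib.Helper74.DixStmt
import Cfsg.Agent.Lib.Helper74.IndexP
import Cfsg.Agent.Lib.Helper74.DetTools
import Cfsg.Agent.Lib.Helper23.StabBound
import Cfsg.Agent.Lib.Helper80.Integrality
import Cfsg.Agent.Lib.CT.Ops

/-!
S4472, piece EXTDET: an invariant irreducible character of a normal `p'`-subgroup of
`p`-power index has an irreducible extension of determinantal order prime to `p`.
-/

set_option autoImplicit false

namespace Cfsg.Agent.Lib.Helper74.DixEXTDET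

open Cfsg Cfsg.Agent.Lib.Helper74.DixStmt Cfsg.Agent.Lib.Helper74.DetTools Cfsg.Agent.Lib.CT

universe u

/-- A normal subgroup of index `p` over a normal subgroup of index `p ^ (m + 1)`. -/
theorem exists_index_p {T : Type u} [Group T] [Finite T] (p : ℕ) [Fact p.Prime]
    (K : Subgroup T) [K.Normal] (m : ℕ) (hidx : K.index = p ^ (m + 1)) :
    ∃ M : Subgroup T, M.Normal ∧ K ≤ M ∧ M.index = p := by
  have hp : p.Prime := Fact.out
  have hcardQ : Nat.card (T ⧸ K) = p ^ (m + 1) := by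
    rw [← hidx]
    exact (Subgroup.index_eq_card K).symm
  have hQ : IsPGroup p (T ⧸ K) := IsPGroup.of_card hcardQ
  have htop : Nat.card (⊤ : Subgroup (T ⧸ K)) = p ^ (m + 1) := by
    rw [Subgroup.card_top]
    exact hcardQ
  obtain ⟨B, hBn, -, hBc, -⟩ :=
    Cfsg.Agent.Lib.Helper23.StabBound.exists_normal_index_p hQ ⊤ m htop
  refine ⟨B.comap (QuotientGroup.mk' K), ?_, ?_, ?_⟩
  · exact hBn.comap _
  · intro x hx
    rw [Subgroup.mem_comap]
    have h1 : QuotientGroup.mk' K x = 1 := (QuotientGroup.eq_one_iff x).2 hx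
    rw [h1]
    exact B.one_mem
  · rw [Subgroup.index_comap_of_surjective B (QuotientGroup.mk'_surjective K)]
    have h1 := B.card_mul_index
    rw [hBc, hcardQ, pow_succ] at h1
    exact Nat.eq_of_mul_eq_mul_left (pow_pos hp.pos m) h1

theorem aux (hU : ExtUniq.{u}) (p : ℕ) [Fact p.Prime] :
    ∀ (m : ℕ) (T : Type u) [Group T] [Finite T] (K : Subgroup T) [hK : K.Normal],
    (Nat.card K).Coprime p → K.index = p ^ m →
    ∀ θ : K → ℂ, IsIrrCharacter K θ →
    (∀ (g : T) (k : K), θ ⟨g * k * g⁻¹, hK.conj_mem k k.2 g⟩ = θ k) →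
    ∃ ψ : T → ℂ, IsIrrCharacter T ψ ∧ (∀ k : K, ψ k = θ k) ∧ ¬ p ∣ detOrder ψ := by
  intro m
  induction m with
  | zero =>
    intro T _ _ K hK hcop hidx θ hθ hinv
    have hp : p.Prime := Fact.out
    have hKtop : K = ⊤ := by
      rw [pow_zero] at hidx
      exact Subgroup.index_eq_one.mp hidx
    obtain ⟨e, he⟩ : ∃ e : T ≃* K, ∀ t : T, ((e t : K) : T) = t :=
      ⟨(Subgroup.topEquiv.symm).trans (MulEquiv.subgroupCongr hKtop.symm), fun t => rfl⟩
    refine ⟨fun t => θ (e t), Ops.isIrrCharacter_comp_mulEquiv e hθ, ?_, ?_⟩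
    · intro k
      show θ (e (k : T)) = θ k
      congr 1
      exact Subtype.ext (he k)
    · rw [detOrder_comp_mulEquiv e hθ]
      intro hdvd
      have h1 : detOrder θ ∣ Nat.card K := by
        apply detOrder_dvd_of_pow
        intro g
        obtain ⟨δ, hδ⟩ := exists_detHom hθ
        rw [hδ]
        show ((δ g : ℂˣ) : ℂ) ^ Nat.card K = 1
        rw [← Units.val_pow_eq_pow_val, ← map_pow, pow_card_eq_one', map_one]
        rfl
      have h2 : p ∣ Nat.gcd (Nat.card K) p := Nat.dvd_gcd (dvd_trans hdvd h1) dvd_rfl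
      rw [hcop] at h2
      exact hp.one_lt.ne' (Nat.dvd_one.mp h2)
  | succ m ih =>
    intro T _ _ K hK hcop hidx θ hθ hinv
    have hp : p.Prime := Fact.out
    obtain ⟨M, hMn, hKM, hMidx⟩ := exists_index_p p K m hidx
    haveI : Fintype M := Fintype.ofFinite _
    haveI : Fintype T := Fintype.ofFinite _
    have hK'n : (K.subgroupOf M).Normal := inferInstance
    obtain ⟨e, he⟩ : ∃ e : K.subgroupOf M ≃* K, ∀ x : K.subgroupOf M, ((e x : K) : T) = ((x : M) : T) :=
      ⟨Subgroup.subgroupOfEquivOfLe hKM, fun x => rfl⟩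
    have hcard' : Nat.card (K.subgroupOf M) = Nat.card K := Nat.card_congr e.toEquiv
    have hidx' : (K.subgroupOf M).index = p ^ m := by
      have h1 : K.relIndex M * M.index = K.index := Subgroup.relIndex_mul_index hKM
      rw [hMidx, hidx, pow_succ] at h1
      exact Nat.eq_of_mul_eq_mul_right hp.pos h1
    obtain ⟨θ', hθ'⟩ : ∃ θ' : K.subgroupOf M → ℂ, ∀ x, θ' x = θ (e x) := ⟨fun x => θ (e x), fun _ => rfl⟩
    have hθ'irr : IsIrrCharacter (K.subgroupOf M) θ' := by
      have : θ' = fun x => θ (e x) := funext hθ'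
      rw [this]
      exact Ops.isIrrCharacter_comp_mulEquiv e hθ
    have hinv' : ∀ (g : M) (k : K.subgroupOf M),
        θ' ⟨g * k * g⁻¹, hK'n.conj_mem k k.2 g⟩ = θ' k := by
      intro g k
      rw [hθ', hθ', ← hinv (g : T) (e k)]
      congr 1
      apply Subtype.ext
      rw [he]
      show ((g : T) * ((k : M) : T) * ((g : M) : T)⁻¹) = (g : T) * ((e k : K) : T) * (g : T)⁻¹
      rw [he]
    obtain ⟨ψM, hψM, hψMK, hψMdet⟩ := ih M (K.subgroupOf M) (by rw [hcard']; exact hcop)
      hidx' θ' hθ'irr hinv'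
    have hinvM : ∀ (g : T) (n : M),
        ψM ⟨g * n * g⁻¹, hMn.conj_mem (n : T) n.2 g⟩ = ψM n := by
      intro g n
      haveI := hMn
      obtain ⟨c, hc⟩ : ∃ c : M ≃* M, ∀ x : M, ((c x : M) : T) = g * x * g⁻¹ :=
        ⟨MulAut.conjNormal g, fun x => rfl⟩
      have hirr2 : IsIrrCharacter M (fun x => ψM (c x)) :=
        Ops.isIrrCharacter_comp_mulEquiv c hψM
      have hdet2 : ¬ p ∣ detOrder (fun x => ψM (c x)) := by
        rw [detOrder_comp_mulEquiv c hψM]
        exact hψMdet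
      have hresirr : IsIrrCharacter (K.subgroupOf M) (fun k : K.subgroupOf M => ψM k) := by
        have : (fun k : K.subgroupOf M => ψM k) = θ' := funext hψMK
        rw [this]
        exact hθ'irr
      have hagree : ∀ k : K.subgroupOf M, ψM k = (fun x => ψM (c x)) k := by
        intro k
        have hmem : c (k : M) ∈ K.subgroupOf M := by
          rw [Subgroup.mem_subgroupOf, hc]
          exact hK.conj_mem _ (Subgroup.mem_subgroupOf.mp k.2) g
        have h1 := hψMK ⟨c (k : M), hmem⟩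
        have h2 := hψMK k
        show ψM k = ψM (c (k : M))
        rw [h2, show ψM (c (k : M)) = θ' ⟨c (k : M), hmem⟩ from h1, hθ', hθ',
          ← hinv g (e k)]
        congr 1
        apply Subtype.ext
        show g * ((e k : K) : T) * g⁻¹ = ((e ⟨c (k : M), hmem⟩ : K) : T)
        rw [he, he, hc]
      have h3 := hU p (K.subgroupOf M) (by rw [hcard']; exact hcop) ⟨m, hidx'⟩ ψM
        (fun x => ψM (c x)) hψM hirr2 hresirr hagree hψMdet hdet2
      have h4 := congrFun h3 n
      rw [h4]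
      show ψM _ = ψM (c n)
      congr 1
      apply Subtype.ext
      rw [hc]
    have hdeg : ¬ p ∣ charDegree ψM := by
      have h1 : charDegree ψM = charDegree θ := by
        unfold charDegree
        have h2 := hψMK 1
        rw [hθ', map_one] at h2
        have h3 : ψM (((1 : K.subgroupOf M) : M)) = ψM 1 := rfl
        rw [← h3, h2]
      rw [h1]
      intro hdvd
      have h2 : charDegree θ ∣ Nat.card K :=
        Cfsg.Agent.Lib.Helper80.Integrality.charDegree_dvd_card ⟨θ, hθ⟩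
      have h3 : p ∣ Nat.gcd (Nat.card K) p := Nat.dvd_gcd (dvd_trans hdvd h2) dvd_rfl
      rw [hcop] at h3
      exact hp.one_lt.ne' (Nat.dvd_one.mp h3)
    obtain ⟨χ, hχ, hχM, hχdet⟩ :=
      @Cfsg.Agent.Lib.Helper74.IndexP.exists_extension_coprime_det T _ _ M hMn _ p hp hMidx
        ψM hψM hinvM hdeg hψMdet
    refine ⟨χ, hχ, ?_, hχdet⟩
    intro k
    have hkM : (k : T) ∈ M := hKM k.2
    have hkK : (⟨(k : T), hkM⟩ : M) ∈ K.subgroupOf M := Subgroup.mem_subgroupOf.mpr k.2
    have h1 := hχM ⟨(k : T), hkM⟩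
    have h2 := hψMK ⟨⟨(k : T), hkM⟩, hkK⟩
    show χ (k : T) = θ k
    rw [show χ (k : T) = ψM ⟨(k : T), hkM⟩ from h1,
      show ψM ⟨(k : T), hkM⟩ = θ' ⟨⟨(k : T), hkM⟩, hkK⟩ from h2, hθ']
    congr 1
    apply Subtype.ext
    rw [he]

/-- EXTDET. -/
theorem main (hU : ExtUniq.{u}) : ExtDet.{u} := by
  intro T _ _ p _ K hK hcop hidx θ hθ hinv
  obtain ⟨m, hm⟩ := hidx
  exact aux hU p m T K hcop hm θ hθ hinv

end Cfsg.Agent.Lib.Helper74.DixEXTDET
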