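import Mathlib
import Cfsg.Agent.Lib.Helper74.IndexP

/-!
The index-`p` step: for a normal subgroup `M` of prime index `p`, the sums of the squares of
the degrees of the irreducible characters with degree and determinantal order prime to `p`
agree modulo `p` for `G` and for `M`.
-/

set_option autoImplicit false

namespace Cfsg.Agent.Lib.Helper74.IndexPStep

open Cfsg Cfsg.Agent.Lib.Helper74.DetTools Cfsg.Agent.Lib.Helper74.IndexP
open Cfsg.Agent.Lib.Helper3.Irr Cfsg.Agent.Lib.CT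
open scoped ComplexConjugate

universe u

/-- The irreducible characters with degree and determinantal order prime to `p`. -/
def Y (p : ℕ) (X : Type u) [Group X] : Set (IrrCharacter X) :=
  {χ | ¬ p ∣ charDegree (χ : X → ℂ) ∧ ¬ p ∣ detOrder (χ : X → ℂ)}

variable {G : Type u} [Group G]

/-- The conjugation action of `G` on the irreducible characters of a normal subgroup. -/
@[reducible]
noncomputable def irrConjAct (M : Subgroup G) [hM : M.Normal] : MulAction G (IrrCharacter M) where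
  smul g ψ := ⟨fun m => ψ.1 ((MulAut.conjNormal g⁻¹ : MulAut M) m),
    Ops.isIrrCharacter_comp_mulEquiv (MulAut.conjNormal g⁻¹ : MulAut M) ψ.2⟩
  one_smul ψ := by
    apply Subtype.ext
    funext m
    show ψ.1 ((MulAut.conjNormal (1 : G)⁻¹ : MulAut M) m) = ψ.1 m
    simp
  mul_smul g h ψ := by
    apply Subtype.ext
    funext m
    show ψ.1 ((MulAut.conjNormal (g * h)⁻¹ : MulAut M) m) =
      ψ.1 ((MulAut.conjNormal h⁻¹ : MulAut M) ((MulAut.conjNormal g⁻¹ : MulAut M) m))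
    rw [mul_inv_rev, map_mul]
    rfl

/-- The permutation representation of `G` on the irreducible characters of a normal
subgroup. -/
noncomputable def conjIrr (M : Subgroup G) [hM : M.Normal] :
    G →* Equiv.Perm (IrrCharacter M) :=
  @MulAction.toPermHom G (IrrCharacter M) _ (irrConjAct M)

theorem conjIrr_apply (M : Subgroup G) [hM : M.Normal] (g : G) (ψ : IrrCharacter M) (m : M) :
    ((conjIrr M g ψ : IrrCharacter M) : M → ℂ) m =
      ψ.1 ((MulAut.conjNormal g⁻¹ : MulAut M) m) := rfl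

theorem conjIrr_of_mem [Finite G] (M : Subgroup G) [hM : M.Normal] {g : G} (hg : g ∈ M) :
    conjIrr M g = 1 := by
  apply Equiv.ext
  intro ψ
  apply Subtype.ext
  funext m
  rw [conjIrr_apply]
  have hcf : IsClassFunction M ψ.1 := IsIrrCharacter.isClassFunction ψ.2
  have h1 : (MulAut.conjNormal g⁻¹ : MulAut M) m = (⟨g, hg⟩ : M)⁻¹ * m * (⟨g, hg⟩ : M)⁻¹⁻¹ := by
    apply Subtype.ext
    rw [MulAut.conjNormal_apply]
    simp
  rw [h1]
  exact hcf m _

theorem charDegree_conjIrr (M : Subgroup G) [hM : M.Normal] (g : G) (ψ : IrrCharacter M) :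
    charDegree ((conjIrr M g ψ : IrrCharacter M) : M → ℂ) = charDegree (ψ : M → ℂ) := by
  unfold charDegree
  rw [conjIrr_apply, map_one]

theorem detOrder_conjIrr [Finite G] (M : Subgroup G) [hM : M.Normal] (g : G)
    (ψ : IrrCharacter M) :
    detOrder ((conjIrr M g ψ : IrrCharacter M) : M → ℂ) = detOrder (ψ : M → ℂ) :=
  detOrder_comp_mulEquiv (MulAut.conjNormal g⁻¹ : MulAut M) ψ.2

theorem conjIrr_mem_Y [Finite G] (M : Subgroup G) [hM : M.Normal] (p : ℕ) (g : G)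
    (ψ : IrrCharacter M) : conjIrr M g ψ ∈ Y p M ↔ ψ ∈ Y p M := by
  show (¬ p ∣ charDegree ((conjIrr M g ψ : IrrCharacter M) : M → ℂ) ∧
    ¬ p ∣ detOrder ((conjIrr M g ψ : IrrCharacter M) : M → ℂ)) ↔
    (¬ p ∣ charDegree (ψ : M → ℂ) ∧ ¬ p ∣ detOrder (ψ : M → ℂ))
  rw [charDegree_conjIrr, detOrder_conjIrr]

/-- If an irreducible character of a normal subgroup `M` of prime index is fixed by an
element outside `M`, then it is `G`-invariant. -/
theorem invariant_of_fixed [Finite G] (M : Subgroup G) [hM : M.Normal] {p : ℕ} (hp : p.Prime)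
    (hidx : M.index = p) {g₀ : G} (hg₀ : g₀ ∉ M) (ψ : IrrCharacter M)
    (hfix : conjIrr M g₀ ψ = ψ) (g : G) (n : M) :
    ψ.1 ⟨g * n * g⁻¹, hM.conj_mem (n : G) n.2 g⟩ = ψ.1 n := by
  obtain ⟨S, hS⟩ : ∃ S : Subgroup G,
      S = (MulAction.stabilizer (Equiv.Perm (IrrCharacter M)) ψ).comap (conjIrr M) := ⟨_, rfl⟩
  have hmem : ∀ x : G, x ∈ S ↔ conjIrr M x ψ = ψ := by
    intro x
    rw [hS, Subgroup.mem_comap, MulAction.mem_stabilizer_iff]
    rfl
  have hMS : M ≤ S := by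
    intro x hx
    rw [hmem, conjIrr_of_mem M hx]
    rfl
  have hg₀S : g₀ ∈ S := (hmem g₀).2 hfix
  have hSidx : S.index = 1 := by
    have h1 : S.index ∣ p := by rw [← hidx]; exact Subgroup.index_dvd_of_le hMS
    rcases (Nat.dvd_prime hp).1 h1 with h | h
    · exact h
    · exfalso
      have h2 := Subgroup.relIndex_mul_index hMS
      rw [h, hidx] at h2
      have h3 : M.relIndex S = 1 := by
        have hp0 := hp.pos
        nlinarith
      exact hg₀ (Subgroup.relIndex_eq_one.mp h3 hg₀S)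
  have hStop : S = ⊤ := Subgroup.index_eq_one.mp hSidx
  have h4 : conjIrr M g⁻¹ ψ = ψ := (hmem g⁻¹).1 (by rw [hStop]; exact Subgroup.mem_top _)
  have h5 := conjIrr_apply M g⁻¹ ψ n
  rw [h4] at h5
  rw [h5]
  refine congrArg ψ.1 ?_
  apply Subtype.ext
  rw [MulAut.conjNormal_apply]
  simp

/-- The index-`p` step. -/
theorem step [Fintype G] (M : Subgroup G) [hM : M.Normal] [Fintype M] {p : ℕ} (hp : p.Prime)
    (hidx : M.index = p) :
    (∑ᶠ χ ∈ Y p G, (charDegree (χ : G → ℂ) : ℤ) ^ 2) ≡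
      (∑ᶠ ψ ∈ Y p M, (charDegree (ψ : M → ℂ) : ℤ) ^ 2) [ZMOD p] := by
  classical
  have hfi : Finite (IrrCharacter M) := finite_irrCharacter
  have hFi : Fintype (IrrCharacter M) := Fintype.ofFinite _
  obtain ⟨g₀, hg₀⟩ : ∃ g₀ : G, g₀ ∉ M := by
    by_contra h
    push Not at h
    have htop : M = ⊤ := eq_top_iff.mpr (fun x _ => h x)
    rw [htop, Subgroup.index_top] at hidx
    exact hp.one_lt.ne' hidx.symm
  obtain ⟨φ, hφ⟩ : ∃ φ : Equiv.Perm (IrrCharacter M), φ = conjIrr M g₀ := ⟨_, rfl⟩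
  obtain ⟨f, hf⟩ : ∃ f : IrrCharacter M → ℤ,
      f = fun ψ : IrrCharacter M => (charDegree (ψ : M → ℂ) : ℤ) ^ 2 := ⟨_, rfl⟩
  obtain ⟨Inv, hInv⟩ : ∃ Inv : Set (IrrCharacter M), Inv = {ψ | ψ ∈ Y p M ∧ φ ψ = ψ} :=
    ⟨_, rfl⟩
  obtain ⟨Non, hNon⟩ : ∃ Non : Set (IrrCharacter M), Non = {ψ | ψ ∈ Y p M ∧ φ ψ ≠ ψ} :=
    ⟨_, rfl⟩
  have hunion : Y p M = Inv ∪ Non := by
    ext ψ
    rw [hInv, hNon]
    constructor
    · intro h
      by_cases hc : φ ψ = ψ
      · exact Or.inl ⟨h, hc⟩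
      · exact Or.inr ⟨h, hc⟩
    · rintro (h | h) <;> exact h.1
  have hdisj : Disjoint Inv Non := by
    rw [Set.disjoint_left]
    intro ψ h1 h2
    rw [hInv] at h1
    rw [hNon] at h2
    exact h2.2 h1.2
  have hsplit : ∑ᶠ ψ ∈ Y p M, f ψ = ∑ᶠ ψ ∈ Inv, f ψ + ∑ᶠ ψ ∈ Non, f ψ := by
    rw [hunion]
    exact finsum_mem_union hdisj (Set.toFinite _) (Set.toFinite _)
  have hφp : φ ^ p = 1 := by
    rw [hφ, ← map_pow]
    apply conjIrr_of_mem
    rw [← hidx]
    exact Subgroup.pow_index_mem M g₀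
  have hφY : ∀ ψ, φ ψ ∈ Y p M ↔ ψ ∈ Y p M := by
    intro ψ
    rw [hφ]
    exact conjIrr_mem_Y M p g₀ ψ
  have hφf : ∀ ψ, f (φ ψ) = f ψ := by
    intro ψ
    rw [hf, hφ]
    simp only
    rw [charDegree_conjIrr]
  have hφNon : ∀ ψ, φ ψ ∈ Non ↔ ψ ∈ Non := by
    intro ψ
    rw [hNon]
    show (φ ψ ∈ Y p M ∧ φ (φ ψ) ≠ φ ψ) ↔ (ψ ∈ Y p M ∧ φ ψ ≠ ψ)
    rw [hφY, Ne, φ.injective.eq_iff]
  have hS1 : ∃ r : ℤ, ∑ᶠ ψ ∈ Non, f ψ = (p : ℤ) * r := by
    rw [finsum_mem_def, finsum_eq_sum_of_fintype]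
    obtain ⟨r, -, hr⟩ := Cfsg.Agent.Lib.Helper75.Rotation.sum_eq_mul_of_minimalPeriod_dvd φ
      (Set.indicator Non f) (by
        intro ψ
        by_cases h : ψ ∈ Non
        · rw [Set.indicator_of_mem ((hφNon ψ).2 h), Set.indicator_of_mem h, hφf]
        · rw [Set.indicator_of_notMem (fun h' => h ((hφNon ψ).1 h')),
            Set.indicator_of_notMem h]) ⊤ (fun _ => trivial) p (by
        intro ψ hψ
        have hmem : ψ ∈ Non := by
          by_contra h
          exact hψ (Set.indicator_of_notMem h f)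
        rw [hNon] at hmem
        have h1 : Function.minimalPeriod φ ψ ∣ p := by
          apply Function.IsPeriodicPt.minimalPeriod_dvd
          show (⇑φ)^[p] ψ = ψ
          rw [Equiv.Perm.iterate_eq_pow, hφp]
          rfl
        rcases (Nat.dvd_prime hp).1 h1 with h | h
        · exfalso
          exact hmem.2 (Function.minimalPeriod_eq_one_iff_isFixedPt.mp h)
        · rw [h])
    exact ⟨r, hr⟩
  obtain ⟨e, he⟩ : ∃ e : IrrCharacter G → IrrCharacter M,
      e = fun χ : IrrCharacter G =>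
        if h : IsIrrCharacter M (fun m : M => (χ : G → ℂ) m) then
          (⟨fun m : M => (χ : G → ℂ) m, h⟩ : IrrCharacter M)
        else (⟨fun _ => 1, Ops.isIrrCharacter_one⟩ : IrrCharacter M) := ⟨_, rfl⟩
  have heY : ∀ χ ∈ Y p G, ((e χ : IrrCharacter M) : M → ℂ) = fun m : M => (χ : G → ℂ) m := by
    intro χ hχ
    rw [he]
    simp only
    rw [dif_pos (restrict_irr M hp hidx χ.1 χ.2 hχ.1)]
  have hbij : Set.BijOn e (Y p G) Inv := by
    refine ⟨?_, ?_, ?_⟩
    · intro χ hχ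
      have h1 := heY χ hχ
      have hirr : IsIrrCharacter M (fun m : M => (χ : G → ℂ) m) :=
        restrict_irr M hp hidx χ.1 χ.2 hχ.1
      rw [hInv]
      refine ⟨⟨?_, ?_⟩, ?_⟩
      · rw [h1]
        exact hχ.1
      · rw [h1]
        intro hd
        apply hχ.2
        refine hd.trans (detOrder_dvd_of_pow _ _ ?_)
        intro m
        rw [detChar_restrict M χ.2 hirr]
        exact detChar_pow_detOrder χ.1 m
      · apply Subtype.ext
        funext m
        rw [hφ, conjIrr_apply, h1]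
        show (χ : G → ℂ) ((MulAut.conjNormal g₀⁻¹ : MulAut M) m : G) = (χ : G → ℂ) m
        rw [MulAut.conjNormal_apply]
        exact IsIrrCharacter.isClassFunction χ.2 m g₀⁻¹
    · intro χ hχ χ' hχ' hee
      apply Subtype.ext
      apply eq_of_restrict_eq M hp hidx χ.1 χ'.1 χ.2 χ'.2 hχ.1 hχ.2 hχ'.2
      intro m
      have h1 := congrFun (heY χ hχ) m
      have h2 := congrFun (heY χ' hχ') m
      rw [← h1, ← h2, hee]
    · intro ψ hψ
      rw [hInv] at hψ
      obtain ⟨⟨hdeg, hdet⟩, hfix⟩ := hψ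
      rw [hφ] at hfix
      have hinv := invariant_of_fixed M hp hidx hg₀ ψ hfix
      obtain ⟨χ, hχ, hres, hdetχ⟩ :=
        exists_extension_coprime_det M hp hidx ψ.1 ψ.2 hinv hdeg hdet
      have hdegχ : charDegree χ = charDegree ψ.1 := by
        unfold charDegree
        rw [← hres 1]
        rfl
      have hχY : (⟨χ, hχ⟩ : IrrCharacter G) ∈ Y p G :=
        ⟨by show ¬ p ∣ charDegree χ; rw [hdegχ]; exact hdeg, hdetχ⟩
      refine ⟨⟨χ, hχ⟩, hχY, ?_⟩
      apply Subtype.ext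
      rw [heY _ hχY]
      funext m
      exact hres m
  have hS2 : ∑ᶠ χ ∈ Y p G, (charDegree (χ : G → ℂ) : ℤ) ^ 2 = ∑ᶠ ψ ∈ Inv, f ψ := by
    apply finsum_mem_eq_of_bijOn e hbij
    intro χ hχ
    rw [hf]
    simp only
    rw [heY χ hχ]
    rfl
  have hR : ∑ᶠ ψ ∈ Y p M, (charDegree (ψ : M → ℂ) : ℤ) ^ 2 = ∑ᶠ ψ ∈ Y p M, f ψ := by
    rw [hf]
  obtain ⟨r, hr⟩ := hS1
  rw [hS2, hR, hsplit, hr, Int.modEq_iff_dvd]
  exact ⟨r, by ring⟩

end Cfsg.Agent.Lib.Helper74.IndexPStep
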