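import Cfsg.Agent.Lib.Helper3.M24BlkStmt

set_option autoImplicit false

namespace Cfsg.Agent.Lib.Helper74.M24CNT

open Cfsg Cfsg.Agent.Lib.Helper7.GolayBase Cfsg.Agent.Lib.Helper3.M24Blk
  Cfsg.Agent.Lib.Helper3.M24InvD Cfsg.Agent.Lib.Helper3.M24BlkStmt
  Cfsg.Agent.Lib.Helper35.PermTab

/-- `pk` is injective on lists of the same length with entries `< 32` -/
theorem pk_inj : ∀ (l l' : List Nat), l.length = l'.length → (∀ x ∈ l, x < 32) →
    (∀ x ∈ l', x < 32) → pk l = pk l' → l = l'
  | [], [], _, _, _, _ => rfl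
  | [], _ :: _, h, _, _, _ => by simp at h
  | _ :: _, [], h, _, _, _ => by simp at h
  | x :: l, y :: l', h, hx, hy, hp => by
      have h1 : x < 32 := hx x (by simp)
      have h2 : y < 32 := hy y (by simp)
      have hp' : x + 32 * pk l = y + 32 * pk l' := hp
      have e1 : x = y := by omega
      have e2 : pk l = pk l' := by omega
      rw [e1, pk_inj l l' (by simpa using h) (fun z hz => hx z (by simp [hz]))
        (fun z hz => hy z (by simp [hz])) e2]

theorem tab_lt (g : Equiv.Perm GolayPt) : ∀ x ∈ tab g, x < 32 := by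
  intro x hx
  unfold tab at hx
  rw [List.mem_map] at hx
  obtain ⟨i, -, rfl⟩ := hx
  have := idx_lt (g (pt i))
  omega

theorem pkP_injective : Function.Injective pkP := by
  intro g h hgh
  apply tab_injective
  apply pk_inj _ _ (by simp [tab]) (tab_lt g) (tab_lt h) hgh

theorem nbeq {a b : ℕ} : Nat.beq a b = true ↔ a = b :=
  ⟨Nat.eq_of_beq_eq_true, fun h => h ▸ Nat.beq_refl a⟩

theorem dec_eq_some {v : ℕ} {j : Fin 7} : dec v = some j ↔ v = j.val := by
  unfold dec
  split
  · rename_i h
    constructor
    · intro h'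
      have := Option.some.inj h'
      rw [← this]
    · intro h'
      congr 1
      exact Fin.ext h'
  · rename_i h
    constructor
    · intro h'
      exact absurd h' (by simp)
    · intro h'
      exact absurd (h' ▸ j.isLt) h

/-- the abstract counting argument -/
theorem count_gen {α : Type} (pkf : α → ℕ) (hinj : Function.Injective pkf) (L : List Nat)
    (e : Nat → Nat) (Q P : α → Prop) (j : ℕ)
    (hsound : ∀ U ∈ L, ∃ u : α, Q u ∧ pkf u = U)
    (hnodup : L.Nodup)
    (hcomplete : ∀ u : α, Q u → pkf u ∈ L)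
    (hkey : ∀ u : α, Q u → (P u ↔ e (pkf u) = j)) :
    Nat.card {u : α // Q u ∧ P u} = L.countP (fun U => Nat.beq (e U) j) := by
  have hFnodup : (L.filter (fun U => Nat.beq (e U) j)).Nodup := hnodup.filter _
  rw [List.countP_eq_length_filter]
  have key : ∀ u : α, Q u →
      (P u ↔ pkf u ∈ L.filter (fun U => Nat.beq (e U) j)) := by
    intro u huu
    rw [hkey u huu, List.mem_filter, nbeq]
    exact ⟨fun h => ⟨hcomplete u huu, h⟩, fun h => h.2⟩
  let f : {u : α // Q u ∧ P u} →
      {U // U ∈ (L.filter (fun U => Nat.beq (e U) j)).toFinset} :=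
    fun u => ⟨pkf u.1, by
      rw [List.mem_toFinset]; exact (key u.1 u.2.1).mp u.2.2⟩
  have hbij : Function.Bijective f := by
    constructor
    · intro u u' huu'
      have h1 : pkf u.1 = pkf u'.1 := congrArg Subtype.val huu'
      exact Subtype.ext (hinj h1)
    · rintro ⟨U, hU⟩
      rw [List.mem_toFinset] at hU
      have hU' := hU
      rw [List.mem_filter] at hU'
      obtain ⟨u, huu, hpu⟩ := hsound U hU'.1
      refine ⟨⟨u, huu, (key u huu).mpr (by rw [hpu]; exact hU)⟩, ?_⟩
      exact Subtype.ext hpu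
  rw [Nat.card_eq_of_bijective f hbij, Nat.card_eq_fintype_card, Fintype.card_coe,
    List.toFinset_card_of_nodup hFnodup]

/-- CNT with the hypothesis `LL.Nodup` only -/
theorem count (s : G24) (j : Fin 7) (hsound : LSoundStmt) (hnodup : LL.Nodup)
    (hcomplete : LCompleteStmt) (heval : EvalSound)
    (hle : ∀ U ∈ LL, labE U (pkP (s : Equiv.Perm GolayPt)) ≤ 7) :
    Nat.card {u : G24 // u * u = 1 ∧ lab (u * s) = some j} =
      LL.countP (fun U => Nat.beq (labE U (pkP (s : Equiv.Perm GolayPt))) j.val) := by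
  have hinj : Function.Injective (fun u : G24 => pkP (u : Equiv.Perm GolayPt)) :=
    fun u u' h => Subtype.ext (pkP_injective h)
  have hkey : ∀ u : G24, (fun u : G24 => u * u = 1) u →
      ((fun u : G24 => lab (u * s) = some j) u ↔
      (fun U => labE U (pkP (s : Equiv.Perm GolayPt)))
        ((fun u : G24 => pkP (u : Equiv.Perm GolayPt)) u) = j.val) := by
    intro u huu
    have hv := hle _ (hcomplete u huu)
    have hlab := heval u s _ rfl hv
    show lab (u * s) = some j ↔ _
    rw [hlab, dec_eq_some]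
  exact count_gen (fun u : G24 => pkP (u : Equiv.Perm GolayPt)) hinj LL
    (fun U => labE U (pkP (s : Equiv.Perm GolayPt)))
    (fun u : G24 => u * u = 1) (fun u : G24 => lab (u * s) = some j) j.val hsound hnodup
    hcomplete hkey

theorem main : CountStmt := by
  intro s j hsound hnodup hcomplete heval hle
  exact count s j hsound hnodup.1 hcomplete heval hle

end Cfsg.Agent.Lib.Helper74.M24CNT
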