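import Mathlib
import Cfsg.Agent.Lib.Helper10.PUDefs

/-!
# S2772, piece FF3b: counting the orbits of an element of order `q` on `Ω₁ Z(Q)`
-/

set_option autoImplicit false

namespace Cfsg.Agent.Lib.Helper74.PUFF3b

open Pointwise Cfsg.Agent.Lib.Helper10.SWDefs Cfsg.Agent.Lib.Helper10.PUDefs

universe u

theorem conj_mem_of_nrm {H : Type u} [Group H] {G N : Subgroup H} (hN : Nrm G N)
    {g : H} (hg : g ∈ G) {w : H} (hw : w ∈ N) : g * w * g⁻¹ ∈ N := by
  have h1 : g * w * g⁻¹ ∈ MulAut.conj g • N := conj_mem_conj_smul hw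
  rwa [hN g hg] at h1

theorem main : StFF3b.{u} := by
  intro H _ _ G Q S x q h hW hC4
  obtain ⟨V₀, hV₀W, hV₀4, hV₀c⟩ := hC4
  have : Fact q.Prime := ⟨h.prime⟩
  have hq_dvd : q ∣ Nat.card G := by rw [h.cardG]; exact ⟨2 * Nat.card Q, by ring⟩
  obtain ⟨d0, hd0⟩ := exists_prime_orderOf_dvd_card' q hq_dvd
  set d : H := (d0 : H) with hd_def
  have hdG : d ∈ G := d0.2
  have hdord : orderOf d = q := by rw [hd_def, Subgroup.orderOf_coe]; exact hd0
  -- `d ∉ Q`
  have hq2 : ¬ q ∣ 2 := by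
    intro hdiv
    exact h.odd ((Nat.prime_dvd_prime_iff_eq h.prime Nat.prime_two).1 hdiv)
  have hdQ : d ∉ Q := by
    intro hdQ
    obtain ⟨k, hk⟩ := h.two ⟨d, h.hQS hdQ⟩
    have hk' : d ^ (2 ^ k) = 1 := by
      have := congrArg (Subtype.val) hk
      simpa using this
    have : q ∣ 2 ^ k := by rw [← hdord]; exact orderOf_dvd_of_pow_eq_one hk'
    exact hq2 (h.prime.dvd_of_dvd_pow this)
  -- `G` normalizes `W`
  have hNW : Nrm G (OZ Q) := by
    intro p hp
    rw [← OZ_conj, h.nrm p hp]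
  have hzG : Subgroup.zpowers d ≤ G := (Subgroup.zpowers_le).2 hdG
  -- the action
  let act : MulAction (Subgroup.zpowers d) (OZ Q) :=
    { smul := fun g w => ⟨(g : H) * (w : H) * (g : H)⁻¹, conj_mem_of_nrm hNW (hzG g.2) w.2⟩
      one_smul := fun w => Subtype.ext (by
        show ((1 : Subgroup.zpowers d) : H) * (w : H) * ((1 : Subgroup.zpowers d) : H)⁻¹ = w
        simp)
      mul_smul := fun g g' w => Subtype.ext (by
        show ((g * g' : Subgroup.zpowers d) : H) * (w : H) * ((g * g' : Subgroup.zpowers d) : H)⁻¹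
          = (g : H) * ((g' : H) * (w : H) * (g' : H)⁻¹) * (g : H)⁻¹
        simp [mul_assoc]) }
  have hsmul : ∀ (g : Subgroup.zpowers d) (w : OZ Q),
      ((g • w : OZ Q) : H) = (g : H) * (w : H) * (g : H)⁻¹ := fun g w => rfl
  have hP : IsPGroup q (Subgroup.zpowers d) := by
    apply IsPGroup.of_card (n := 1)
    rw [Nat.card_zpowers, hdord, pow_one]
  have hmod := hP.card_modEq_card_fixedPoints (OZ Q)
  -- the fixed points
  set F : Subgroup H := OZ Q ⊓ Subgroup.centralizer {d} with hF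
  have hFmem : ∀ w : H, w ∈ F ↔ w ∈ OZ Q ∧ d * w = w * d := by
    intro w
    rw [hF, Subgroup.mem_inf, Subgroup.mem_centralizer_iff]
    constructor
    · rintro ⟨h1, h2⟩
      exact ⟨h1, h2 d rfl⟩
    · rintro ⟨h1, h2⟩
      refine ⟨h1, ?_⟩
      intro y hy
      rw [Set.mem_singleton_iff] at hy
      rw [hy]; exact h2
  have hcardfix : Nat.card (MulAction.fixedPoints (Subgroup.zpowers d) (OZ Q)) = Nat.card F := by
    apply Nat.card_congr
    refine
      { toFun := fun w => ⟨(w.1 : H), (hFmem _).2 ⟨w.1.2, ?_⟩⟩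
        invFun := fun f => ⟨⟨f.1, ((hFmem _).1 f.2).1⟩, ?_⟩
        left_inv := fun w => rfl
        right_inv := fun f => rfl }
    · have h1 := w.2 ⟨d, Subgroup.mem_zpowers d⟩
      have h2 := congrArg (Subtype.val) h1
      rw [hsmul] at h2
      calc d * (w.1 : H) = d * (w.1 : H) * d⁻¹ * d := by group
        _ = (w.1 : H) * d := by rw [h2]
    · intro g
      apply Subtype.ext
      rw [hsmul]
      have h1 : d * f.1 = f.1 * d := ((hFmem _).1 f.2).2
      have h2 : ∀ y ∈ Subgroup.zpowers d, y * f.1 = f.1 * y := by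
        intro y hy
        obtain ⟨n, rfl⟩ := Subgroup.mem_zpowers_iff.1 hy
        exact ((Commute.zpow_left (show Commute d f.1 from h1) n)).eq
      show (g : H) * f.1 * (g : H)⁻¹ = f.1
      rw [h2 g g.2]; group
  rw [hcardfix] at hmod
  -- index
  have hFW : F ≤ OZ Q := inf_le_left
  have hV₀F : V₀ ≤ F := fun v hv => (hFmem v).2 ⟨hV₀W hv, hV₀c v hv d hdG⟩
  have hk4 : F.relIndex (OZ Q) ≤ 4 := by
    refine le_trans (Subgroup.relIndex_le_of_le_left hV₀F ?_) hV₀4
    exact Subgroup.index_ne_zero_of_finite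
  have hk1 : F.relIndex (OZ Q) ≠ 1 := by
    intro h1
    rw [Subgroup.relIndex_eq_one] at h1
    exact hdQ (hW d hdG (fun w hw => ((hFmem w).1 (h1 hw)).2))
  have hcard : F.relIndex (OZ Q) * Nat.card F = Nat.card (OZ Q) := by
    have h1 := Subgroup.relIndex_mul_relIndex (⊥ : Subgroup H) F (OZ Q) bot_le hFW
    rw [Subgroup.relIndex_bot_left, Subgroup.relIndex_bot_left] at h1
    rw [mul_comm]; exact h1
  have hW2 : IsPGroup 2 (OZ Q) := by
    have hle : OZ Q ≤ S := fun w hw => h.hQS hw.1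
    exact h.two.to_le hle
  have : Fact (Nat.Prime 2) := ⟨Nat.prime_two⟩
  obtain ⟨n, hn⟩ := (IsPGroup.iff_card).1 hW2
  have hkdvd : F.relIndex (OZ Q) ∣ 2 ^ n := by
    rw [← hn]; exact Dvd.intro _ hcard
  have hfdvd : Nat.card F ∣ 2 ^ n := by
    rw [← hn]; exact Dvd.intro_left _ hcard
  obtain ⟨j, hj, hkj⟩ := (Nat.dvd_prime_pow Nat.prime_two).1 hkdvd
  obtain ⟨m, hm, hfm⟩ := (Nat.dvd_prime_pow Nat.prime_two).1 hfdvd
  set k := F.relIndex (OZ Q) with hk
  set f := Nat.card F with hf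
  rw [← hcard] at hmod
  have hle : f ≤ k * f := by
    have : 1 ≤ k := by rw [hkj]; exact Nat.one_le_two_pow
    nlinarith
  have hdvd : q ∣ k * f - f := (Nat.modEq_iff_dvd' hle).1 hmod.symm
  have hkf : k * f - f = (k - 1) * f := by
    rw [Nat.sub_mul, one_mul]
  rw [hkf] at hdvd
  rcases (Nat.Prime.dvd_mul h.prime).1 hdvd with h1 | h1
  · have hj2 : j ≤ 2 := by
      by_contra hcon
      have : 2 ^ 3 ≤ 2 ^ j := Nat.pow_le_pow_right (by norm_num) (by omega)
      rw [← hkj] at this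
      omega
    have hj0 : j ≠ 0 := by
      rintro rfl
      exact hk1 (by rw [hkj]; rfl)
    have hj12 : j = 1 ∨ j = 2 := by omega
    rcases hj12 with rfl | rfl
    · rw [hkj] at h1
      have : q ∣ 1 := by simpa using h1
      exact absurd (Nat.dvd_one.1 this) h.prime.one_lt.ne'
    · rw [hkj] at h1
      have : q ∣ 3 := by simpa using h1
      exact (Nat.prime_dvd_prime_iff_eq h.prime Nat.prime_three).1 this
  · rw [hfm] at h1
    exact absurd (h.prime.dvd_of_dvd_pow h1) hq2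

end Cfsg.Agent.Lib.Helper74.PUFF3b
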