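import Cfsg.Agent.Lib.Helper46.PsuStmt
import Cfsg.Agent.Lib.Helper52.PslP7c

/-!
# S5172 piece DTOP : `DataTorusOfParts`
-/

set_option autoImplicit false

namespace Cfsg.Agent.Lib.Helper74.PsuDTOP

open Matrix Cfsg.Agent.Lib.Helper43.SUBase Cfsg.Agent.H84.PslDefs
  Cfsg.Agent.Lib.Helper46.PsuDefs Cfsg.Agent.Lib.Helper46.PsuStmt

universe u

variable {K : Type u} [Field K] [Fintype K] {q : ℕ} (D : QD K q) (n : ℕ)

instance finiteGJ : Finite ↥(GJ D n) := by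
  classical
  exact Finite.of_injective (fun g : ↥(GJ D n) => (g : SpecialLinearGroup (Fin n) K))
    Subtype.val_injective

/-- the image in `PGJ` of an element of `GJ` which conjugates `GJ ⊓ X` into `X` normalizes the
image of `GJ ⊓ X` -/
theorem prJ_mem_normalizer (X : Subgroup (SpecialLinearGroup (Fin n) K))
    (g : ↥(GJ D n))
    (h : ∀ r ∈ X, (g : SpecialLinearGroup (Fin n) K) * r * (g : SpecialLinearGroup (Fin n) K)⁻¹ ∈ X) :
    prJ D n g ∈ Subgroup.normalizer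
      ((((GJ D n ⊓ X).subgroupOf (GJ D n)).map (prJ D n) : Subgroup (PGJ D n)) : Set (PGJ D n)) := by
  apply Cfsg.Agent.Lib.Helper52.PslP7c.mem_normalizer_of_conj
  rintro _ ⟨x, hx, rfl⟩
  refine ⟨g * x * g⁻¹, ?_, by simp⟩
  have hx' : (x : SpecialLinearGroup (Fin n) K) ∈ GJ D n ⊓ X := Subgroup.mem_subgroupOf.mp hx
  refine Subgroup.mem_subgroupOf.mpr ⟨(g * x * g⁻¹).2, ?_⟩
  exact h _ hx'.2

omit [Fintype K] in
theorem orderOf_prJ (p : ℕ) [hp : Fact p.Prime] (k : ↥(GJ D n)) (e : ℕ)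
    (hk : (k : SpecialLinearGroup (Fin n) K) ^ (p ^ e) = 1) :
    ∃ e' : ℕ, orderOf (prJ D n k) = p ^ e' := by
  have h1 : (prJ D n k) ^ (p ^ e) = 1 := by
    rw [← map_pow]
    have : k ^ (p ^ e) = 1 := Subtype.ext (by simpa using hk)
    rw [this, map_one]
  obtain ⟨e', _, he'⟩ := (Nat.dvd_prime_pow hp.out).mp (orderOf_dvd_of_pow_eq_one h1)
  exact ⟨e', he'⟩

omit [Fintype K] in
/-- transfer of a closure statement from `SL` to `PGJ` -/
theorem closure_transfer (S : Set (SpecialLinearGroup (Fin n) K)) (C : Subgroup (PGJ D n))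
    (hS : ∀ g ∈ S, ∃ hg : g ∈ GJ D n, prJ D n ⟨g, hg⟩ ∈ C)
    (g : SpecialLinearGroup (Fin n) K) (hg : g ∈ Subgroup.closure S) :
    ∃ hg : g ∈ GJ D n, prJ D n ⟨g, hg⟩ ∈ C := by
  induction hg using Subgroup.closure_induction with
  | mem x hx => exact hS x hx
  | one => exact ⟨(GJ D n).one_mem, by
      have : (⟨1, (GJ D n).one_mem⟩ : ↥(GJ D n)) = 1 := rfl
      rw [this, map_one]; exact C.one_mem⟩
  | mul x y _ _ hx hy =>
      obtain ⟨hx1, hx2⟩ := hx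
      obtain ⟨hy1, hy2⟩ := hy
      refine ⟨(GJ D n).mul_mem hx1 hy1, ?_⟩
      have : (⟨x * y, (GJ D n).mul_mem hx1 hy1⟩ : ↥(GJ D n)) = ⟨x, hx1⟩ * ⟨y, hy1⟩ := rfl
      rw [this, map_mul]; exact C.mul_mem hx2 hy2
  | inv x _ hx =>
      obtain ⟨hx1, hx2⟩ := hx
      refine ⟨(GJ D n).inv_mem hx1, ?_⟩
      have : (⟨x⁻¹, (GJ D n).inv_mem hx1⟩ : ↥(GJ D n)) = (⟨x, hx1⟩ : ↥(GJ D n))⁻¹ := rfl
      rw [this, map_inv]; exact C.inv_mem hx2

theorem main : Cfsg.Agent.Lib.Helper46.PsuStmt.DataTorusOfParts.{u} := by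
  intro hDB hNL hTG hTH hTCE hTCO n K _ _ p _ _ q D hn t ht
  classical
  have hUbar : Ubar D n = ((GJ D n ⊓ Uni n K).subgroupOf (GJ D n)).map (prJ D n) := rfl
  have hQW : QWbar D n = ((GJ D n ⊓ sub n K (lamW n)).subgroupOf (GJ D n)).map (prJ D n) := rfl
  have hRC : RCbar D n = ((GJ D n ⊓ sub n K (lamC n)).subgroupOf (GJ D n)).map (prJ D n) := rfl
  -- diagonal elements normalize `Ubar`
  have hdiag : ∀ g : ↥(GJ D n), Diag n (g : SpecialLinearGroup (Fin n) K) →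
      prJ D n g ∈ Subgroup.normalizer (Ubar D n : Set (PGJ D n)) := by
    intro g hg
    rw [hUbar]
    exact prJ_mem_normalizer D n (Uni n K) g (hDB n K _ hg).1
  -- the generic step for one radical
  have hstep : ∀ (lam : Fin n → ℤ) (g : SpecialLinearGroup (Fin n) K),
      g ∈ Subgroup.closure {k : SpecialLinearGroup (Fin n) K | k ∈ GJ D n ∧
        (∀ i j : Fin n, lam i < lam j → k i j = 0) ∧ ∃ e : ℕ, k ^ (p ^ e) = 1} →
      ∃ hg : g ∈ GJ D n, prJ D n ⟨g, hg⟩ ∈ Subgroup.closure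
        {k : PGJ D n | k ∈ Subgroup.normalizer
          ((((GJ D n ⊓ sub n K lam).subgroupOf (GJ D n)).map (prJ D n) : Subgroup (PGJ D n)) :
            Set (PGJ D n)) ∧ ∃ e : ℕ, orderOf k = p ^ e} := by
    intro lam g hg
    refine closure_transfer D n _ _ ?_ g hg
    rintro k ⟨hk1, hk2, e, hk3⟩
    refine ⟨hk1, Subgroup.subset_closure ⟨?_, ?_⟩⟩
    · exact prJ_mem_normalizer D n (sub n K lam) ⟨k, hk1⟩ (hNL n K lam k hk2)
    · exact orderOf_prJ D n p ⟨k, hk1⟩ e hk3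
  have key := closure_transfer D n _
    (Subgroup.closure {h : PGJ D n | h ∈ Subgroup.normalizer (Ubar D n : Set (PGJ D n)) ∧
      ∃ R ∈ Rset D n, h ∈ Subgroup.closure {k : PGJ D n |
        k ∈ Subgroup.normalizer (R : Set (PGJ D n)) ∧ ∃ e : ℕ, orderOf k = p ^ e}}) ?_
    (t : SpecialLinearGroup (Fin n) K) (hTG n K q D hn t t.2 ht)
  · obtain ⟨ht', h⟩ := key
    exact h
  · rintro g (⟨hg1, hg2, hg3⟩ | ⟨hg1, hg2, hg3⟩)
    · refine ⟨hg1, Subgroup.subset_closure ⟨hdiag ⟨g, hg1⟩ hg2, QWbar D n, Or.inl rfl, ?_⟩⟩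
      obtain ⟨_, h⟩ := hstep (lamW n) g (hTH n K p q D hn g hg1 hg2 hg3)
      rw [hQW]; exact h
    · refine ⟨hg1, Subgroup.subset_closure ⟨hdiag ⟨g, hg1⟩ hg2, RCbar D n, Or.inr rfl, ?_⟩⟩
      have hcl : g ∈ Subgroup.closure {k : SpecialLinearGroup (Fin n) K | k ∈ GJ D n ∧
          (∀ i j : Fin n, lamC n i < lamC n j → k i j = 0) ∧ ∃ e : ℕ, k ^ (p ^ e) = 1} := by
        rcases Nat.mod_two_eq_zero_or_one n with h0 | h1
        · exact hTCE n K p q D hn h0 g hg1 hg2 hg3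
        · exact hTCO n K p q D hn h1 g hg1 hg2 hg3
      obtain ⟨_, h⟩ := hstep (lamC n) g hcl
      rw [hRC]; exact h

end Cfsg.Agent.Lib.Helper74.PsuDTOP
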