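import Cfsg.Agent.Lib.Helper46.PsuStmt

/-!
# S5172 tool : block embedding of `d × d` matrices into `n × n` matrices

For an injective `f : Fin d → Fin n`, `emb f hf A` is the matrix which is `A` on the rows and
columns `f r` and the identity elsewhere.  It is multiplicative, preserves the determinant, and
commutes with the adjoint `adjJ` when `f` commutes with `Fin.rev`.
-/

set_option autoImplicit false

namespace Cfsg.Agent.Lib.Helper74.PsuEmb

open Matrix Cfsg.Agent.Lib.Helper43.SUBase Cfsg.Agent.H84.PslDefs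
  Cfsg.Agent.Lib.Helper46.PsuDefs

universe u

variable {K : Type u} [Field K] {q : ℕ} (D : QD K q) {n d : ℕ} (f : Fin d → Fin n)
  (hf : Function.Injective f)

/-- the complementary indices -/
abbrev Rc : Type := {i : Fin n // ∀ r, f r ≠ i}

/-- the index equivalence -/
noncomputable def eqv : Fin d ⊕ Rc f ≃ Fin n :=
  Equiv.ofBijective (Sum.elim f Subtype.val) (by
    constructor
    · rintro (r | t) (s | t') h
      · exact congrArg Sum.inl (hf h)
      · exact absurd h (t'.2 r)
      · exact absurd h.symm (t.2 s)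
      · exact congrArg Sum.inr (Subtype.ext h)
    · intro i
      by_cases h : ∃ r, f r = i
      · obtain ⟨r, hr⟩ := h
        exact ⟨Sum.inl r, hr⟩
      · exact ⟨Sum.inr ⟨i, fun r hr => h ⟨r, hr⟩⟩, rfl⟩)

theorem eqv_inl (r : Fin d) : eqv f hf (Sum.inl r) = f r := rfl

theorem eqv_inr (t : Rc f) : eqv f hf (Sum.inr t) = t.1 := rfl

/-- the block embedding -/
noncomputable def emb (A : Matrix (Fin d) (Fin d) K) : Matrix (Fin n) (Fin n) K :=
  (Matrix.fromBlocks A 0 0 (1 : Matrix (Rc f) (Rc f) K)).submatrix (eqv f hf).symm (eqv f hf).symm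

theorem emb_apply (A : Matrix (Fin d) (Fin d) K) (x y : Fin d ⊕ Rc f) :
    emb f hf A (eqv f hf x) (eqv f hf y) = Matrix.fromBlocks A 0 0 1 x y := by
  simp [emb]

theorem emb_ff (A : Matrix (Fin d) (Fin d) K) (r s : Fin d) : emb f hf A (f r) (f s) = A r s :=
  emb_apply f hf A (Sum.inl r) (Sum.inl s)

theorem emb_mul (A B : Matrix (Fin d) (Fin d) K) :
    emb f hf A * emb f hf B = emb f hf (A * B) := by
  unfold emb
  rw [Matrix.submatrix_mul_equiv, Matrix.fromBlocks_multiply]
  simp

theorem emb_one : emb f hf (1 : Matrix (Fin d) (Fin d) K) = 1 := by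
  unfold emb
  rw [Matrix.fromBlocks_one, Matrix.submatrix_one_equiv]

theorem emb_pow (A : Matrix (Fin d) (Fin d) K) (k : ℕ) : emb f hf A ^ k = emb f hf (A ^ k) := by
  induction k with
  | zero => rw [pow_zero, pow_zero, emb_one]
  | succ k ih => rw [pow_succ, pow_succ, ih, emb_mul]

theorem det_emb (A : Matrix (Fin d) (Fin d) K) : (emb f hf A).det = A.det := by
  unfold emb
  rw [Matrix.det_submatrix_equiv_self, Matrix.det_fromBlocks_zero₂₁, Matrix.det_one, mul_one]

theorem emb_injective : Function.Injective (emb (K := K) f hf) := by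
  intro A B h
  ext r s
  rw [← emb_ff f hf A, ← emb_ff f hf B, h]

/-- compatibility with the adjoint -/
theorem adjJ_emb (hrev : ∀ r, Fin.rev (f r) = f (Fin.rev r)) (A : Matrix (Fin d) (Fin d) K) :
    adjJ D n (emb f hf A) = emb f hf (adjJ D d A) := by
  have hrc : ∀ t : Rc f, ∀ r, f r ≠ Fin.rev t.1 := by
    intro t r h
    apply t.2 (Fin.rev r)
    rw [← hrev, h, Fin.rev_rev]
  have e1 : ∀ r : Fin d, Fin.rev (eqv f hf (Sum.inl r)) = eqv f hf (Sum.inl (Fin.rev r)) :=
    fun r => hrev r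
  have e2 : ∀ t : Rc f, Fin.rev (eqv f hf (Sum.inr t)) =
      eqv f hf (Sum.inr ⟨Fin.rev t.1, hrc t⟩) := fun t => rfl
  ext i j
  obtain ⟨x, rfl⟩ := (eqv f hf).surjective i
  obtain ⟨y, rfl⟩ := (eqv f hf).surjective j
  rw [adjJ_apply, emb_apply]
  rcases x with r | t <;> rcases y with s | t'
  · rw [e1, e1, emb_apply]
    simp
  · rw [e1, e2, emb_apply]
    simp
  · rw [e2, e1, emb_apply]
    simp
  · rw [e2, e2, emb_apply]
    simp only [Matrix.fromBlocks_apply₂₂, Matrix.one_apply]
    by_cases h : t = t'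
    · subst h
      simp
    · have h' : ¬ ((⟨Fin.rev t'.1, hrc t'⟩ : Rc f) = ⟨Fin.rev t.1, hrc t⟩) := by
        intro h'
        apply h
        have := congrArg Subtype.val h'
        simp only [Fin.rev_inj] at this
        exact Subtype.ext this.symm
      rw [if_neg h, if_neg h', map_zero]

/-- the embedded matrix as an element of `SL_n` -/
noncomputable def mkSL (A : Matrix (Fin d) (Fin d) K) (hA : A.det = 1) :
    SpecialLinearGroup (Fin n) K :=
  ⟨emb f hf A, by rw [det_emb]; exact hA⟩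

theorem coe_mkSL (A : Matrix (Fin d) (Fin d) K) (hA : A.det = 1) :
    ((mkSL f hf A hA : SpecialLinearGroup (Fin n) K) : Matrix (Fin n) (Fin n) K) = emb f hf A :=
  rfl

theorem mkSL_mem_GJ (hrev : ∀ r, Fin.rev (f r) = f (Fin.rev r)) (A : Matrix (Fin d) (Fin d) K)
    (hA : A.det = 1) (hu : adjJ D d A * A = 1) : mkSL f hf A hA ∈ GJ D n := by
  rw [mem_GJ, coe_mkSL, adjJ_emb D f hf hrev, emb_mul, hu, emb_one]

theorem mkSL_pow (A : Matrix (Fin d) (Fin d) K) (hA : A.det = 1) (k : ℕ) (hk : A ^ k = 1) :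
    mkSL f hf A hA ^ k = 1 := by
  apply Subtype.ext
  rw [Matrix.SpecialLinearGroup.coe_pow, coe_mkSL, emb_pow, hk, emb_one]
  rfl

/-- entries off the block -/
theorem emb_off (A : Matrix (Fin d) (Fin d) K) (i j : Fin n)
    (h : ¬ ((∃ r, f r = i) ∧ ∃ s, f s = j)) : emb f hf A i j = if i = j then 1 else 0 := by
  obtain ⟨x, rfl⟩ := (eqv f hf).surjective i
  obtain ⟨y, rfl⟩ := (eqv f hf).surjective j
  rw [emb_apply]
  rcases x with r | t <;> rcases y with s | t'
  · exact absurd ⟨⟨r, rfl⟩, ⟨s, rfl⟩⟩ h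
  · have : eqv f hf (Sum.inl r) ≠ eqv f hf (Sum.inr t') := fun h' => by
      have := (eqv f hf).injective h'
      simp at this
    rw [if_neg this]; rfl
  · have : eqv f hf (Sum.inr t) ≠ eqv f hf (Sum.inl s) := fun h' => by
      have := (eqv f hf).injective h'
      simp at this
    rw [if_neg this]; rfl
  · simp only [Matrix.fromBlocks_apply₂₂, Matrix.one_apply, EmbeddingLike.apply_eq_iff_eq,
      Sum.inr.injEq]

end Cfsg.Agent.Lib.Helper74.PsuEmb
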