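import Cfsg.Agent.Lib.Helper46.PsuStmt
import Cfsg.Agent.Lib.Helper74.PsuEmb

/-!
# S5172 piece TCO : `TorCOdd`

For `n` odd, a diagonal element of `GJ` supported on the central `3 × 3` block is a product of
six unipotent elements of the `SU_3` of that block.
-/

set_option autoImplicit false

namespace Cfsg.Agent.Lib.Helper74.PsuTCO

open Matrix Cfsg.Agent.Lib.Helper43.SUBase Cfsg.Agent.H84.PslDefs
  Cfsg.Agent.Lib.Helper46.PsuDefs Cfsg.Agent.Lib.Helper46.PsuStmt Cfsg.Agent.Lib.Helper74.PsuEmb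

universe u

section three

variable {K : Type u} [Field K]

/-- upper unitriangular -/
def U (a a' b : K) : Matrix (Fin 3) (Fin 3) K := !![1, a, b; 0, 1, -a'; 0, 0, 1]

/-- lower unitriangular -/
def V (c c' d : K) : Matrix (Fin 3) (Fin 3) K := !![1, 0, 0; c, 1, 0; d, -c', 1]

theorem det_U (a a' b : K) : (U a a' b).det = 1 := by
  simp [U, Matrix.det_fin_three]

theorem det_V (c c' d : K) : (V c c' d).det = 1 := by
  simp [V, Matrix.det_fin_three]

theorem nil_U (a a' b : K) : (U a a' b - 1) ^ 3 = 0 := by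
  ext i j
  fin_cases i <;> fin_cases j <;>
    simp [U, pow_succ, Matrix.mul_apply, Fin.sum_univ_three, Matrix.one_apply]

theorem nil_V (c c' d : K) : (V c c' d - 1) ^ 3 = 0 := by
  ext i j
  fin_cases i <;> fin_cases j <;>
    simp [V, pow_succ, Matrix.mul_apply, Fin.sum_univ_three, Matrix.one_apply]

theorem pow_eq_one_of_nil (p : ℕ) [hp : Fact p.Prime] [CharP K p] (A : Matrix (Fin 3) (Fin 3) K)
    (hN : (A - 1) ^ 3 = 0) : A ^ p ^ 2 = 1 := by
  have h1 : A = 1 + (A - 1) := by abel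
  have h3 : 3 ≤ p ^ 2 := by
    have := hp.out.two_le
    nlinarith
  rw [h1, add_pow_char_pow_of_commute _ _ (Commute.one_left _), one_pow,
    pow_eq_zero_of_le h3 hN, add_zero]

theorem key3 (A A' B B' : K) (hB : B ≠ 0) (hB' : B' ≠ 0) (h : B + B' + A * A' = 0) :
    U A A' B * V (A' / B') (A / B) (1 / B') * U (A * B' / B) (A' * B / B') B =
      !![0, 0, B; 0, -B' / B, 0; 1 / B', 0, 0] := by
  ext i j
  fin_cases i <;> fin_cases j <;>
    simp [U, V, Matrix.mul_apply, Fin.sum_univ_three] <;> field_simp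
  all_goals first | ring1 | linear_combination h | linear_combination A * h |
    linear_combination B * h | linear_combination -A' * h

theorem key0 (b0 : K) (hb0 : b0 ≠ 0) :
    U 0 0 b0 * V 0 0 (-1 / b0) * U 0 0 b0 = !![0, 0, b0; 0, 1, 0; -1 / b0, 0, 0] := by
  ext i j
  fin_cases i <;> fin_cases j <;>
    simp [U, V, Matrix.mul_apply, Fin.sum_univ_three]
  all_goals first | (field_simp; done) | (field_simp; ring1) | (field_simp; simp)

theorem key4 (d : Fin 3 → K) (B B' b0 : K) (e02 : B = d 0 * b0) (e11 : -B' / B = d 1)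
    (e20 : 1 / B' = d 2 * (-1 / b0)) :
    !![0, 0, B; 0, -B' / B, 0; 1 / B', 0, 0] =
      Matrix.diagonal d * !![0, 0, b0; 0, 1, 0; -1 / b0, 0, 0] := by
  rw [e11, e20, e02]
  ext i j
  fin_cases i <;> fin_cases j <;>
    simp [Matrix.mul_apply, Matrix.diagonal_apply]

variable {q : ℕ} (D : QD K q)

theorem unitU (a b : K) (h : b + D.φ b + a * D.φ a = 0) :
    adjJ D 3 (U a (D.φ a) b) * U a (D.φ a) b = 1 := by
  have e : adjJ D 3 (U a (D.φ a) b) = !![1, -a, D.φ b; 0, 1, D.φ a; 0, 0, 1] := by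
    ext i j
    fin_cases i <;> fin_cases j <;> simp [adjJ, U, D.inv, Fin.rev]
  rw [e]
  ext i j
  fin_cases i <;> fin_cases j <;>
    simp [U, Matrix.mul_apply, Fin.sum_univ_three]
  linear_combination h

theorem unitV (c d : K) (h : d + D.φ d + c * D.φ c = 0) :
    adjJ D 3 (V c (D.φ c) d) * V c (D.φ c) d = 1 := by
  have e : adjJ D 3 (V c (D.φ c) d) = !![1, 0, 0; -c, 1, 0; D.φ d, D.φ c, 1] := by
    ext i j
    fin_cases i <;> fin_cases j <;> simp [adjJ, V, D.inv, Fin.rev]
  rw [e]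
  ext i j
  fin_cases i <;> fin_cases j <;>
    simp [V, Matrix.mul_apply, Fin.sum_univ_three]
  linear_combination h

end three

theorem main : Cfsg.Agent.Lib.Helper46.PsuStmt.TorCOdd.{u} := by
  intro n K _ _ p _ _ q D hn hodd a ha hdiag htor
  classical
  -- the central block
  let f : Fin 3 → Fin n := fun r => ⟨n / 2 - 1 + r.val, by have := r.isLt; omega⟩
  have hf : Function.Injective f := by
    intro r s h
    have h1 := congrArg Fin.val h
    simp only [f] at h1
    exact Fin.ext (by omega)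
  have hrev : ∀ r, Fin.rev (f r) = f (Fin.rev r) := by
    intro r
    have := r.isLt
    apply Fin.ext
    simp only [Fin.val_rev, f]
    omega
  have hlam : ∀ r : Fin 3, lamC n (f r) = -((n / 2 : ℕ) : ℤ) + 1 := by
    intro r
    have := r.isLt
    simp only [lamC, f]
    split_ifs <;> omega
  have htri : ∀ (A : Matrix (Fin 3) (Fin 3) K) (i j : Fin n), lamC n i < lamC n j →
      emb f hf A i j = 0 := by
    intro A i j hlt
    by_cases hc : (∃ r, f r = i) ∧ ∃ s, f s = j
    · obtain ⟨⟨r, rfl⟩, ⟨s, rfl⟩⟩ := hc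
      rw [hlam r, hlam s] at hlt
      exact absurd hlt (lt_irrefl _)
    · rw [emb_off f hf A i j hc, if_neg]
      rintro rfl
      exact lt_irrefl _ hlt
  have hgen : ∀ (A : Matrix (Fin 3) (Fin 3) K) (hA : A.det = 1), adjJ D 3 A * A = 1 →
      (A - 1) ^ 3 = 0 → mkSL f hf A hA ∈ {k : SpecialLinearGroup (Fin n) K | k ∈ GJ D n ∧
        (∀ i j : Fin n, lamC n i < lamC n j → k i j = 0) ∧ ∃ e : ℕ, k ^ (p ^ e) = 1} := by
    intro A hA hu hN
    exact ⟨mkSL_mem_GJ D f hf hrev A hA hu, fun i j hlt => htri A i j hlt, 2,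
      mkSL_pow f hf A hA _ (pow_eq_one_of_nil p A hN)⟩
  -- the diagonal entries
  let d : Fin 3 → K := fun r => a (f r) (f r)
  have hcoe : (a : Matrix (Fin n) (Fin n) K) = emb f hf (Matrix.diagonal d) := by
    ext i j
    by_cases hc : (∃ r, f r = i) ∧ ∃ s, f s = j
    · obtain ⟨⟨r, rfl⟩, ⟨s, rfl⟩⟩ := hc
      rw [emb_ff]
      by_cases hrs : r = s
      · subst hrs
        rw [Matrix.diagonal_apply_eq]
      · rw [Matrix.diagonal_apply_ne _ hrs]
        exact hdiag _ _ (fun h => hrs (hf h))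
    · rw [emb_off f hf _ i j hc]
      by_cases hij : i = j
      · subst hij
        rw [if_pos rfl]
        have hni : ¬ ∃ r, f r = i := fun h => hc ⟨h, h⟩
        apply htor
        by_contra hcon
        push Not at hcon
        apply hni
        refine ⟨⟨i.val - (n / 2 - 1), by omega⟩, Fin.ext ?_⟩
        simp only [f]
        omega
      · rw [if_neg hij]
        exact hdiag i j hij
  have hu : adjJ D 3 (Matrix.diagonal d) * Matrix.diagonal d = 1 := by
    apply emb_injective f hf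
    rw [← emb_mul, ← adjJ_emb D f hf hrev, ← hcoe, emb_one]
    exact ha
  have hdet : (Matrix.diagonal d).det = 1 := by
    rw [← det_emb f hf, ← hcoe]
    exact a.2
  have r2 : D.φ (d 0) * d 2 = 1 := by
    have := congrFun (congrFun hu 2) 2
    simpa [Matrix.mul_apply, Fin.sum_univ_three, adjJ, Fin.rev] using this
  have r3 : d 0 * d 1 * d 2 = 1 := by
    rw [Matrix.det_diagonal, Fin.prod_univ_three] at hdet
    exact hdet
  have hd0 : d 0 ≠ 0 := by
    intro h0
    rw [h0] at r3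
    simp at r3
  have hd2 : d 2 ≠ 0 := by
    intro h0
    rw [h0] at r3
    simp at r3
  have hφd0 : D.φ (d 0) ≠ 0 := by
    intro h0
    rw [h0] at r2
    simp at r2
  obtain ⟨b0, hb0, hsk⟩ := D.exists_skew
  obtain ⟨B, hBdef⟩ : ∃ B : K, B = d 0 * b0 := ⟨_, rfl⟩
  have hB : B ≠ 0 := by rw [hBdef]; exact mul_ne_zero hd0 hb0
  have hφB : D.φ B = -(D.φ (d 0) * b0) := by
    rw [hBdef, map_mul, hsk]; ring
  have hφB0 : D.φ B ≠ 0 := by
    rw [hφB]; exact neg_ne_zero.mpr (mul_ne_zero hφd0 hb0)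
  obtain ⟨A, hA⟩ := D.nm (-(B + D.φ B)) (by rw [map_neg, map_add, D.inv]; ring)
  -- the six matrices
  have e1 : D.φ (D.φ A / D.φ B) = A / B := by rw [map_div₀, D.inv, D.inv]
  have e2 : D.φ (A * D.φ B / B) = D.φ A * B / D.φ B := by rw [map_div₀, map_mul, D.inv]
  have e3 : D.φ (1 / D.φ B) = 1 / B := by rw [map_div₀, map_one, D.inv]
  have e4 : D.φ (-1 / b0) = 1 / b0 := by
    rw [map_div₀, map_neg, map_one, hsk]
    field_simp
  have u1 := unitU D A B (by linear_combination hA)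
  have u2 := unitV D (D.φ A / D.φ B) (1 / D.φ B) (by
    rw [e1, e3]
    field_simp
    linear_combination hA)
  have u3 := unitU D (A * D.φ B / B) B (by
    rw [e2]
    field_simp
    linear_combination hA)
  have u4 := unitU D 0 b0 (by rw [hsk]; simp)
  have u5 := unitV D 0 (-1 / b0) (by rw [e4]; field_simp; ring)
  have s1 := hgen _ (det_U _ _ _) u1 (nil_U _ _ _)
  have s2 := hgen _ (det_V _ _ _) u2 (nil_V _ _ _)
  have s3 := hgen _ (det_U _ _ _) u3 (nil_U _ _ _)
  have s4 := hgen _ (det_U _ _ _) u4 (nil_U _ _ _)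
  have s5 := hgen _ (det_V _ _ _) u5 (nil_V _ _ _)
  -- the identity
  have hid : U A (D.φ A) B * V (D.φ A / D.φ B) (D.φ (D.φ A / D.φ B)) (1 / D.φ B) *
      U (A * D.φ B / B) (D.φ (A * D.φ B / B)) B =
      Matrix.diagonal d * (U 0 (D.φ 0) b0 * V 0 (D.φ 0) (-1 / b0) * U 0 (D.φ 0) b0) := by
    rw [e1, e2, map_zero, key3 A (D.φ A) B (D.φ B) hB hφB0 (by linear_combination hA),
      key0 b0 hb0]
    refine key4 d B (D.φ B) b0 hBdef ?_ ?_
    · rw [hφB, hBdef]
      field_simp
      linear_combination (d 0) * (d 1) * r2 - (D.φ (d 0)) * r3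
    · rw [hφB]
      field_simp
      linear_combination r2
  have hprod : a * (mkSL f hf _ (det_U 0 (D.φ 0) b0) * mkSL f hf _ (det_V 0 (D.φ 0) (-1 / b0)) *
      mkSL f hf _ (det_U 0 (D.φ 0) b0)) =
      mkSL f hf _ (det_U A (D.φ A) B) *
        mkSL f hf _ (det_V (D.φ A / D.φ B) (D.φ (D.φ A / D.φ B)) (1 / D.φ B)) *
        mkSL f hf _ (det_U (A * D.φ B / B) (D.φ (A * D.φ B / B)) B) := by
    apply Subtype.ext
    simp only [Matrix.SpecialLinearGroup.coe_mul, coe_mkSL]
    rw [hcoe]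
    simp only [emb_mul]
    rw [hid]
  rw [eq_mul_inv_of_mul_eq hprod]
  exact Subgroup.mul_mem _ (Subgroup.mul_mem _ (Subgroup.mul_mem _ (Subgroup.subset_closure s1)
    (Subgroup.subset_closure s2)) (Subgroup.subset_closure s3))
    (Subgroup.inv_mem _ (Subgroup.mul_mem _ (Subgroup.mul_mem _ (Subgroup.subset_closure s4)
    (Subgroup.subset_closure s5)) (Subgroup.subset_closure s4)))

end Cfsg.Agent.Lib.Helper74.PsuTCO
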