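import Mathlib
import Cfsg.Prelude.Def_Characters
import Cfsg.Agent.Lib.Helper74.BLCore
import Cfsg.Agent.S0187

/-!
Values of an irreducible character of degree `|C| - 1` on a self-centralizing abelian
trivial intersection subgroup `C` with `|N : C| ≥ 2`: the character takes the value `-1` on the
nonidentity elements of `C`.
-/

set_option autoImplicit false
set_option linter.unusedSectionVars false
set_option linter.unusedVariables false

namespace Cfsg.Agent.Lib.Helper74.SCChar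

open Cfsg Cfsg.Agent.Lib.CT Cfsg.Agent.Lib.CT.Wedderburn
open Cfsg.Agent.Lib.Helper26 Cfsg.Agent.Lib.Helper74.BLCore
open scoped ComplexConjugate

universe u

variable {G : Type u} [Group G]

/-- Two coefficients of a generalized character are bounded by its norm. -/
theorem sq_add_sq_le [Fintype G] {Θ : G → ℂ} (hΘ : IsGeneralizedCharacter G Θ) {χ₁ χ₂ : G → ℂ}
    (h₁ : IsIrrCharacter G χ₁) (h₂ : IsIrrCharacter G χ₂) (hne : χ₁ ≠ χ₂) (n₁ n₂ k : ℤ)
    (e₁ : classInner Θ χ₁ = n₁) (e₂ : classInner Θ χ₂ = n₂) (hk : classInner Θ Θ = k) :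
    n₁ * n₁ + n₂ * n₂ ≤ k := by
  classical
  have := finite_irrCharacter G
  have : Fintype (IrrCharacter G) := Fintype.ofFinite _
  obtain ⟨c, hc, hexp⟩ := GenChar.exists_int_mult hΘ
  have hsq := GenChar.classInner_self_eq_sum_sq c hc hexp
  rw [hk] at hsq
  have hk' : k = ∑ ψ : IrrCharacter G, c ψ * c ψ := by exact_mod_cast hsq
  have c1 : c ⟨χ₁, h₁⟩ = n₁ := by
    have : (n₁ : ℂ) = c ⟨χ₁, h₁⟩ := e₁.symm.trans (hc ⟨χ₁, h₁⟩)
    exact_mod_cast this.symm
  have c2 : c ⟨χ₂, h₂⟩ = n₂ := by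
    have : (n₂ : ℂ) = c ⟨χ₂, h₂⟩ := e₂.symm.trans (hc ⟨χ₂, h₂⟩)
    exact_mod_cast this.symm
  have hne' : (⟨χ₁, h₁⟩ : IrrCharacter G) ≠ ⟨χ₂, h₂⟩ := fun e => hne (congrArg Subtype.val e)
  rw [hk', ← c1, ← c2, ← Finset.sum_pair (f := fun ψ => c ψ * c ψ) hne']
  exact Finset.sum_le_sum_of_subset_of_nonneg (Finset.subset_univ _)
    (fun ψ _ _ => mul_self_nonneg _)

/-- A coefficient of a generalized character is bounded by its norm. -/
theorem sq_le [Fintype G] {Θ : G → ℂ} (hΘ : IsGeneralizedCharacter G Θ) {χ₁ : G → ℂ}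
    (h₁ : IsIrrCharacter G χ₁) (n₁ k : ℤ)
    (e₁ : classInner Θ χ₁ = n₁) (hk : classInner Θ Θ = k) :
    n₁ * n₁ ≤ k := by
  classical
  have := finite_irrCharacter G
  have : Fintype (IrrCharacter G) := Fintype.ofFinite _
  obtain ⟨c, hc, hexp⟩ := GenChar.exists_int_mult hΘ
  have hsq := GenChar.classInner_self_eq_sum_sq c hc hexp
  rw [hk] at hsq
  have hk' : k = ∑ ψ : IrrCharacter G, c ψ * c ψ := by exact_mod_cast hsq
  have c1 : c ⟨χ₁, h₁⟩ = n₁ := by
    have : (n₁ : ℂ) = c ⟨χ₁, h₁⟩ := e₁.symm.trans (hc ⟨χ₁, h₁⟩)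
    exact_mod_cast this.symm
  rw [hk', ← c1]
  exact Finset.single_le_sum (f := fun ψ => c ψ * c ψ) (fun ψ _ => mul_self_nonneg _)
    (Finset.mem_univ _)

variable {C N Z : Subgroup G} {reg : C → Prop}

theorem norm_ind_sub [Fintype G] [Fintype C] [Fintype N] (h : Hyp C N Z reg) {ψ ψ' : C → ℂ}
    (hψ : IsIrrCharacter C ψ) (hψ' : IsIrrCharacter C ψ') (hst : StabC h ψ) (hst' : StabC h ψ')
    (hv : ∀ c, reg c → ψ c = ψ' c) (hnc : ∀ y : N, cj h y ψ' ≠ ψ)
    (hnc' : ∀ y : N, cj h y ψ ≠ ψ') :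
    classInner (indFun C (ψ - ψ')) (indFun C (ψ - ψ')) = 2 := by
  rw [inner_ind_ind h _ _ (fun c hc => by rw [Pi.sub_apply, hv c hc, sub_self]), orb_sub,
    GenChar.classInner_sub_right, Orth.classInner_sub_left, Orth.classInner_sub_left,
    inner_orb_self h hψ hst, inner_orb_self h hψ' hst', inner_orb_eq_zero h hψ hψ' hnc,
    inner_orb_eq_zero h hψ' hψ hnc']
  norm_num

theorem norm_ind_one_sub [Fintype G] [Fintype C] [Fintype N] (h : Hyp C N Z reg) {ψ : C → ℂ}
    (hψ : IsIrrCharacter C ψ) (hne : ψ ≠ fun _ => 1) (hst : StabC h ψ)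
    (hv : ∀ c, reg c → ψ c = 1) (E : ℕ) (hE : Nat.card N = Nat.card C * E) :
    classInner (indFun C ((fun _ => 1) - ψ)) (indFun C ((fun _ => 1) - ψ)) = (E : ℂ) + 1 := by
  have hC0 : (Nat.card C : ℂ) ≠ 0 := Nat.cast_ne_zero.mpr Nat.card_pos.ne'
  have h1 : IsIrrCharacter C (fun _ => (1 : ℂ)) := Ops.isIrrCharacter_one
  have t1 : classInner (fun _ : C => (1 : ℂ)) (orb h (fun _ => 1)) = E := by
    rw [inner_orb_right]
    have : ∀ y : N, classInner (fun _ : C => (1 : ℂ)) (cj h y (fun _ => 1)) = 1 := by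
      intro y
      exact Coherence.irr_inner_self h1
    rw [Finset.sum_congr rfl (fun y _ => this y), Finset.sum_const, Finset.card_univ,
      ← Nat.card_eq_fintype_card, hE, nsmul_eq_mul, mul_one]
    push_cast
    field_simp
  have t2 : classInner ψ (orb h (fun _ => 1)) = 0 :=
    inner_orb_eq_zero h hψ h1 (fun y e => hne e.symm)
  have t3 : classInner (fun _ : C => (1 : ℂ)) (orb h ψ) = 0 := by
    apply inner_orb_eq_zero h h1 hψ
    intro y e
    apply hne
    rw [← cj_inv_cj h y ψ, e]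
    rfl
  rw [inner_ind_ind h _ _ (fun c hc => by rw [Pi.sub_apply, hv c hc, sub_self]), orb_sub,
    GenChar.classInner_sub_right, Orth.classInner_sub_left, Orth.classInner_sub_left,
    inner_orb_self h hψ hst, t1, t2, t3]
  ring

/-- **Values on a self-centralizing TI subgroup**: an irreducible character of degree `|C| - 1`
takes the value `-1` on the nonidentity elements of `C` when `|N : C| ≥ 2`. -/
theorem ti_values [Fintype G] [Fintype C] [Fintype N] [Finite Z] (h : Hyp C N Z reg)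
    (hCZ : ∀ c : C, (c : G) ∈ Z) (hreg : ∀ c : C, reg c → c = 1)
    {χ : G → ℂ} (hχ : IsIrrCharacter G χ) (hχ1 : χ 1 ≠ 1)
    (hdeg : χ 1 + 1 = (Nat.card C : ℂ)) (he : 2 * Nat.card C ≤ Nat.card N) :
    ∀ c : C, c ≠ 1 → χ (c : G) = -1 := by
  classical
  have := finite_irrCharacter C
  have : Fintype (IrrCharacter C) := Fintype.ofFinite _
  have hcomm : ∀ a b : C, a * b = b * a := fun a b => Subtype.ext (h.cent a (hCZ a) b b.2)
  have hlin : ∀ ψ : IrrCharacter C, (ψ : C → ℂ) 1 = 1 := Cfsg.Agent.S0187.result.mp hcomm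
  obtain ⟨E, hE⟩ : Nat.card C ∣ Nat.card N := Subgroup.card_dvd_of_le h.hCN
  have hCpos : 0 < Nat.card C := Nat.card_pos
  have hE2 : 2 ≤ E := by
    by_contra hlt
    have h1 : E ≤ 1 := by omega
    have h2 : Nat.card C * E ≤ Nat.card C * 1 := Nat.mul_le_mul_left _ h1
    omega
  obtain ⟨triv, htriv⟩ : ∃ triv : IrrCharacter C, (triv : C → ℂ) = fun _ => 1 :=
    ⟨⟨_, Ops.isIrrCharacter_one⟩, rfl⟩
  have hχc := isCharacter_of_irr hχ
  have hχcf := char_isClassFunction hχc
  obtain ⟨m, hm, hexp⟩ := NormOne.exists_mult_sum (Ops.isCharacter_restrict C hχc)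
  have hval : ∀ c : C, χ c = ∑ ψ : IrrCharacter C, (m ψ : ℂ) * (ψ : C → ℂ) c := by
    intro c
    have := congrFun hexp c
    rw [Finset.sum_apply] at this
    simpa using this
  have hcard : Fintype.card (IrrCharacter C) = Nat.card C := by
    have h1 := Orth.sum_apply_one_sq_sum (G := C)
    have h2 : ∑ ψ : IrrCharacter C, (ψ : C → ℂ) 1 ^ 2 = (Fintype.card (IrrCharacter C) : ℂ) := by
      rw [Finset.sum_congr rfl (fun ψ _ => by rw [hlin ψ, one_pow])]
      simp
    rw [h2] at h1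
    exact_mod_cast h1
  have hsum : ∑ ψ : IrrCharacter C, m ψ + 1 = Nat.card C := by
    have h1 : χ 1 = ∑ ψ : IrrCharacter C, (m ψ : ℂ) := by
      have := hval 1
      rw [OneMemClass.coe_one] at this
      rw [this]
      exact Finset.sum_congr rfl (fun ψ _ => by rw [hlin ψ, mul_one])
    have h2 : ((∑ ψ : IrrCharacter C, m ψ + 1 : ℕ) : ℂ) = (Nat.card C : ℂ) := by
      push_cast
      rw [← hdeg, h1]
    exact_mod_cast h2
  have hne1 : ∀ ψ : IrrCharacter C, ψ ≠ triv → (ψ : C → ℂ) ≠ fun _ => 1 := by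
    intro ψ hψ e
    exact hψ (Subtype.ext (e.trans htriv.symm))
  have hstab : ∀ ψ : IrrCharacter C, ψ ≠ triv → StabC h (ψ : C → ℂ) := by
    intro ψ hψ
    obtain ⟨ν, hν⟩ := exists_cc h ψ.2
    refine stabC_of_cc h ψ.2 hν ?_
    rintro rfl
    apply hne1 ψ hψ
    funext c
    have := hν ⟨c, hCZ c⟩ 1
    rw [mul_one] at this
    have e : incl h ⟨(c : G), hCZ c⟩ = c := Subtype.ext rfl
    rw [e, hlin ψ] at this
    simpa using this
  have hregv : ∀ (ψ : IrrCharacter C) (c : C), reg c → (ψ : C → ℂ) c = 1 := by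
    intro ψ c hc
    rw [hreg c hc]
    exact hlin ψ
  have hχne : (fun _ : G => (1 : ℂ)) ≠ χ := fun e => hχ1 (congrFun e 1).symm
  have hmt : classInner (fun c : C => χ c) (fun _ => (1 : ℂ)) = m triv := by
    rw [← htriv]
    exact hm triv
  have hF3 : ∀ ψ : IrrCharacter C, ψ ≠ triv →
      ((m triv : ℤ) - m ψ) * ((m triv : ℤ) - m ψ) ≤ E := by
    intro ψ hψ
    obtain ⟨β, hβ⟩ : ∃ β : C → ℂ, β = (fun _ => 1) - (ψ : C → ℂ) := ⟨_, rfl⟩
    have hgen : IsGeneralizedCharacter G (indFun C β) := by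
      refine ⟨indFun C (fun _ => 1), indFun C (ψ : C → ℂ),
        IndChar.isCharacter_indFun C _ Ops.isCharacter_one,
        IndChar.isCharacter_indFun C _ (isCharacter_of_irr ψ.2), ?_⟩
      rw [hβ, FrobRec.indFun_sub]
    have hi1 : classInner (indFun C β) (fun _ : G => (1 : ℂ)) = ((1 : ℤ) : ℂ) := by
      rw [FrobRec.frobenius_reciprocity C β _ (char_isClassFunction Ops.isCharacter_one), hβ,
        Orth.classInner_sub_left, Coherence.irr_inner_self Ops.isIrrCharacter_one,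
        Coherence.irr_inner_ne ψ.2 Ops.isIrrCharacter_one (hne1 ψ hψ)]
      norm_num
    have hi2 : classInner (indFun C β) χ = (((m triv : ℤ) - m ψ : ℤ) : ℂ) := by
      rw [FrobRec.frobenius_reciprocity C β _ hχcf, hβ, Orth.classInner_sub_left,
        Clifford.classInner_conj_symm, hmt, Clifford.classInner_conj_symm (ψ : C → ℂ), hm ψ]
      simp
    have hnorm : classInner (indFun C β) (indFun C β) = (((E : ℤ) + 1 : ℤ) : ℂ) := by
      rw [hβ, norm_ind_one_sub h ψ.2 (hne1 ψ hψ) (hstab ψ hψ) (hregv ψ) E hE]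
      push_cast
      ring
    have := sq_add_sq_le hgen Ops.isIrrCharacter_one hχ hχne 1 _ _ hi1 hi2 hnorm
    linarith
  have hF4 : ∀ ψ ψ' : IrrCharacter C, ψ ≠ triv → ψ' ≠ triv → (m ψ : ℤ) - m ψ' ≤ 1 := by
    intro ψ ψ' hψ hψ'
    by_cases hconj : ∃ y : N, cj h y (ψ' : C → ℂ) = (ψ : C → ℂ)
    · obtain ⟨y, hy⟩ := hconj
      have h1 : (m ψ : ℂ) = m ψ' := by
        rw [← hm ψ, ← hm ψ', ← hy, inner_restrict_cj h hχcf]
      have h2 : m ψ = m ψ' := by exact_mod_cast h1
      omega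
    · push Not at hconj
      have hconj' : ∀ y : N, cj h y (ψ : C → ℂ) ≠ (ψ' : C → ℂ) := by
        intro y e
        apply hconj y⁻¹
        rw [← e, cj_inv_cj]
      obtain ⟨β, hβ⟩ : ∃ β : C → ℂ, β = (ψ : C → ℂ) - (ψ' : C → ℂ) := ⟨_, rfl⟩
      have hgen : IsGeneralizedCharacter G (indFun C β) := by
        refine ⟨indFun C (ψ : C → ℂ), indFun C (ψ' : C → ℂ),
          IndChar.isCharacter_indFun C _ (isCharacter_of_irr ψ.2),
          IndChar.isCharacter_indFun C _ (isCharacter_of_irr ψ'.2), ?_⟩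
        rw [hβ, FrobRec.indFun_sub]
      have hi2 : classInner (indFun C β) χ = (((m ψ : ℤ) - m ψ' : ℤ) : ℂ) := by
        rw [FrobRec.frobenius_reciprocity C β _ hχcf, hβ, Orth.classInner_sub_left,
          Clifford.classInner_conj_symm, hm ψ, Clifford.classInner_conj_symm (ψ' : C → ℂ), hm ψ']
        simp
      have hnorm : classInner (indFun C β) (indFun C β) = ((2 : ℤ) : ℂ) := by
        rw [hβ, norm_ind_sub h ψ.2 ψ'.2 (hstab ψ hψ) (hstab ψ' hψ')
          (fun c hc => by rw [hregv ψ c hc, hregv ψ' c hc]) hconj hconj']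
        norm_num
      have := sq_le hgen hχ _ _ hi2 hnorm
      nlinarith
  have hsplit : ∑ ψ : IrrCharacter C, m ψ = m triv + ∑ ψ ∈ Finset.univ.erase triv, m ψ :=
    (Finset.add_sum_erase _ _ (Finset.mem_univ triv)).symm
  have hcnt : (Finset.univ.erase triv).card = Nat.card C - 1 := by
    rw [Finset.card_erase_of_mem (Finset.mem_univ _), Finset.card_univ, hcard]
  intro c hc
  by_cases hall : ∀ ψ : IrrCharacter C, ψ ≠ triv → 1 ≤ m ψ
  · have hle : ∑ ψ ∈ Finset.univ.erase triv, 1 ≤ ∑ ψ ∈ Finset.univ.erase triv, m ψ :=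
      Finset.sum_le_sum (fun ψ hψ => hall ψ (Finset.ne_of_mem_erase hψ))
    have hcnt' : ∑ ψ ∈ Finset.univ.erase triv, 1 = Nat.card C - 1 := by
      rw [Finset.sum_const, hcnt]
      simp
    have ht0 : m triv = 0 := by omega
    have hone : ∀ ψ ∈ Finset.univ.erase triv, m ψ = 1 := by
      intro ψ hψ
      by_contra hne
      have hlt : ∑ ψ ∈ Finset.univ.erase triv, 1 < ∑ ψ ∈ Finset.univ.erase triv, m ψ :=
        Finset.sum_lt_sum (fun ψ hψ => hall ψ (Finset.ne_of_mem_erase hψ))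
          ⟨ψ, hψ, by have := hall ψ (Finset.ne_of_mem_erase hψ); omega⟩
      omega
    have h2 := Orth.sum_apply_one_mul_of_ne_sum c hc
    rw [← Finset.add_sum_erase _ _ (Finset.mem_univ triv),
      Finset.sum_congr rfl (fun ψ _ => by rw [hlin ψ, one_mul]), hlin triv, one_mul, htriv] at h2
    rw [hval c, ← Finset.add_sum_erase _ _ (Finset.mem_univ triv), ht0,
      Finset.sum_congr rfl (fun ψ hψ => by rw [hone ψ hψ, Nat.cast_one, one_mul])]
    simp only [Nat.cast_zero, zero_mul, zero_add]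
    linear_combination h2
  · exfalso
    push Not at hall
    obtain ⟨ψ₀, hψ₀, hm0'⟩ := hall
    have hm0 : m ψ₀ = 0 := by omega
    have hle1 : ∀ ψ : IrrCharacter C, ψ ≠ triv → m ψ ≤ 1 := by
      intro ψ hψ
      have := hF4 ψ ψ₀ hψ hψ₀
      rw [hm0] at this
      omega
    obtain ⟨f, hf⟩ : ∃ f : N → IrrCharacter C,
        ∀ y, (f y : C → ℂ) = cj h y (ψ₀ : C → ℂ) :=
      ⟨fun y => ⟨cj h y (ψ₀ : C → ℂ), isIrr_cj h ψ₀.2 y⟩, fun y => rfl⟩
    obtain ⟨O, hO⟩ : ∃ O : Finset (IrrCharacter C), O = Finset.univ.image f := ⟨_, rfl⟩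
    have hOcard : E ≤ O.card := by
      have hfib : ∀ φ ∈ (Finset.univ : Finset N).image f,
          (Finset.univ.filter (fun y : N => f y = φ)).card ≤ Nat.card C := by
        intro φ hφ
        rw [Finset.mem_image] at hφ
        obtain ⟨y₀, -, rfl⟩ := hφ
        calc (Finset.univ.filter (fun y : N => f y = f y₀)).card
            ≤ ((Finset.univ.filter (fun y : N => (y : G) ∈ C)).image (fun y => y₀ * y)).card := by
              apply Finset.card_le_card
              intro y hy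
              rw [Finset.mem_filter] at hy
              rw [Finset.mem_image]
              refine ⟨y₀⁻¹ * y, ?_, by group⟩
              rw [Finset.mem_filter]
              refine ⟨Finset.mem_univ _, ?_⟩
              apply hstab ψ₀ hψ₀
              have e : cj h y (ψ₀ : C → ℂ) = cj h y₀ (ψ₀ : C → ℂ) := by
                rw [← hf y, ← hf y₀, hy.2]
              rw [cj_mul, e, cj_inv_cj]
          _ ≤ (Finset.univ.filter (fun y : N => (y : G) ∈ C)).card := Finset.card_image_le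
          _ = Nat.card C := card_filter_mem h
      have h1 := Finset.card_le_mul_card_image (Finset.univ : Finset N) (Nat.card C) hfib
      rw [Finset.card_univ, ← Nat.card_eq_fintype_card, hE, ← hO] at h1
      exact Nat.le_of_mul_le_mul_left h1 hCpos
    have hOprop : ∀ φ ∈ O, φ ≠ triv ∧ m φ = 0 := by
      intro φ hφ
      rw [hO, Finset.mem_image] at hφ
      obtain ⟨y, -, rfl⟩ := hφ
      constructor
      · intro e
        apply hne1 ψ₀ hψ₀
        have e1 : cj h y (ψ₀ : C → ℂ) = fun _ => 1 := by rw [← hf y, e, htriv]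
        rw [← cj_inv_cj h y (ψ₀ : C → ℂ), e1]
        rfl
      · have h1 : (m (f y) : ℂ) = m ψ₀ := by
          rw [← hm (f y), ← hm ψ₀, hf y, inner_restrict_cj h hχcf]
        have h2 : m (f y) = m ψ₀ := by exact_mod_cast h1
        rw [h2, hm0]
    have hOsub : O ⊆ Finset.univ.erase triv := by
      intro φ hφ
      exact Finset.mem_erase.mpr ⟨(hOprop φ hφ).1, Finset.mem_univ _⟩
    have hbound : ∑ ψ ∈ Finset.univ.erase triv, m ψ ≤ (Nat.card C - 1) - O.card := by
      rw [← Finset.sum_sdiff hOsub, Finset.sum_eq_zero (fun φ hφ => (hOprop φ hφ).2), add_zero,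
        ← hcnt, ← Finset.card_sdiff_of_subset hOsub]
      calc ∑ ψ ∈ Finset.univ.erase triv \ O, m ψ ≤ ∑ ψ ∈ Finset.univ.erase triv \ O, 1 :=
            Finset.sum_le_sum (fun ψ hψ =>
              hle1 ψ (Finset.ne_of_mem_erase (Finset.mem_sdiff.mp hψ).1))
        _ = (Finset.univ.erase triv \ O).card := by simp
    have hOle : O.card ≤ Nat.card C - 1 := by
      rw [← hcnt]
      exact Finset.card_le_card hOsub
    have hat : E ≤ m triv := by omega
    have h3 := hF3 ψ₀ hψ₀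
    rw [hm0] at h3
    have h4 : (E : ℤ) ≤ m triv := by exact_mod_cast hat
    have h5 : (2 : ℤ) ≤ E := by exact_mod_cast hE2
    have h6 : (E : ℤ) * E ≤ (m triv : ℤ) * m triv := mul_le_mul h4 h4 (by positivity) (by positivity)
    simp only [Nat.cast_zero, sub_zero] at h3
    nlinarith

end Cfsg.Agent.Lib.Helper74.SCChar
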