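import Mathlib
import Cfsg.Prelude.Def_Characters
import Cfsg.Prelude.Def_Blocks
import Cfsg.Agent.Lib.Helper74.BLGroup
import Cfsg.Agent.Lib.Helper74.SCChar
import Cfsg.Agent.Lib.Helper74.SCRep
import Cfsg.Agent.Lib.Helper75.SelfCentCount
import Cfsg.Agent.S4495

/-!
A self-centralizing subgroup `⟨x⟩` of prime order `p` and an irreducible character of degree
`p - 1`: if the number `t` of classes of elements of order `p` is odd, the commutator subgroup
has even index.
-/

set_option autoImplicit false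
set_option linter.unusedSectionVars false
set_option linter.unusedVariables false

namespace Cfsg.Agent.Lib.Helper74.SCGroup

open Cfsg Cfsg.Agent.Lib.CT Cfsg.Agent.Lib.CT.Wedderburn
open Cfsg.Agent.Lib.Helper74 Cfsg.Agent.Lib.Helper75
open Subgroup

universe u

variable {G : Type u} [Group G] [Finite G] {p : ℕ} {x : G}

/-- A cyclic Sylow `2`-subgroup of the normalizer of `⟨x⟩`. -/
theorem exists_two_elt (hp : p.Prime) (hp2 : p ≠ 2) (hx : orderOf x = p)
    (hC : Subgroup.centralizer ({x} : Set G) = Subgroup.zpowers x) (k m : ℕ) (hm : Odd m)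
    (hN : Nat.card (normalizer (zpowers x : Set G)) = 2 ^ k * m) :
    ∃ w ∈ normalizer (zpowers x : Set G), orderOf w = 2 ^ k := by
  have h2 : Fact (Nat.Prime 2) := ⟨Nat.prime_two⟩
  have hpf : Fact p.Prime := ⟨hp⟩
  obtain ⟨S⟩ : Nonempty (Sylow 2 (normalizer (zpowers x : Set G))) := inferInstance
  have hScard : Nat.card S = 2 ^ k := by
    obtain ⟨j, hj⟩ := IsPGroup.iff_card.mp S.isPGroup'
    have h1 : 2 ^ k ∣ Nat.card S := S.pow_dvd_card_of_pow_dvd_card (by rw [hN]; exact dvd_mul_right _ _)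
    have h3 : Nat.card S ∣ 2 ^ k * m := by
      rw [← hN]
      exact Subgroup.card_subgroup_dvd_card _
    have hcop : Nat.Coprime (2 ^ j) m :=
      Nat.Coprime.pow_left j (Nat.coprime_two_left.mpr hm)
    rw [hj] at h1 h3 ⊢
    exact Nat.dvd_antisymm (hcop.dvd_of_dvd_mul_right h3) h1
  have hprime : Fact (Nat.card (zpowers x)).Prime := ⟨by rw [Nat.card_zpowers, hx]; exact hp⟩
  have hcycA : IsCyclic (MulAut (zpowers x)) :=
    isCyclic_of_injective (IsCyclic.mulAutMulEquiv (zpowers x)).toMonoidHom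
      (MulEquiv.injective _)
  obtain ⟨f, hf⟩ : ∃ f : (S : Subgroup (normalizer (zpowers x : Set G))) →* MulAut (zpowers x),
      f = (zpowers x).normalizerMonoidHom.comp (S : Subgroup (normalizer (zpowers x : Set G))).subtype :=
    ⟨_, rfl⟩
  have hinj : Function.Injective f := by
    rw [injective_iff_map_eq_one]
    intro s hs
    have h1 : (s : normalizer (zpowers x : Set G)) ∈ (zpowers x).normalizerMonoidHom.ker := by
      rw [MonoidHom.mem_ker]
      rw [hf] at hs
      exact hs
    rw [normalizerMonoidHom_ker, mem_subgroupOf] at h1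
    have h3 : ((s : normalizer (zpowers x : Set G)) : G) ∈ zpowers x := by
      apply SelfCent.mem_zpowers_of_comm hC
      exact (Subgroup.mem_centralizer_iff.mp h1 x (mem_zpowers x)).symm
    have h4 : orderOf ((s : normalizer (zpowers x : Set G)) : G) ∣ p := by
      rw [← hx]
      exact orderOf_dvd_of_mem_zpowers h3
    have h5 : orderOf ((s : normalizer (zpowers x : Set G)) : G) ∣ 2 ^ k := by
      rw [Subgroup.orderOf_coe, Subgroup.orderOf_coe, ← hScard]
      exact orderOf_dvd_natCard s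
    have hcop : Nat.Coprime (2 ^ k) p :=
      Nat.Coprime.pow_left k ((Nat.coprime_primes Nat.prime_two hp).mpr (Ne.symm hp2))
    have h6 : orderOf ((s : normalizer (zpowers x : Set G)) : G) = 1 :=
      Nat.eq_one_of_dvd_coprimes hcop h5 h4
    have h7 : ((s : normalizer (zpowers x : Set G)) : G) = 1 := orderOf_eq_one_iff.mp h6
    apply Subtype.ext
    apply Subtype.ext
    exact h7
  have hcycS : IsCyclic (S : Subgroup (normalizer (zpowers x : Set G))) :=
    isCyclic_of_injective f hinj
  obtain ⟨g, hg⟩ := hcycS.exists_generator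
  refine ⟨((g : normalizer (zpowers x : Set G)) : G), (g : normalizer (zpowers x : Set G)).2, ?_⟩
  rw [Subgroup.orderOf_coe, Subgroup.orderOf_coe, orderOf_eq_card_of_forall_mem_zpowers hg, hScard]

/-- A coset element `v * a` with `v` normalizing but not in `⟨x⟩` is conjugate to `v`. -/
theorem exists_conj_eq_mul (hp : p.Prime) (hx : orderOf x = p)
    (hC : Subgroup.centralizer ({x} : Set G) = Subgroup.zpowers x) {v : G}
    (hv : v ∈ normalizer (zpowers x : Set G)) (hvx : v ∉ zpowers x) {a : G}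
    (ha : a ∈ zpowers x) : ∃ u : G, v * a = u⁻¹ * v * u := by
  have hvinv : v⁻¹ ∈ normalizer (zpowers x : Set G) := inv_mem hv
  obtain ⟨f, hf⟩ : ∃ f : zpowers x → zpowers x,
      ∀ u, ((f u : zpowers x) : G) = v⁻¹ * (u : G)⁻¹ * v * u := by
    refine ⟨fun u => ⟨v⁻¹ * (u : G)⁻¹ * v * u, ?_⟩, fun u => rfl⟩
    have h1 : v⁻¹ * (u : G)⁻¹ * v⁻¹⁻¹ ∈ zpowers x :=
      (mem_normalizer_iff.1 hvinv _).1 (inv_mem u.2)
    rw [inv_inv] at h1
    exact mul_mem h1 u.2
  have hinj : Function.Injective f := by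
    intro u u' e
    have e1 : v⁻¹ * (u : G)⁻¹ * v * u = v⁻¹ * (u' : G)⁻¹ * v * u' := by
      rw [← hf u, ← hf u', e]
    have e2 : (u : G)⁻¹ * v * u = (u' : G)⁻¹ * v * u' := by
      have := congrArg (fun z => v * z) e1
      simpa [mul_assoc] using this
    have hcomm : v * ((u' : G) * (u : G)⁻¹) = ((u' : G) * (u : G)⁻¹) * v := by
      calc v * ((u' : G) * (u : G)⁻¹) = (u' : G) * ((u' : G)⁻¹ * v * u') * (u : G)⁻¹ := by group
        _ = (u' : G) * ((u : G)⁻¹ * v * u) * (u : G)⁻¹ := by rw [e2]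
        _ = ((u' : G) * (u : G)⁻¹) * v := by group
    by_contra hne
    have hc1 : (u' : G) * (u : G)⁻¹ ≠ 1 := by
      intro h1
      apply hne
      apply Subtype.ext
      exact (mul_inv_eq_one.mp h1).symm
    exact hvx (SelfCent.mem_zpowers_of_comm_mem hp hx hC (mul_mem u'.2 (inv_mem u.2)) hc1 hcomm)
  obtain ⟨u, hu⟩ := Finite.surjective_of_injective hinj ⟨a, ha⟩
  refine ⟨u, ?_⟩
  have h1 : v⁻¹ * (u : G)⁻¹ * v * u = a := by
    rw [← hf u, hu]
  rw [← h1]
  group

/-- A character with value `-1` on the nonidentity elements of `⟨x⟩` and degree `p - 1` vanishes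
on the elements of the normalizer outside `⟨x⟩`. -/
theorem vanish (hp : p.Prime) (hx : orderOf x = p)
    (hC : Subgroup.centralizer ({x} : Set G) = Subgroup.zpowers x) {n : ℕ}
    (ρ : Representation ℂ G (Fin n → ℂ))
    (hval : ∀ c ∈ zpowers x, c ≠ 1 → LinearMap.trace ℂ (Fin n → ℂ) (ρ c) = -1)
    (hdeg : (n : ℂ) + 1 = p) {v : G} (hv : v ∈ normalizer (zpowers x : Set G))
    (hvx : v ∉ zpowers x) : LinearMap.trace ℂ (Fin n → ℂ) (ρ v) = 0 := by
  classical
  have : Fintype (zpowers x) := Fintype.ofFinite _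
  have hcard : Fintype.card (zpowers x) = p := by
    rw [← Nat.card_eq_fintype_card, SelfCent.card_zpowers_eq hx]
  have h0 : ∑ a : zpowers x, LinearMap.trace ℂ (Fin n → ℂ) (ρ a) = 0 := by
    rw [← Finset.add_sum_erase _ _ (Finset.mem_univ (1 : zpowers x)),
      Finset.sum_congr rfl (fun (a : zpowers x) ha => hval (a : G) a.2
        (fun e => (Finset.ne_of_mem_erase ha) (Subtype.ext e))),
      Finset.sum_const, Finset.card_erase_of_mem (Finset.mem_univ _), Finset.card_univ, hcard,
      OneMemClass.coe_one, map_one, LinearMap.trace_one, Module.finrank_fin_fun]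
    have hp1 : 1 ≤ p := hp.one_lt.le
    rw [nsmul_eq_mul, Nat.cast_sub hp1]
    push_cast
    linear_combination hdeg
  have h1 := SCRep.sum_trace_mul_eq_zero ρ (zpowers x) h0 v
  have h2 : ∀ a : zpowers x, LinearMap.trace ℂ (Fin n → ℂ) (ρ (v * a)) =
      LinearMap.trace ℂ (Fin n → ℂ) (ρ v) := by
    intro a
    obtain ⟨u, hu⟩ := exists_conj_eq_mul hp hx hC hv hvx a.2
    rw [hu]
    have := ρ.char_conj v u⁻¹
    rw [inv_inv] at this
    exact this
  rw [Finset.sum_congr rfl (fun a _ => h2 a), Finset.sum_const, Finset.card_univ, hcard,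
    nsmul_eq_mul] at h1
  exact (mul_eq_zero.mp h1).resolve_left (Nat.cast_ne_zero.mpr hp.ne_zero)

/-- The values `-1` on the nonidentity elements of `⟨x⟩`. -/
theorem values (hp : p.Prime) (hx : orderOf x = p)
    (hC : Subgroup.centralizer ({x} : Set G) = Subgroup.zpowers x) {χ : G → ℂ}
    (hχ : IsIrrCharacter G χ) (hχ1 : χ 1 ≠ 1) (hdeg : χ 1 + 1 = (p : ℂ))
    (hN : 2 * p ≤ Nat.card (normalizer (zpowers x : Set G))) :
    ∀ c ∈ zpowers x, c ≠ 1 → χ c = -1 := by
  classical
  have hpf : Fact p.Prime := ⟨hp⟩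
  have := Fintype.ofFinite G
  obtain ⟨Q, hQ⟩ := SelfCent.exists_sylow hp hx hC
  have hCQ : Subgroup.centralizer ((Q : Subgroup G) : Set G) = zpowers x := by
    apply le_antisymm
    · intro g hg
      apply SelfCent.mem_zpowers_of_comm hC
      exact (Subgroup.mem_centralizer_iff.mp hg x (by rw [SetLike.mem_coe, hQ]; exact mem_zpowers x)).symm
    · intro g hg
      rw [Subgroup.mem_centralizer_iff]
      intro y hy
      rw [SetLike.mem_coe, hQ] at hy
      obtain ⟨i, rfl⟩ := mem_zpowers_iff.mp hy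
      obtain ⟨j, rfl⟩ := mem_zpowers_iff.mp hg
      exact (Commute.zpow_zpow_self x i j).eq
  have hstar : ∀ y ∈ (Q : Subgroup G), y ≠ 1 → Subgroup.centralizer ({y} : Set G) =
      Subgroup.centralizer ((Q : Subgroup G) : Set G) := by
    intro y hy hy1
    rw [hQ] at hy
    rw [hCQ]
    apply le_antisymm
    · intro g hg
      apply SelfCent.mem_zpowers_of_comm_mem hp hx hC hy hy1
      exact (Subgroup.mem_centralizer_iff.mp hg y (Set.mem_singleton y)).symm
    · intro g hg
      rw [Subgroup.mem_centralizer_iff]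
      intro z hz
      rw [Set.mem_singleton_iff] at hz
      subst hz
      obtain ⟨i, rfl⟩ := mem_zpowers_iff.mp hy
      obtain ⟨j, rfl⟩ := mem_zpowers_iff.mp hg
      exact (Commute.zpow_zpow_self x i j).eq
  have h := BLGroup.hyp Q hstar
  have : Fintype (Subgroup.centralizer ((Q : Subgroup G) : Set G)) := Fintype.ofFinite _
  have : Fintype (normalizer
      ((Subgroup.centralizer ((Q : Subgroup G) : Set G) : Subgroup G) : Set G)) :=
    Fintype.ofFinite _
  have hcardC : Nat.card (Subgroup.centralizer ((Q : Subgroup G) : Set G)) = p := by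
    rw [hCQ]
    exact SelfCent.card_zpowers_eq hx
  have hres := SCChar.ti_values h (fun c => hQ.ge (hCQ.le c.2)) (fun c hc => by
      have h1 : (c : G) ∈ zpowers x := hCQ.le c.2
      have h2 : orderOf (c : G) ∣ orderOf x := orderOf_dvd_of_mem_zpowers h1
      rw [hx] at h2
      have h3 : orderOf (c : G) = 1 := Nat.Coprime.eq_one_of_dvd hc h2
      exact Subtype.ext (orderOf_eq_one_iff.mp h3)) hχ hχ1
    (by rw [hcardC]; exact hdeg) (by rw [hcardC, hCQ]; exact hN)
  intro c hc hc1
  exact hres ⟨c, by rw [hCQ]; exact hc⟩ (fun e => hc1 (congrArg Subtype.val e))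

/-- The main statement. -/
theorem main (p : ℕ) (hp : p.Prime) (x : G) (hx : orderOf x = p)
    (hC : Subgroup.centralizer ({x} : Set G) = Subgroup.zpowers x) (t : ℕ)
    (ht : Nat.card {C : ConjClasses G // ∃ g ∈ C.carrier, orderOf g = p} = t)
    (χ : Cfsg.IrrCharacter G) (hχ : Cfsg.charDegree (χ : G → ℂ) + 1 = p) :
    Even t ∨ Even (commutator G).index := by
  classical
  by_cases hte : Even t
  · exact Or.inl hte
  right
  have hcount := SelfCentCount.card_classes_mul hp hx hC
  rw [ht] at hcount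
  obtain ⟨e, he⟩ : p ∣ Nat.card (normalizer (zpowers x : Set G)) := by
    rw [← SelfCent.card_zpowers_eq hx]
    exact Subgroup.card_dvd_of_le SelfCent.zpowers_le_normalizer
  have hp0 : 0 < p := hp.pos
  have hte' : t * e = p - 1 := by
    rw [he] at hcount
    have h1 : p * (t * e) = p * (p - 1) := by
      rw [mul_comm p (p - 1), ← hcount]
      ring
    exact Nat.eq_of_mul_eq_mul_left hp0 h1
  by_cases hp2 : p = 2
  · have h1 : t * e = 1 := by rw [hte', hp2]
    have ht1 : t = p - 1 := by
      rw [hp2]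
      exact Nat.eq_one_of_mul_eq_one_right h1
    have h2 := (Cfsg.Agent.S4495.result p hp x hx hC t ht).2 ht1
    rw [h2, hp2]
    exact even_two
  have hpodd : Odd p := hp.odd_of_ne_two hp2
  have htodd : Odd t := Nat.not_even_iff_odd.mp hte
  have heven : Even e := by
    have h1 : Even (t * e) := by
      rw [hte']
      exact Nat.Odd.sub_odd hpodd odd_one
    rcases Nat.even_mul.mp h1 with h | h
    · exact absurd h hte
    · exact h
  have hp3 : 3 ≤ p := by
    have := hp.two_le
    omega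
  have he0 : e ≠ 0 := by
    rintro rfl
    rw [mul_zero] at hte'
    omega
  have he2 : 2 ≤ e := by
    obtain ⟨q, hq⟩ := heven
    omega
  obtain ⟨n, ρ, hirr, hρ⟩ := χ.2
  have hχc : IsCharacter G (χ : G → ℂ) := isCharacter_of_irr χ.2
  have hdeg : (χ : G → ℂ) 1 + 1 = (p : ℂ) := by
    rw [← char_natCast_charDegree hχc]
    exact_mod_cast hχ
  have hχ1 : (χ : G → ℂ) 1 ≠ 1 := by
    intro h1
    rw [h1] at hdeg
    have : ((2 : ℕ) : ℂ) = (p : ℂ) := by
      rw [← hdeg]
      norm_num
    have : 2 = p := by exact_mod_cast this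
    omega
  have hNle : 2 * p ≤ Nat.card (normalizer (zpowers x : Set G)) := by
    rw [he, mul_comm]
    exact Nat.mul_le_mul_left p he2
  have hval := values hp hx hC χ.2 hχ1 hdeg hNle
  have hn : (n : ℂ) + 1 = p := by
    rw [← hdeg, ← hρ]
    simp
  have hn' : n + 1 = p := by exact_mod_cast hn
  have hvalρ : ∀ c ∈ zpowers x, c ≠ 1 → LinearMap.trace ℂ (Fin n → ℂ) (ρ c) = -1 := by
    intro c hc hc1
    have := hval c hc hc1
    rw [← hρ] at this
    exact this
  obtain ⟨k, m, hm, hek⟩ := Nat.exists_eq_two_pow_mul_odd he0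
  have hk1 : 1 ≤ k := by
    by_contra hk0
    have hk : k = 0 := by omega
    rw [hk, pow_zero, one_mul] at hek
    rw [hek] at heven
    exact (Nat.not_even_iff_odd.mpr hm) heven
  have hNcard : Nat.card (normalizer (zpowers x : Set G)) = 2 ^ k * (p * m) := by
    rw [he, hek]
    ring
  obtain ⟨w, hwN, hw⟩ := exists_two_elt hp hp2 hx hC k (p * m) (hpodd.mul hm) hNcard
  have hdim : Module.finrank ℂ (Fin n → ℂ) = (t * m) * 2 ^ k := by
    rw [Module.finrank_fin_fun]
    have : n = t * e := by omega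
    rw [this, hek]
    ring
  have hdet := SCRep.det_eq_neg_one ρ w k (t * m) hk1 hw (htodd.mul hm) hdim (fun j hj => by
    have hwj : w ^ j ∈ normalizer (zpowers x : Set G) := pow_mem hwN j
    have hwjx : w ^ j ∉ zpowers x := by
      intro hmem
      apply hj
      rw [← hw]
      apply orderOf_dvd_of_pow_eq_one
      have h1 : orderOf (w ^ j) ∣ p := by
        rw [← hx]
        exact orderOf_dvd_of_mem_zpowers hmem
      have h2 : orderOf (w ^ j) ∣ 2 ^ k := by
        rw [← hw]
        exact orderOf_pow_dvd j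
      have h3 : Nat.Coprime (2 ^ k) p :=
        Nat.Coprime.pow_left k ((Nat.coprime_primes Nat.prime_two hp).mpr (Ne.symm hp2))
      exact orderOf_eq_one_iff.mp (Nat.eq_one_of_dvd_coprimes h3 h2 h1)
    exact vanish hp hx hC ρ hvalρ hn hwj hwjx)
  apply SCRep.even_index_of_hom (MonoidHom.toHomUnits ((LinearMap.det).comp ρ)) w
  apply Units.ext
  rw [MonoidHom.coe_toHomUnits]
  exact hdet

end Cfsg.Agent.Lib.Helper74.SCGroup
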