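import Mathlib
import Cfsg.Agent.Lib.Helper14.TC3Stmt
import Cfsg.Agent.Lib.Helper3.TDBasic
import Cfsg.Agent.Lib.Helper3.MGroup

set_option autoImplicit false

namespace Cfsg.Agent.Lib.Helper74.TC3A4

universe u

open Cfsg Cfsg.Agent.Lib.Helper14.TC3Stmt
open Cfsg.Agent.Lib.Helper80.Integrality Cfsg.Agent.Lib.CT.Wedderburn
open scoped commutatorElement

theorem main : A4.{u} := by
  intro G _ _ H _ p hp hk χ
  classical
  have := Fintype.ofFinite G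
  have := Fintype.ofFinite H
  have := Cfsg.Agent.Lib.Helper3.Irr.finite_irrCharacter (G := ↥H)
  have := Fintype.ofFinite (IrrCharacter ↥H)
  obtain ⟨k, hk⟩ := hk
  set K : Subgroup G := ⁅H, H⁆ with hK
  set X : IrrCharacter G := Cfsg.Agent.Lib.Helper3.TDBasic.infl K χ with hX
  have hXc : IsCharacter G (X : G → ℂ) := isCharacter_of_irr X.2
  have hΦ : IsCharacter ↥H (fun h : ↥H => (X : G → ℂ) h) :=
    Cfsg.Agent.Lib.CT.Ops.isCharacter_restrict H hXc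
  obtain ⟨m, hm, -, hdeg, -⟩ := Cfsg.Agent.Lib.Helper80.Restrict.exists_mult hΦ
  have hdegX : charDegree (fun h : ↥H => (X : G → ℂ) h) = charDegree (X : G → ℂ) := rfl
  have hpos : 0 < charDegree (X : G → ℂ) := charDegree_pos X
  obtain ⟨θ, hθ⟩ : ∃ θ : IrrCharacter ↥H, m θ ≠ 0 := by
    by_contra hcon
    push Not at hcon
    rw [hdegX] at hdeg
    rw [hdeg] at hpos
    simp [hcon] at hpos
  have hcon : classInner (fun h : ↥H => (X : G → ℂ) h) (θ : ↥H → ℂ) ≠ 0 := by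
    rw [hm θ]
    exact_mod_cast hθ
  have hθcomm : ∀ a b : ↥H, (θ : ↥H → ℂ) ⁅a, b⁆ = (θ : ↥H → ℂ) 1 := by
    intro a b
    apply Cfsg.Agent.Lib.Helper3.MGroup.constituent_apply_eq hΦ θ.2 hcon
    have e1 : ((⁅a, b⁆ : ↥H) : G) = ⁅(a : G), (b : G)⁆ := by
      simp [commutatorElement_def]
    have e2 : (((⁅a, b⁆ : ↥H) : G) : G ⧸ K) = 1 := by
      rw [QuotientGroup.eq_one_iff, e1]
      exact Subgroup.commutator_mem_commutator a.2 b.2
    show (X : G → ℂ) ((⁅a, b⁆ : ↥H) : G) = (X : G → ℂ) ((1 : ↥H) : G)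
    rw [Cfsg.Agent.Lib.Helper3.TDBasic.infl_apply, Cfsg.Agent.Lib.Helper3.TDBasic.infl_apply, e2,
      Subgroup.coe_one, QuotientGroup.mk_one]
  have hθ1 : (θ : ↥H → ℂ) 1 = 1 :=
    Cfsg.Agent.Lib.Helper3.MGroup.apply_one_eq_one_of_comm θ.2 hθcomm
  have hθdeg : charDegree (θ : ↥H → ℂ) = 1 := by
    have h1 := apply_one_eq_charDegree (isCharacter_of_irr θ.2)
    rw [hθ1] at h1
    exact_mod_cast h1.symm
  obtain ⟨-, h2⟩ := Cfsg.Agent.Lib.Helper3.TDBasic.deg_of_constituent H θ X hcon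
  rw [hθdeg, Nat.div_one, hk] at h2
  obtain ⟨a, -, ha⟩ := (Nat.dvd_prime_pow hp).1 h2
  exact ⟨a, ha⟩

end Cfsg.Agent.Lib.Helper74.TC3A4
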