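import Mathlib
import Cfsg.Agent.Lib.Helper14.TC3Stmt
import Cfsg.Agent.S0858
import Cfsg.Agent.S0859

set_option autoImplicit false

namespace Cfsg.Agent.Lib.Helper74.TC3MONOP

universe u

open Cfsg.Agent.Lib.Helper14.TC3Stmt

theorem main (h : ChiefP.{u}) : MonoP.{u} := by
  intro G _ _ A p hA hp hk hab χ hχ
  have : A.Normal := hA
  have : Fact p.Prime := ⟨hp⟩
  obtain ⟨k, hk'⟩ := hk
  have hQp : IsPGroup p (G ⧸ A) := by
    apply IsPGroup.of_card (n := k)
    rw [← hk']
    rfl
  have hQnil : Group.IsNilpotent (G ⧸ A) := hQp.isNilpotent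
  have hQsolv : Group.IsSolvable (G ⧸ A) := inferInstance
  have hAsolv : Group.IsSolvable ↥A :=
    Group.isSolvable_of_comm (fun a b => Subtype.ext (hab a a.2 b b.2))
  have hGsolv : Group.IsSolvable G := by
    refine Group.isSolvable_of_ker_le_range A.subtype (QuotientGroup.mk' A) ?_
    rw [QuotientGroup.ker_mk', Subgroup.range_subtype]
  have hchief := h G A p hA hp ⟨k, hk'⟩
  have hrel := Cfsg.Agent.S0858.result A hQsolv hchief
  have habS : ∀ (q : ℕ) [Fact q.Prime] (P : Sylow q A), ∀ a ∈ P, ∀ b ∈ P, a * b = b * a := by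
    intro q _ P a _ b _
    exact Subtype.ext (hab a a.2 b b.2)
  exact Cfsg.Agent.S0859.result A habS hrel χ hχ

end Cfsg.Agent.Lib.Helper74.TC3MONOP
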