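import Mathlib
import Cfsg.Agent.Lib.Helper74.WinStmt

/-!
# Winter's theorem (S4467): the two assemblies
-/

set_option autoImplicit false

namespace Cfsg.Agent.Lib.Helper74.WinAsm

open Cfsg Cfsg.Agent.Lib.Helper74.WinStmt

universe u

theorem good_of_good01 {p n m : ℕ} (h : Good01 p n) (hnm : n ∣ m) : Good p m := by
  obtain ⟨q, hq, hdvd, h | h⟩ := h
  · exact ⟨q, hq, dvd_trans hdvd hnm, Or.inr (Or.inl h)⟩
  · exact ⟨q, hq, dvd_trans hdvd hnm, Or.inr (Or.inr h)⟩

/-- `Sq` for a subgroup `H` of `U`. -/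
theorem sq_sub (hSq : Sq.{u}) {G : Type u} [Group G] [Finite G] (U : Subgroup G)
    (hUcomm : ∀ a ∈ U, ∀ b ∈ U, a * b * a⁻¹ * b⁻¹ ∈ Subgroup.center G)
    (H : Subgroup G) (hHU : H ≤ U) (η : IrrCharacter ↥H)
    (hη : ∀ z : ↥H, (z : G) ∈ Subgroup.center G → (η : ↥H → ℂ) z = (η : ↥H → ℂ) 1 → z = 1) :
    Nat.card ↥H = Nat.card ↥(Subgroup.center ↥H) * charDegree (η : ↥H → ℂ) ^ 2 := by
  apply hSq ↥H η
  intro c hc
  rw [Subgroup.mem_center_iff] at hc
  push Not at hc
  obtain ⟨w, hw⟩ := hc
  have h1 : ((w * c * w⁻¹ * c⁻¹ : ↥H) : G) ∈ Subgroup.center G := by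
    have := hUcomm w (hHU w.2) c (hHU c.2)
    simpa using this
  refine ⟨w, ?_, ?_⟩
  · rw [Subgroup.mem_center_iff]
    intro g
    rw [Subgroup.mem_center_iff] at h1
    apply Subtype.ext
    have := h1 (g : G)
    simpa using this
  · intro h
    have h2 := hη (w * c * w⁻¹ * c⁻¹) h1 h
    apply hw
    have h3 : w * c = (w * c * w⁻¹ * c⁻¹) * (c * w) := by group
    rw [h3, h2, one_mul]

theorem fin (hMinU : MinU.{u}) (hCent : Cent.{u}) (hSq : Sq.{u}) (hCon : Con.{u}) (hOrb : Orb.{u})
    (hAri : Ari) (G : Type u) [Group G] [Finite G] (χ : IrrCharacter G)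
    (hf : Faithful (χ : G → ℂ)) (hsolv : Group.IsSolvable G) (p : ℕ) (hp : p.Prime) (x : G)
    (hxp : IsPGroup p ↥(Subgroup.zpowers x))
    (hx : ∀ N : Subgroup G, N.Normal → x ∈ N → N = ⊤)
    (hab : ∀ A : Subgroup G, A.Normal → (∀ a ∈ A, ∀ b ∈ A, a * b = b * a) →
      A ≤ Subgroup.center G)
    (hnab : ∃ a b : G, a * b ≠ b * a) : Good p (charDegree (χ : G → ℂ)) := by
  classical
  obtain ⟨U, q, hq, hUn, hUq, hUnc, hUcomm, hZU⟩ := hMinU G hsolv hab hnab
  have hqF : Fact q.Prime := ⟨hq⟩
  obtain ⟨ν, hνf, hνd⟩ := hCon G χ hf U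
  have hνdvd := hνd hUn
  have hsqU := sq_sub hSq U hUcomm U le_rfl ν hνf
  set C : Subgroup G := U ⊓ Subgroup.centralizer {x} with hC
  have hCU : C ≤ U := inf_le_left
  obtain ⟨η, hηf, -⟩ := hCon G χ hf C
  have hsqC := sq_sub hSq U hUcomm C hCU η hηf
  obtain ⟨k, hk⟩ := (IsPGroup.iff_card (p := q)).1 hUq
  obtain ⟨k', hk'⟩ := (IsPGroup.iff_card (p := q)).1 (hUq.to_le hCU)
  -- `x` does not centralize `U`
  have hCne : C ≠ U := by
    intro hCeq
    have hUle : U ≤ Subgroup.centralizer {x} := by
      rw [← hCeq]; exact inf_le_right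
    have hxc : x ∈ Subgroup.centralizer (U : Set G) := by
      rw [Subgroup.mem_centralizer_iff]
      intro u hu
      have := hUle hu
      rw [Subgroup.mem_centralizer_iff] at this
      exact (this x rfl).symm
    have hn : (Subgroup.centralizer (U : Set G)).Normal := Subgroup.normal_centralizer
    have htop := hx _ hn hxc
    apply hUnc
    intro u hu
    rw [Subgroup.mem_center_iff]
    intro g
    have hg : g ∈ Subgroup.centralizer (U : Set G) := by rw [htop]; exact Subgroup.mem_top g
    rw [Subgroup.mem_centralizer_iff] at hg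
    exact (hg u hu).symm
  have hkk : k' < k := by
    have hle : Nat.card ↥C ≤ Nat.card ↥U := Subgroup.card_le_of_le hCU
    have hne : Nat.card ↥C ≠ Nat.card ↥U := by
      intro h
      exact hCne (Subgroup.eq_of_le_of_card_ge hCU h.ge)
    have hlt : Nat.card ↥C < Nat.card ↥U := lt_of_le_of_ne hle hne
    rw [hk, hk'] at hlt
    exact (Nat.pow_lt_pow_iff_right hq.one_lt).1 hlt
  by_cases hpq : p = q
  · -- `q = p`: the degree of `ν` is a nontrivial power of `p`
    subst hpq
    have ha1 : charDegree (ν : ↥U → ℂ) ≠ 1 := by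
      intro h1
      rw [h1, one_pow, mul_one] at hsqU
      have htop : Subgroup.center ↥U = ⊤ := Subgroup.eq_top_of_card_eq _ hsqU.symm
      apply hUnc
      apply hab U hUn
      intro a ha b hb
      have hmem : (⟨a, ha⟩ : ↥U) ∈ Subgroup.center ↥U := by rw [htop]; exact Subgroup.mem_top _
      rw [Subgroup.mem_center_iff] at hmem
      have := hmem ⟨b, hb⟩
      exact (congrArg Subtype.val this).symm
    have hdvd : charDegree (ν : ↥U → ℂ) ∣ p ^ k := by
      rw [← hk, hsqU]
      exact Dvd.dvd.mul_left (dvd_pow_self _ two_ne_zero) _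
    obtain ⟨m, -, hm⟩ := (Nat.dvd_prime_pow hp).1 hdvd
    have hm0 : m ≠ 0 := by
      rintro rfl
      exact ha1 (by simpa using hm)
    refine ⟨p, hp.isPrimePow, ?_, Or.inr (Or.inl ?_)⟩
    · refine dvd_trans ?_ hνdvd
      rw [hm]
      exact dvd_pow_self p hm0
    · exact (Int.modEq_zero_iff_dvd).2 dvd_rfl
  · -- the centres agree
    have hcent : Nat.card ↥(Subgroup.center ↥C) = Nat.card ↥(Subgroup.center ↥U) := by
      rw [← Subgroup.card_map_of_injective (K := Subgroup.center ↥C) C.subtype_injective,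
        ← Subgroup.card_map_of_injective (K := Subgroup.center ↥U) U.subtype_injective]
      congr 2
      ext z
      simp only [Subgroup.mem_map, Subgroup.mem_center_iff, Subgroup.coe_subtype]
      constructor
      · rintro ⟨⟨z, hzC⟩, hz, rfl⟩
        have hzU : z ∈ U := hCU hzC
        have hzx : x * z = z * x := by
          have := (Subgroup.mem_inf.1 hzC).2
          rw [Subgroup.mem_centralizer_iff] at this
          exact this x rfl
        refine ⟨⟨z, hzU⟩, ?_, rfl⟩
        intro g
        apply Subtype.ext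
        have key := hCent G p q hp hq hpq U hUn hUq hUcomm x hxp z hzU hzx (by
          intro c hc hxc
          have hcC : c ∈ C := by
            refine Subgroup.mem_inf.2 ⟨hc, ?_⟩
            rw [Subgroup.mem_centralizer_iff]
            intro h hh
            rw [Set.mem_singleton_iff] at hh
            rw [hh]; exact hxc
          have := hz ⟨c, hcC⟩
          exact (congrArg Subtype.val this).symm) (g : G) g.2
        exact key.symm
      · rintro ⟨⟨z, hzU⟩, hz, rfl⟩
        have hzZ : z ∈ Subgroup.center G := by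
          apply hZU z hzU
          intro u hu
          have := hz ⟨u, hu⟩
          exact (congrArg Subtype.val this).symm
        have hzC : z ∈ C := by
          refine Subgroup.mem_inf.2 ⟨hzU, ?_⟩
          rw [Subgroup.mem_centralizer_iff]
          intro h hh
          rw [Set.mem_singleton_iff] at hh
          rw [hh]
          rw [Subgroup.mem_center_iff] at hzZ
          exact hzZ x
        refine ⟨⟨z, hzC⟩, ?_, rfl⟩
        intro g
        apply Subtype.ext
        have := hz ⟨(g : G), hCU g.2⟩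
        have h2 := congrArg Subtype.val this
        exact h2
    have horb := hOrb G p hp U hUn x hxp
    rw [← hC] at horb
    rw [hcent] at hsqC
    apply hAri p q (Nat.card ↥(Subgroup.center ↥U)) (charDegree (ν : ↥U → ℂ))
      (charDegree (η : ↥C → ℂ)) (charDegree (χ : G → ℂ)) k k' hp hq hpq
    · rw [← hsqU, hk]
    · rw [← hsqC, hk']
    · exact hkk
    · rw [← hsqU, ← hsqC]; exact horb
    · exact hνdvd

theorem top (hBr : Br.{u}) (hR1 : R1.{u}) (hR2 : R2.{u}) (hR3a : R3a.{u}) (hLemP : LemP.{u})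
    (hMinU : MinU.{u}) (hCent : Cent.{u}) (hSq : Sq.{u}) (hCon : Con.{u}) (hOrb : Orb.{u})
    (hAri : Ari) :
    ∀ (n : ℕ) (G : Type u) [Group G] [Finite G], Nat.card G = n → Group.IsSolvable G →
      ∀ p : ℕ, p.Prime → WinAt G p := by
  intro n
  induction n using Nat.strong_induction_on with
  | _ n ih =>
    intro G _ _ hcard hsolv p hp χ hf ⟨P, hP⟩
    by_cases hN : ∃ N : Subgroup G, N.Normal ∧ N ≠ ⊤ ∧ ¬ ((P : Subgroup G) ⊓ N).Normal
    · obtain ⟨N, hNn, hNtop, hNP⟩ := hN
      have hQ := hBr G p hp P N hNn hNP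
      apply hR1 G χ hf p hp N hNn hQ
      intro K hK
      have hlt : Nat.card (↥N ⧸ K) < n := by
        have h1 : Nat.card (↥N ⧸ K) ≤ Nat.card ↥N :=
          Nat.le_of_dvd Nat.card_pos (Subgroup.card_quotient_dvd_card K)
        have h2 : Nat.card ↥N < Nat.card G := by
          have hle : Nat.card ↥N ≤ Nat.card G := Subgroup.card_le_card_group N
          have hne : Nat.card ↥N ≠ Nat.card G := fun h => hNtop (Subgroup.eq_top_of_card_eq N h)
          exact lt_of_le_of_ne hle hne
        omega
      have hsN : Group.IsSolvable ↥N := inferInstance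
      have hsQ : Group.IsSolvable (↥N ⧸ K) := inferInstance
      exact ih _ hlt (↥N ⧸ K) rfl hsQ p hp
    · push Not at hN
      obtain ⟨x, hxP, hx⟩ := hR2 G hsolv p hp P hP hN
      have hxp : IsPGroup p ↥(Subgroup.zpowers x) :=
        P.isPGroup'.to_le ((Subgroup.zpowers_le).2 hxP)
      by_cases hab : ∀ A : Subgroup G, A.Normal → (∀ a ∈ A, ∀ b ∈ A, a * b = b * a) →
          A ≤ Subgroup.center G
      · have hnab : ∃ a b : G, a * b ≠ b * a := by
          by_contra hcon
          push Not at hcon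
          apply hP
          refine ⟨fun a ha g => ?_⟩
          rw [hcon g a, mul_inv_cancel_right]
          exact ha
        exact fin hMinU hCent hSq hCon hOrb hAri G χ hf hsolv p hp x hxp hx hab hnab
      · push Not at hab
        obtain ⟨A, hAn, hAab, hAc⟩ := hab
        obtain ⟨T, hTdvd, hT⟩ := hR3a G χ hf A hAn hAab
        have hTtop : T ≠ ⊤ := fun h => hAc (hT h)
        have hxT : x ∉ T.normalCore := by
          intro hxT
          have h1 := hx T.normalCore (Subgroup.normalCore_normal T) hxT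
          apply hTtop
          rw [eq_top_iff, ← h1]
          exact Subgroup.normalCore_le T
        exact good_of_good01 (hLemP G hsolv p hp T x hxp hxT) hTdvd

end Cfsg.Agent.Lib.Helper74.WinAsm
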