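import Mathlib
import Cfsg.Agent.Lib.Helper74.WinStmt
import Cfsg.Agent.Lib.Helper3.TDBasic
import Cfsg.Agent.Lib.Helper3.MGroup

/-!
# Winter's theorem (S4467): piece CON
-/

set_option autoImplicit false

namespace Cfsg.Agent.Lib.Helper74.WinCON

open Cfsg Cfsg.Agent.Lib.Helper74.WinStmt
open Cfsg.Agent.Lib.Helper80.Integrality Cfsg.Agent.Lib.CT.Wedderburn
open scoped ComplexConjugate

universe u

theorem main : Con.{u} := by
  intro G _ _ χ hf H
  classical
  have := Fintype.ofFinite G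
  have := Fintype.ofFinite ↥H
  have := Cfsg.Agent.Lib.Helper3.Irr.finite_irrCharacter (G := ↥H)
  have := Fintype.ofFinite (IrrCharacter ↥H)
  have hχc : IsCharacter G (χ : G → ℂ) := isCharacter_of_irr χ.2
  have hΦ : IsCharacter ↥H (fun h : ↥H => (χ : G → ℂ) h) :=
    Cfsg.Agent.Lib.CT.Ops.isCharacter_restrict H hχc
  obtain ⟨m, hm, -, hdeg, -⟩ := Cfsg.Agent.Lib.Helper80.Restrict.exists_mult hΦ
  have hdegX : charDegree (fun h : ↥H => (χ : G → ℂ) h) = charDegree (χ : G → ℂ) := rfl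
  have hpos : 0 < charDegree (χ : G → ℂ) := charDegree_pos χ
  obtain ⟨η, hη⟩ : ∃ η : IrrCharacter ↥H, m η ≠ 0 := by
    by_contra hcon
    push Not at hcon
    rw [hdegX] at hdeg
    rw [hdeg] at hpos
    simp [hcon] at hpos
  have hcon : classInner (fun h : ↥H => (χ : G → ℂ) h) (η : ↥H → ℂ) ≠ 0 := by
    rw [hm η]
    exact_mod_cast hη
  refine ⟨η, ?_, ?_⟩
  · intro z hzZ hηz
    have hnorm := Cfsg.Agent.Lib.CT.Kernel.norm_eq_of_mem_center χ.2 hzZ
    obtain ⟨ω, hω1, -, hω3⟩ := Cfsg.Agent.Lib.CT.Kernel.exists_scalar_of_norm_eq hχc hnorm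
    have hηc : IsCharacter ↥H (η : ↥H → ℂ) := isCharacter_of_irr η.2
    have key : classInner (fun h : ↥H => (χ : G → ℂ) h) (η : ↥H → ℂ) =
        ω * classInner (fun h : ↥H => (χ : G → ℂ) h) (η : ↥H → ℂ) := by
      have h1 : ∑ g : ↥H, (χ : G → ℂ) g * conj ((η : ↥H → ℂ) g) =
          ∑ g : ↥H, (χ : G → ℂ) ((z * g : ↥H) : G) * conj ((η : ↥H → ℂ) (z * g)) :=
        (Fintype.sum_equiv (Equiv.mulLeft z) _ _ (fun g => rfl)).symm
      have h2 : ∀ g : ↥H, (χ : G → ℂ) ((z * g : ↥H) : G) * conj ((η : ↥H → ℂ) (z * g)) =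
          ω * ((χ : G → ℂ) g * conj ((η : ↥H → ℂ) g)) := by
        intro g
        rw [Cfsg.Agent.Lib.CT.Kernel.apply_mul_of_eq hηc hηz g, Subgroup.coe_mul, hω1]
        ring
      have hS : ∑ g : ↥H, (χ : G → ℂ) g * conj ((η : ↥H → ℂ) g) =
          ω * ∑ g : ↥H, (χ : G → ℂ) g * conj ((η : ↥H → ℂ) g) := by
        rw [Finset.mul_sum, ← Finset.sum_congr rfl (fun g _ => h2 g)]
        exact h1
      unfold classInner
      rw [mul_left_comm, ← hS]
    have hω : ω = 1 := by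
      have h3 : (ω - 1) * classInner (fun h : ↥H => (χ : G → ℂ) h) (η : ↥H → ℂ) = 0 := by
        rw [sub_mul, one_mul, ← key, sub_self]
      rcases mul_eq_zero.1 h3 with h | h
      · exact sub_eq_zero.1 h
      · exact absurd h hcon
    have h4 : (χ : G → ℂ) (z : G) = (χ : G → ℂ) 1 := by rw [hω3, hω, one_mul]
    exact Subtype.ext (hf _ h4)
  · intro hH
    exact (Cfsg.Agent.Lib.Helper3.TDBasic.deg_of_constituent H η χ hcon).1

end Cfsg.Agent.Lib.Helper74.WinCON
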