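import Mathlib
import Cfsg.Agent.Lib.Helper74.WinStmt

/-!
# Winter's theorem (S4467): piece PIND
-/

set_option autoImplicit false

namespace Cfsg.Agent.Lib.Helper74.WinPIND

open Cfsg Cfsg.Agent.Lib.Helper74.WinStmt

universe u

theorem isPGroup_zpowers_iff {G : Type*} [Group G] (p : ℕ) (a : G) :
    IsPGroup p ↥(Subgroup.zpowers a) ↔ ∃ k : ℕ, a ^ p ^ k = 1 := by
  constructor
  · intro h
    obtain ⟨k, hk⟩ := h ⟨a, Subgroup.mem_zpowers a⟩
    exact ⟨k, by simpa using congrArg Subtype.val hk⟩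
  · rintro ⟨k, hk⟩ ⟨w, hw⟩
    obtain ⟨j, rfl⟩ := Subgroup.mem_zpowers_iff.1 hw
    refine ⟨k, Subtype.ext ?_⟩
    simp only [Subgroup.coe_pow, Subgroup.coe_one]
    rw [← zpow_natCast, ← zpow_mul, mul_comm, zpow_mul, zpow_natCast, hk, one_zpow]

theorem key (hA : PrimA.{u}) (hB : PrimB.{u}) :
    ∀ (n : ℕ) (G : Type u) [Group G] [Finite G], Nat.card G = n → Group.IsSolvable G →
      ∀ (p : ℕ), p.Prime → ∀ (T : Subgroup G) (y : G), IsPGroup p ↥(Subgroup.zpowers y) →
      y ∉ T.normalCore → Good01 p T.index := by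
  intro n
  induction n using Nat.strong_induction_on with
  | _ n ih =>
    intro G _ _ hcard hsolv p hp T y hy hyT
    have hTtop : T ≠ ⊤ := by
      rintro rfl
      apply hyT
      intro b
      exact Subgroup.mem_top _
    obtain ⟨M, hM, hTM⟩ := (eq_top_or_exists_le_coatom T).resolve_left hTtop
    by_cases hyM : y ∈ M.normalCore
    · have hex : ∃ g : G, g * y * g⁻¹ ∉ T := by
        by_contra hcon
        push Not at hcon
        exact hyT hcon
      obtain ⟨g, hg⟩ := hex
      have hgM : g * y * g⁻¹ ∈ M :=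
        M.normalCore_le ((Subgroup.normalCore_normal M).conj_mem y hyM g)
      have hy' : IsPGroup p ↥(Subgroup.zpowers (⟨g * y * g⁻¹, hgM⟩ : ↥M)) := by
        rw [isPGroup_zpowers_iff] at hy ⊢
        obtain ⟨k, hk⟩ := hy
        refine ⟨k, Subtype.ext ?_⟩
        simp only [Subgroup.coe_pow, Subgroup.coe_one]
        rw [conj_pow, hk, mul_one, mul_inv_cancel]
      have hy'T : (⟨g * y * g⁻¹, hgM⟩ : ↥M) ∉ (T.subgroupOf M).normalCore := by
        intro h
        have h2 := (T.subgroupOf M).normalCore_le h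
        exact hg (Subgroup.mem_subgroupOf.1 h2)
      have hlt : Nat.card ↥M < n := by
        have hle : Nat.card ↥M ≤ Nat.card G := Subgroup.card_le_card_group M
        have hne : Nat.card ↥M ≠ Nat.card G := fun h => hM.1 (Subgroup.eq_top_of_card_eq M h)
        omega
      have hsM : Group.IsSolvable ↥M := inferInstance
      obtain ⟨q, hq, hdvd, h⟩ := ih _ hlt ↥M rfl hsM p hp (T.subgroupOf M) _ hy' hy'T
      exact ⟨q, hq, dvd_trans hdvd (Subgroup.relIndex_dvd_index_of_le hTM), h⟩
    · obtain ⟨V, q, k, hq, hVn, hKV, hrel, hidx, hcen⟩ := hA G hsolv M hM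
      have h1 := hB G p hp M.normalCore V q k hq (Subgroup.normalCore_normal M) hVn hKV hrel hcen
        y hy hyM
      rw [← hidx] at h1
      obtain ⟨q', hq', hdvd, h⟩ := h1
      exact ⟨q', hq', dvd_trans hdvd (Subgroup.index_dvd_of_le hTM), h⟩

theorem main : PInd.{u} := by
  intro hA hB G _ _ hsolv p hp T y hy hyT
  exact key hA hB _ G rfl hsolv p hp T y hy hyT

end Cfsg.Agent.Lib.Helper74.WinPIND
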