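import Mathlib
import Cfsg.Agent.Lib.Helper74.WinStmt
import Cfsg.Agent.Lib.Helper74.WinPIND
import Cfsg.Agent.Lib.Helper67.WinORB

/-!
# Winter's theorem (S4467): piece PRIMB
-/

set_option autoImplicit false

namespace Cfsg.Agent.Lib.Helper74.WinPRIMB

open Cfsg Cfsg.Agent.Lib.Helper74.WinStmt

universe u

theorem main : PrimB.{u} := by
  intro G _ _ p hp K V q k hq hKn hVn hKV hrel hcen y hy hyK
  classical
  have hk0 : k ≠ 0 := by
    rintro rfl
    rw [pow_zero, Subgroup.relIndex_eq_one] at hrel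
    apply hyK
    apply hrel
    apply hcen
    intro v hv
    have h1 : y * v * y⁻¹ ∈ K := hKn.conj_mem v (hrel hv) y
    exact K.mul_mem h1 (K.inv_mem (hrel hv))
  by_cases hpq : p = q
  · subst hpq
    refine ⟨p ^ k, hp.isPrimePow.pow hk0, dvd_rfl, Or.inl ?_⟩
    rw [Int.modEq_zero_iff_dvd]
    exact_mod_cast dvd_pow_self p hk0
  · set π : G →* G ⧸ K := QuotientGroup.mk' K with hπ
    set Vb : Subgroup (G ⧸ K) := V.map π with hVb
    have hVbn : Vb.Normal := Subgroup.Normal.map hVn π (QuotientGroup.mk'_surjective K)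
    have hcardVb : Nat.card ↥Vb = q ^ k := by
      rw [← hrel, Subgroup.relIndex, hVb, ← MonoidHom.domRestrict_range,
        ← Subgroup.index_ker, MonoidHom.ker_domRestrict, QuotientGroup.ker_mk']
    have hyb : IsPGroup p ↥(Subgroup.zpowers (π y)) := by
      rw [Cfsg.Agent.Lib.Helper74.WinPIND.isPGroup_zpowers_iff] at hy ⊢
      obtain ⟨j, hj⟩ := hy
      exact ⟨j, by rw [← map_pow, hj, map_one]⟩
    have horb := Cfsg.Agent.Lib.Helper67.WinORB.main (G ⧸ K) p hp Vb hVbn (π y) hyb
    set F : Subgroup (G ⧸ K) := Vb ⊓ Subgroup.centralizer {π y} with hF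
    have hFV : F ≤ Vb := inf_le_left
    have hFdvd : Nat.card ↥F ∣ q ^ k := by
      rw [← hcardVb]
      exact Subgroup.card_dvd_of_le hFV
    obtain ⟨c, hck, hc⟩ := (Nat.dvd_prime_pow hq).1 hFdvd
    have hπy : π y ≠ 1 := by
      intro h
      apply hyK
      rw [hπ] at h
      exact (QuotientGroup.eq_one_iff y).1 h
    have hcne : c ≠ k := by
      intro hceq
      rw [hceq] at hc
      have hFeq : F = Vb := Subgroup.eq_of_le_of_card_ge hFV (by rw [hc, hcardVb])
      have hVle : Vb ≤ Subgroup.centralizer {π y} := by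
        rw [← hFeq]; exact inf_le_right
      have hyV : y ∈ V := by
        apply hcen
        intro v hv
        have h1 : π v ∈ Subgroup.centralizer {π y} := hVle (Subgroup.mem_map_of_mem π hv)
        rw [Subgroup.mem_centralizer_iff] at h1
        have h2 := h1 (π y) rfl
        rw [← (QuotientGroup.eq_one_iff _)]
        show π (y * v * y⁻¹ * v⁻¹) = 1
        rw [map_mul, map_mul, map_mul, h2, map_inv, map_inv, mul_inv_cancel_right, mul_inv_cancel]
      have h3 : orderOf (π y) ∣ q ^ k := by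
        rw [← hcardVb]
        exact Subgroup.orderOf_dvd_natCard Vb (Subgroup.mem_map_of_mem π hyV)
      rw [Cfsg.Agent.Lib.Helper74.WinPIND.isPGroup_zpowers_iff] at hyb
      obtain ⟨j, hj⟩ := hyb
      have h4 : orderOf (π y) ∣ p ^ j := orderOf_dvd_of_pow_eq_one hj
      have hcop : Nat.Coprime (p ^ j) (q ^ k) :=
        Nat.Coprime.pow _ _ ((Nat.coprime_primes hp hq).2 hpq)
      have h5 : orderOf (π y) = 1 := Nat.eq_one_of_dvd_coprimes hcop h4 h3
      exact hπy (orderOf_eq_one_iff.1 h5)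
    have hlt : c < k := lt_of_le_of_ne hck hcne
    rw [hcardVb, hc] at horb
    have h6 : q ^ c * q ^ (k - c) ≡ q ^ c * 1 [MOD p] := by
      rw [← pow_add, mul_one, Nat.add_sub_cancel' hck]
      exact horb
    have hcop : Nat.gcd p (q ^ c) = 1 :=
      Nat.Coprime.pow_right _ ((Nat.coprime_primes hp hq).2 hpq)
    have h7 : q ^ (k - c) ≡ 1 [MOD p] := Nat.ModEq.cancel_left_of_coprime hcop h6
    refine ⟨q ^ (k - c), hq.isPrimePow.pow (by omega), pow_dvd_pow q (Nat.sub_le k c),
      Or.inr ?_⟩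
    have h8 := (Int.natCast_modEq_iff).2 h7
    exact_mod_cast h8

end Cfsg.Agent.Lib.Helper74.WinPRIMB
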